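import Mathlib

/-! Two primes in the interval `(n/2, n]` for `n ≥ 11`. -/

namespace CfsgAS
open Nat

theorem pow6_le (s : ℕ) (hs : 33 ≤ s) : (s + 1) ^ 6 ≤ 2 ^ (s - 2) := by
  induction s, hs using Nat.le_induction with
  | base => norm_num
  | succ k hk ih =>
    have e : k + 1 - 2 = (k - 2) + 1 := by omega
    rw [e, pow_succ 2]
    have h1 : 10 * (k + 1 + 1) ≤ 11 * (k + 1) := by omega
    have h2 := Nat.pow_le_pow_left h1 6
    rw [mul_pow, mul_pow] at h2
    norm_num at h2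
    omega

theorem main_ineq {m : ℕ} (hm : 545 ≤ m) :
    m * ((2 * m) ^ sqrt (2 * m) * 4 ^ (2 * m / 3) * (2 * m)) ≤ 4 ^ m := by
  set s := sqrt (2 * m) with hs
  have s1 : s * s ≤ 2 * m := Nat.sqrt_le _
  have s2 : 2 * m < (s + 1) * (s + 1) := Nat.lt_succ_sqrt _
  have s3 : 33 ≤ s := by
    rw [hs, Nat.le_sqrt]; omega
  have h1 : ((2 * m) ^ (s + 2)) ^ 3 ≤ 2 ^ (2 * m) := by
    calc ((2 * m) ^ (s + 2)) ^ 3 ≤ (((s + 1) * (s + 1)) ^ (s + 2)) ^ 3 := by gcongr
      _ = ((s + 1) ^ 6) ^ (s + 2) := by rw [← pow_two, ← pow_mul, ← pow_mul, ← pow_mul]; ring_nf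
      _ ≤ (2 ^ (s - 2)) ^ (s + 2) := Nat.pow_le_pow_left (pow6_le s s3) _
      _ = 2 ^ ((s - 2) * (s + 2)) := by rw [← pow_mul]
      _ ≤ 2 ^ (2 * m) := by
        apply Nat.pow_le_pow_right two_pos
        obtain ⟨t, ht⟩ : ∃ t, s = t + 2 := ⟨s - 2, by omega⟩
        rw [ht] at s1 ⊢
        rw [Nat.add_sub_cancel]; nlinarith
  have h2 : (2 * m) ^ (s + 2) ≤ 4 ^ (m - 2 * m / 3) := by
    refine (Nat.pow_le_pow_iff_left (n := 3) (by norm_num)).1 (h1.trans ?_)
    rw [← pow_mul, show (4 : ℕ) = 2 ^ 2 by norm_num, ← pow_mul]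
    apply Nat.pow_le_pow_right two_pos
    omega
  calc m * ((2 * m) ^ s * 4 ^ (2 * m / 3) * (2 * m))
      ≤ (2 * m) * ((2 * m) ^ s * 4 ^ (2 * m / 3) * (2 * m)) := by gcongr; omega
    _ = (2 * m) ^ (s + 2) * 4 ^ (2 * m / 3) := by ring
    _ ≤ 4 ^ (m - 2 * m / 3) * 4 ^ (2 * m / 3) := by gcongr
    _ = 4 ^ m := by rw [← pow_add]; congr 1; omega

theorem small_prod_le (n : ℕ) (n_pos : 0 < n) :
    ∏ p ∈ Finset.range (2 * n / 3 + 1), p ^ (centralBinom n).factorization p ≤
      (2 * n) ^ sqrt (2 * n) * 4 ^ (2 * n / 3) := by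
  have n2_pos : 1 ≤ 2 * n := mul_pos (zero_lt_two' ℕ) n_pos
  let S := {p ∈ Finset.range (2 * n / 3 + 1) | Nat.Prime p}
  let f x := x ^ n.centralBinom.factorization x
  have : ∏ x ∈ S, f x = ∏ x ∈ Finset.range (2 * n / 3 + 1), f x := by
    refine Finset.prod_filter_of_ne fun p _ h => ?_
    contrapose h; dsimp only [f]
    rw [factorization_eq_zero_of_not_prime n.centralBinom h, _root_.pow_zero]
  rw [← this, ← Finset.prod_filter_mul_prod_filter_not S (· ≤ sqrt (2 * n))]
  apply mul_le_mul'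
  · refine (Finset.prod_le_prod' fun p _ => (?_ : f p ≤ 2 * n)).trans ?_
    · exact pow_factorization_choose_le (mul_pos two_pos n_pos)
    have : (Finset.Icc 1 (sqrt (2 * n))).card = sqrt (2 * n) := by rw [card_Icc, Nat.add_sub_cancel]
    rw [Finset.prod_const]
    refine pow_right_mono₀ n2_pos ((Finset.card_le_card fun x hx => ?_).trans this.le)
    obtain ⟨h1, h2⟩ := Finset.mem_filter.1 hx
    exact Finset.mem_Icc.mpr ⟨(Finset.mem_filter.1 h1).2.one_lt.le, h2⟩
  · refine le_trans ?_ (primorial_le_four_pow (2 * n / 3))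
    refine (Finset.prod_le_prod' fun p hp => (?_ : f p ≤ p)).trans ?_
    · obtain ⟨h1, h2⟩ := Finset.mem_filter.1 hp
      refine (pow_right_mono₀ (Finset.mem_filter.1 h1).2.one_lt.le ?_).trans (pow_one p).le
      exact Nat.factorization_choose_le_one (sqrt_lt'.mp <| not_le.1 h2)
    refine Finset.prod_le_prod_of_subset_of_one_le' (Finset.filter_subset _ _) ?_
    exact fun p hp _ => (Finset.mem_filter.1 hp).2.one_lt.le

theorem centralBinom_le_of_one (n : ℕ) (n_large : 2 < n) (p0 : ℕ) (h0 : n < p0)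
    (no_prime : ∀ p : ℕ, p.Prime → n < p → p ≤ 2 * n → p = p0) :
    centralBinom n ≤ (2 * n) ^ sqrt (2 * n) * 4 ^ (2 * n / 3) * (2 * n) := by
  have n_pos : 0 < n := by omega
  have hn : p0 ∉ Finset.range (2 * n / 3 + 1) := by
    rw [Finset.mem_range]; omega
  have key : centralBinom n ≤
      ∏ p ∈ insert p0 (Finset.range (2 * n / 3 + 1)), p ^ (centralBinom n).factorization p := by
    conv_lhs => rw [← n.prod_pow_factorization_centralBinom]
    rw [← Finset.prod_filter_ne_one]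
    refine Finset.prod_le_prod_of_subset_of_one_le' (fun x hx' => ?_) (fun i _ _ => ?_)
    swap
    · rcases Nat.eq_zero_or_pos i with rfl | hi
      · simp
      · exact Nat.one_le_pow _ _ hi
    obtain ⟨hx, h1⟩ := Finset.mem_filter.1 hx'
    by_contra h2x
    rw [Finset.mem_insert, not_or] at h2x
    obtain ⟨h3, h2x⟩ := h2x
    rw [Finset.mem_range, Nat.lt_succ_iff] at hx h2x
    rw [not_le, div_lt_iff_lt_mul three_pos, mul_comm x] at h2x
    apply h1
    by_cases hp : x.Prime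
    · have : x ≤ n := by
        by_contra h
        exact h3 (no_prime x hp (by omega) hx)
      rw [factorization_centralBinom_of_two_mul_self_lt_three_mul n_large this h2x, Nat.pow_zero]
    · rw [factorization_eq_zero_of_not_prime n.centralBinom hp, Nat.pow_zero]
  rw [Finset.prod_insert hn, mul_comm] at key
  refine key.trans (mul_le_mul' (small_prod_le n n_pos) ?_)
  exact pow_factorization_choose_le (mul_pos two_pos n_pos)

theorem two_primes_large {m : ℕ} (hm : 545 ≤ m) :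
    ∃ p q : ℕ, p.Prime ∧ q.Prime ∧ q < p ∧ m < q ∧ p ≤ 2 * m := by
  obtain ⟨p0, hp0, h1, h2⟩ := Nat.exists_prime_lt_and_le_two_mul m (by omega)
  by_contra hc
  have h := centralBinom_le_of_one m (by omega) p0 h1 fun p hp h3 h4 => by
    by_contra hne
    rcases lt_or_gt_of_ne hne with h | h
    · exact hc ⟨p0, p, hp0, hp, h, h3, h2⟩
    · exact hc ⟨p, p0, hp, hp0, h, h1, h4⟩
  have h5 : 4 ^ m < m * m.centralBinom := Nat.four_pow_lt_mul_centralBinom m (by omega)
  have h6 := main_ineq hm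
  have h7 := Nat.mul_le_mul_left m h
  omega

theorem two_primes {n : ℕ} (hn : 11 ≤ n) :
    ∃ p q : ℕ, p.Prime ∧ q.Prime ∧ q < p ∧ n < 2 * q ∧ p ≤ n := by
  by_cases h : 1090 ≤ n
  · obtain ⟨p, q, h1, h2, h3, h4, h5⟩ := two_primes_large (m := n / 2) (by omega)
    exact ⟨p, q, h1, h2, h3, by omega, by omega⟩
  by_cases h : 619 ≤ n
  · exact ⟨619, 617, by norm_num, by norm_num, by omega, by omega, h⟩
  by_cases h : 313 ≤ n
  · exact ⟨313, 311, by norm_num, by norm_num, by omega, by omega, h⟩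
  by_cases h : 163 ≤ n
  · exact ⟨163, 157, by norm_num, by norm_num, by omega, by omega, h⟩
  by_cases h : 89 ≤ n
  · exact ⟨89, 83, by norm_num, by norm_num, by omega, by omega, h⟩
  by_cases h : 53 ≤ n
  · exact ⟨53, 47, by norm_num, by norm_num, by omega, by omega, h⟩
  by_cases h : 31 ≤ n
  · exact ⟨31, 29, by norm_num, by norm_num, by omega, by omega, h⟩
  by_cases h : 19 ≤ n
  · exact ⟨19, 17, by norm_num, by norm_num, by omega, by omega, h⟩
  by_cases h : 13 ≤ n
  · exact ⟨13, 11, by norm_num, by norm_num, by omega, by omega, h⟩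
  exact ⟨11, 7, by norm_num, by norm_num, by omega, by omega, hn⟩

end CfsgAS
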