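import Cfsg.Agent.H2.BG0
import Cfsg.Agent.H9.TwoPr

/-! Groups with the order and spectrum of an alternating group. -/

namespace CfsgAS
open Subgroup Cfsg CfsgH2 Function

theorem perm_no {n p q : ℕ} (hp : p.Prime) (hq : q.Prime) (hne : p ≠ q) (h : n < p + q)
    (σ : Equiv.Perm (Fin n)) : orderOf σ ≠ p * q := by
  intro e
  have hl : σ.cycleType.lcm ∣ σ.cycleType.prod := Multiset.lcm_dvd.2 fun b hb => Multiset.dvd_prod hb
  rw [Equiv.Perm.lcm_cycleType, e] at hl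
  obtain ⟨a, ha, h1⟩ := hp.prime.exists_mem_multiset_dvd ((dvd_mul_right p q).trans hl)
  obtain ⟨b, hb, h2⟩ := hq.prime.exists_mem_multiset_dvd ((dvd_mul_left q p).trans hl)
  have hs := σ.sum_cycleType_le
  rw [Fintype.card_fin] at hs
  have a0 : 0 < a := lt_of_lt_of_le two_pos (Equiv.Perm.two_le_of_mem_cycleType ha)
  have b0 : 0 < b := lt_of_lt_of_le two_pos (Equiv.Perm.two_le_of_mem_cycleType hb)
  by_cases hab : a = b
  · subst hab
    have h3 : p * q ∣ a := ((Nat.coprime_primes hp hq).2 hne).mul_dvd_of_dvd_of_dvd h1 h2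
    have h4 := Nat.le_of_dvd a0 h3
    have h5 : a ≤ σ.cycleType.sum := Multiset.single_le_sum (fun _ _ => Nat.zero_le _) a ha
    have := Nat.add_le_mul hp.two_le hq.two_le
    omega
  · obtain ⟨t, ht⟩ := Multiset.exists_cons_of_mem ha
    rw [ht] at hb hs
    have hb' : b ∈ t := (Multiset.mem_cons.1 hb).resolve_left (Ne.symm hab)
    have h5 : b ≤ t.sum := Multiset.single_le_sum (fun _ _ => Nat.zero_le _) b hb'
    rw [Multiset.sum_cons] at hs
    have := Nat.le_of_dvd a0 h1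
    have := Nat.le_of_dvd b0 h2
    omega

variable {G : Type*} [Group G] [Finite G] {n p q : ℕ}

omit [Finite G] in
theorem spec_no (hspec : Set.range (orderOf : G → ℕ) =
      Set.range (orderOf : ↥(alternatingGroup (Fin n)) → ℕ))
    (hp : p.Prime) (hq : q.Prime) (hne : p ≠ q) (h : n < p + q) (x : G) : orderOf x ≠ p * q := by
  have : orderOf x ∈ Set.range (orderOf : G → ℕ) := ⟨x, rfl⟩
  rw [hspec] at this
  obtain ⟨τ, hτ⟩ := this
  rw [← hτ, ← Subgroup.orderOf_coe]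
  exact perm_no hp hq hne h _

omit [Group G] [Finite G] in
theorem two_mul_card (hn : 2 ≤ n) (hcard : Nat.card G = Nat.card ↥(alternatingGroup (Fin n))) :
    2 * Nat.card G = n.factorial := by
  haveI : Nontrivial (Fin n) := Fin.nontrivial_iff_two_le.2 hn
  rw [hcard, two_mul_nat_card_alternatingGroup, Nat.card_perm, Nat.card_eq_fintype_card,
    Fintype.card_fin]

theorem dvd_of_le {m : ℕ} (h : 2 * m = n.factorial) (hp : p.Prime) (h2 : p ≠ 2) (hl : p ≤ n) :
    p ∣ m := by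
  have := (hp.dvd_factorial).2 hl
  rw [← h] at this
  exact ((Nat.coprime_primes hp Nat.prime_two).2 h2).dvd_of_dvd_mul_left this

theorem not_sq_dvd {m : ℕ} (h : 2 * m = n.factorial) (hp : p.Prime) (hl : n < 2 * p) :
    ¬ p ^ 2 ∣ m := by
  intro hd
  have h1 : p ^ 2 ∣ n.factorial := h ▸ hd.mul_left 2
  have h2 : Nat.log p n < 2 := by
    rcases Nat.eq_zero_or_pos n with rfl | h0
    · simp
    · refine (Nat.log_lt_iff_lt_pow hp.one_lt h0.ne').2 (lt_of_lt_of_le hl ?_)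
      rw [pow_two]; exact Nat.mul_le_mul_right _ hp.two_le
  rw [hp.pow_dvd_factorial_iff h2] at h1
  simp only [Nat.Ico_succ_singleton, Finset.sum_singleton, pow_one] at h1
  have : n / p < 2 := (Nat.div_lt_iff_lt_mul hp.pos).2 hl
  omega

theorem exists_pq {P : Subgroup G} (hp : p.Prime) (hq : q.Prime) (hne : p ≠ q) (hP : o[P] = p)
    (hd : q ∣ o[N[P]]) (h : ¬ q ∣ p - 1) : ∃ x : G, orderOf x = p * q := by
  obtain ⟨y, hy, oy⟩ := exists_prime_order_mem hq hd
  obtain ⟨x, hx, ox⟩ := exists_prime_order_mem (H := P) hp (hP ▸ dvd_rfl)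
  have h1 : C[P].relIndex N[P] ∣ p - 1 := by
    haveI := Fact.mk hp
    haveI : IsCyclic P := isCyclic_of_prime_card hP
    rw [← Nat.totient_prime hp, ← hP, ← IsCyclic.card_mulAut, Subgroup.relIndex,
      ← normalizerMonoidHom_ker, index_ker]
    exact card_subgroup_dvd_card _
  have h2 : y ∈ C[P] := by
    refine mem_of_pow_mem_coprime (pow_relIndex_mem' (norm_le_norm_cent P) hy) ?_
    rw [oy]
    exact (Nat.Prime.coprime_iff_not_dvd hq).2 fun h' => h (h'.trans h1)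
  refine ⟨x * y, ?_⟩
  rw [Commute.orderOf_mul_eq_mul_orderOf_of_coprime (mem_cent_iff.1 h2 x hx), ox, oy]
  rw [ox, oy]; exact (Nat.coprime_primes hp hq).2 hne

theorem syl_card {P H : Subgroup G} [hp : Fact p.Prime] (h : Syl p P H) (h1 : p ∣ o[H])
    (h2 : ¬ p ^ 2 ∣ o[H]) : o[P] = p := by
  obtain ⟨k, hk⟩ := IsPGroup.iff_card.1 h.pg
  have h3 := h.dvd_card h1
  have h4 : ¬ p ^ 2 ∣ o[P] := fun h' => h2 (h'.trans (card_dvd_of_le h.le))
  rw [hk] at h3 h4 ⊢
  rcases k with _ | _ | k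
  · exact absurd (Nat.dvd_one.1 h3) hp.out.ne_one
  · exact pow_one p
  · exact absurd (pow_dvd_pow p (by omega)) h4

theorem dvd_of_normal (hp : p.Prime) (hq : q.Prime) (hne : p ≠ q) (h2 : ¬ p ^ 2 ∣ Nat.card G)
    (hd : q ∣ Nat.card G) (h : ¬ q ∣ p - 1) (hno : ∀ x : G, orderOf x ≠ p * q)
    (H : Subgroup G) [H.Normal] (h1 : p ∣ o[H]) : q ∣ o[H] := by
  haveI := Fact.mk hp
  by_contra hc
  obtain ⟨P, hP⟩ := exists_syl p H
  have hPc := syl_card hP h1 fun h' => h2 (h'.trans (card_subgroup_dvd_card H))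
  have e : H ⊔ (⊤ ⊓ N[P]) = ⊤ := hP.frattini_sup le_top (top_le_norm_iff.2 inferInstance)
  rw [top_inf_eq] at e
  have h3 : o[H ⊔ N[P]] ∣ o[H] * o[N[P]] :=
    card_sup_dvd (Or.inr (le_top.trans (top_le_norm_iff.2 inferInstance)))
  rw [e, card_top] at h3
  have h4 := ((Nat.Prime.dvd_mul hq).1 (hd.trans h3)).resolve_left hc
  obtain ⟨x, hx⟩ := exists_pq hp hq hne hPc h4 h
  exact hno x hx

theorem not_solvable (hp : p.Prime) (hq : q.Prime) (hne : p ≠ q) (h1 : p ∣ Nat.card G)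
    (h2 : ¬ p ^ 2 ∣ Nat.card G) (hd : q ∣ Nat.card G) (h3 : ¬ q ^ 3 ∣ Nat.card G)
    (h : ¬ q ∣ p - 1) (h4 : ¬ q ≡ 1 [MOD p]) (h5 : ¬ q ^ 2 ≡ 1 [MOD p])
    (hno : ∀ x : G, orderOf x ≠ p * q) : ¬ Group.IsSolvable G := by
  intro hs
  haveI := Fact.mk hp
  obtain ⟨K, hK⟩ := exists_hall (M := (⊤ : Subgroup G)) {p, q} inferInstance
  have k1 : p ∣ o[K] := hK.dvd_card (PiN.of_prime hp (by simp)) (by rwa [card_top])
  have k2 : q ∣ o[K] := hK.dvd_card (PiN.of_prime hq (by simp)) (by rwa [card_top])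
  obtain ⟨P⟩ : Nonempty (Sylow p K) := inferInstance
  have c1 := card_sylow_modEq_one p K
  have c2 := P.card_dvd_index
  have c3 : PiN {q} P.index := by
    intro r hr hd
    have h6 := hK.pi r hr (hd.trans P.index_dvd_card)
    rcases h6 with rfl | h6
    · exact absurd hd P.not_dvd_index
    · exact h6
  obtain ⟨k, hk⟩ := (piN_singleton hq Nat.card_pos.ne').1 (c3.of_dvd c2)
  have c4 : Nat.card (Sylow p K) = 1 := by
    rw [hk] at c1 c2 ⊢
    rcases k with _ | _ | _ | k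
    · rfl
    · exact absurd (by simpa using c1) h4
    · exact absurd c1 h5
    · exact absurd (((pow_dvd_pow q (by omega)).trans c2).trans
        (P.index_dvd_card.trans (card_subgroup_dvd_card K))) h3
  haveI : Subsingleton (Sylow p K) := (Nat.card_eq_one_iff_unique.1 c4).1
  haveI := P.normal_of_subsingleton
  have hPc := syl_card (syl_sub P) k1 fun h' => h2 (h'.trans (card_subgroup_dvd_card K))
  obtain ⟨x, hx⟩ := exists_pq hp hq hne hPc
    (k2.trans (card_dvd_of_le (le_norm_map_subtype (P : Subgroup K)))) h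
  exact hno x hx

theorem exists_section (hp : p.Prime) (h1 : p ∣ Nat.card G) (h2 : ¬ p ^ 2 ∣ Nat.card G) :
    ∃ (N H : Subgroup G) (_ : N.Normal), H.Normal ∧ N < H ∧ p ∣ o[H] ∧ ¬ p ∣ o[N] ∧
      IsSimpleGroup (↥H ⧸ N.subgroupOf H) := by
  haveI := Fact.mk hp
  obtain ⟨H, -, ⟨hH, hd⟩, hmin⟩ := exists_minimal_le (fun H : Subgroup G => H.Normal ∧ p ∣ o[H])
    (H := ⊤) ⟨inferInstance, by rwa [card_top]⟩
  have hN : ¬ p ∣ o[O[{p}ᶜ, H]] := not_dvd_piCoreOf
  have hlt : O[{p}ᶜ, H] < H := lt_of_le_of_ne piCoreOf_le fun e => hN (e.symm ▸ hd)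
  refine ⟨O[{p}ᶜ, H], H, inferInstance, hH, hlt, hd, hN, ?_⟩
  haveI : Nontrivial (↥H ⧸ (O[{p}ᶜ, H]).subgroupOf H) := by
    rw [QuotientGroup.nontrivial_iff, Ne, subgroupOf_eq_top]
    exact hlt.not_ge
  refine ⟨fun T hT => ?_⟩
  set S := (T.comap (QuotientGroup.mk' ((O[{p}ᶜ, H]).subgroupOf H))).map H.subtype with hS
  have s1 : S ≤ H := map_subtype_le _
  have s2 : H ≤ N[S] := le_norm_map_subtype _
  by_cases hc : p ∣ o[S]
  · right
    obtain ⟨P, hP⟩ := exists_syl p S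
    have hG : ∀ X : Subgroup G, ¬ p ^ 2 ∣ o[X] := fun X h' => h2 (h'.trans (card_subgroup_dvd_card X))
    have hPc := syl_card hP hc (hG S)
    have hPH : Syl p P H := by
      obtain ⟨Q, hQ⟩ := exists_syl p H
      exact hQ.of_card_ge hP.pg (hP.le.trans s1) (by rw [hPc, syl_card hQ hd (hG H)])
    have s3 : normalClosure (P : Set G) ≤ S := by
      rw [normalClosure, closure_le]
      intro x hx
      obtain ⟨a, ha, hx⟩ := Group.mem_conjugatesOfSet_iff.1 hx
      obtain ⟨g, rfl⟩ := isConj_iff.1 hx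
      obtain ⟨k, hk, e⟩ := hPH.conj (hPH.map_cj_norm (g := g) (top_le_norm_iff.2 hH (mem_top g)))
      have : g * a * g⁻¹ ∈ P.map (cj g) := conj_mem_map_cj ha
      rw [← e] at this
      exact map_cj_le_of_norm hP.le (s2 hk) this
    have s4 := hmin _ ⟨inferInstance, hPc ▸ card_dvd_of_le le_normalClosure⟩ (s3.trans s1)
    rw [s4] at s3
    rw [eq_top_iff]
    intro x _
    obtain ⟨y, rfl⟩ := QuotientGroup.mk'_surjective _ x
    obtain ⟨z, hz, e⟩ := s3 y.2
    have : z = y := Subtype.ext e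
    subst this
    exact hz
  · left
    have s3 : S ≤ O[{p}ᶜ, H] := le_pPrimeCoreOf s1 s2 hc
    rw [eq_bot_iff]
    intro x hx
    obtain ⟨y, rfl⟩ := QuotientGroup.mk'_surjective _ x
    rw [mem_bot, QuotientGroup.mk'_apply, QuotientGroup.eq_one_iff, mem_subgroupOf]
    exact s3 ⟨y, hx, rfl⟩

theorem not_dvd_pred (hp : p.Prime) (hq : q.Prime) (h1 : n < 2 * q) (h2 : p ≤ n) (hn : 5 ≤ n)
    (h3 : n < 2 * p) : ¬ q ∣ p - 1 := by
  rintro ⟨c, hc⟩
  have o1 := hp.eq_two_or_odd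
  have o2 := hq.eq_two_or_odd
  rcases c with _ | _ | c
  · omega
  · omega
  · have : q * (c + 1 + 1) = q * c + 2 * q := by ring
    omega

end CfsgAS
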