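import Cfsg.Agent.H9.Cp6

/-! Fixed-point-free action of a nonabelian group of order `pq`. -/

set_option autoImplicit false
open Subgroup Cfsg CfsgH3 CfsgH2 Function
open CfsgH1 (fs mem_fs card_fs cE nm nc)
open CfsgH9 (LF nres)
open scoped commutatorElement IsMulCommutative

namespace CfsgCP

universe u v
variable {G : Type u} [Group G] [Finite G] {Q K B A F H J M P S V X N : Subgroup G} {p q l t : ℕ} {x g : G}

namespace MK
variable (h : MK V Q K) (nV : Q ≤ N[V])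
include h nV

theorem cent_le : Q ⊓ C[V ⊓ C[K]] ≤ K :=
  (h.max _ (le_inf h.le (le_centralizer_iff.1 inf_le_right)) inf_le_left (le_norm_inf le_normalizer
    (le_norm_cent (le_norm_inf nV (le_norm_cent h.n)))) fun e => h.ne (le_bot_iff.1 (e ▸ le_inf
      inf_le_left (le_centralizer_iff.1 inf_le_right)))).le

variable [IsMulCommutative V] {w : Additive V}

theorem avg (h1 : g ∈ N[V]) (h2 : g ∈ N[Q]) (hw : (w.toMul : G) ∈ C[K]) [Decidable (g ∈ N[K])] :
    nm V K (cE V g w) = if g ∈ N[K] then o[K] • cE V g w else 0 := by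
  have m : ((cE V g w).toMul : G) ∈ C[K.map (cj g)] := by
    rw [CfsgH1.cE_apply h1, centralizer_map_cj]; exact conj_mem_map_cj hw
  have n := h.le.trans nV
  split_ifs with c
  · exact CfsgH1.nm_apply_of_cent n (by rwa [map_cj_eq c] at m)
  have k := h.map h1 h2
  by_contra z
  refine c (mem_norm_of_map_le (le_sup_right.trans (h.max _ le_sup_left (sup_le h.le k.le)
    (le_norm_sup h.n k.n) fun e => z (Additive.toMul.injective (Subtype.ext (mem_bot.1 (e.le ?_))))).le))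
  rw [cent_sup]
  exact ⟨Subtype.prop _, CfsgH1.nm_mem_cent n _, CfsgH1.nm_mem n (h.le.trans (le_norm_cent k.n)) m⟩

theorem fix (cQ : o[Q].Coprime o[V]) (h1 : B ≤ N[V]) (h2 : B ≤ N[Q]) (cB : o[B].Coprime o[V])
    (h0 : V ⊓ C[B] = ⊥) : V ⊓ C[K] ⊓ C[B ⊓ N[K]] = ⊥ := by
  classical
  refine eq_bot_iff.2 fun v ⟨⟨v1, v2⟩, v3⟩ => ?_
  have := congrArg (fun φ => nm V K (φ (.ofMul ⟨v, v1⟩))) (CfsgH1.nm_eq_zero h1 h0)
  simp only [CfsgH1.nm_apply (B := B), map_sum] at this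
  rw [Finset.sum_congr rfl (g := fun b => if b ∈ B ⊓ N[K] then o[K] • Additive.ofMul (⟨v, v1⟩ : V) else 0)
    fun b hb => by
      rw [h.avg (w := .ofMul ⟨v, v1⟩) nV (h1 (mem_fs.1 hb)) (h2 (mem_fs.1 hb)) v2]
      refine ite_congr (by simp [mem_fs.1 hb]) (fun c => ?_) fun _ => rfl
      rw [(CfsgH1.cE_apply_eq_iff (h1 c.1) (.ofMul ⟨v, v1⟩)).2 (cent_le_cent1 c v3)], ← Finset.sum_filter,
    Finset.sum_const, show (fs B).filter (· ∈ B ⊓ N[K]) = fs (B ⊓ N[K]) from Finset.ext fun b => by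
      simp [mem_fs], card_fs, smul_smul] at this
  exact congrArg (fun w : Additive V => (w.toMul : G)) (CfsgH1.eq_zero_of_smul_coprime
    ((cB.coprime_dvd_left (card_dvd_of_le inf_le_left)).mul_left
      (cQ.coprime_dvd_left (card_dvd_of_le h.le))) (this.trans (map_zero _)))

theorem beta (cQ : o[Q].Coprime o[V]) (h1 : F ⊔ S ≤ N[V]) (h2 : F ⊔ S ≤ N[Q]) (h0 : F ⊓ N[K] = ⊥)
    (c : o[S].Coprime o[F]) (h3 : S ≤ C[F]) (h4 : S ≤ C[V ⊓ C[F]]) : S ≤ C[V ⊓ C[K]] := by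
  classical
  intro x hx v ⟨v1, v2⟩
  have f1 := le_sup_left.trans h1
  have x1 := h1 (mem_sup_right hx)
  have k : ∀ y ∈ S, nm V K (cE V y (nm V F (.ofMul ⟨v, v1⟩))) = nm V K (cE V y (.ofMul ⟨v, v1⟩)) :=
    fun y hy => by
    simp only [CfsgH1.nm_apply (B := F), map_sum]
    rw [Finset.sum_eq_single_of_mem 1 (mem_fs.2 (one_mem _)) fun f hf f0 => ?_, CfsgH1.cE_one]
    · rfl
    rw [mem_fs] at hf
    have m := mul_mem (mem_sup_right hy) (mem_sup_left (T := S) hf)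
    refine (congrArg (fun φ : AddMonoid.End (Additive V) => nm V K (φ (.ofMul ⟨v, v1⟩))) (CfsgH1.cE_mul (h1 (mem_sup_right hy)) (f1 hf))).symm.trans ?_
    rw [h.avg (w := .ofMul ⟨v, v1⟩) nV (h1 m) (h2 m) v2, if_neg fun a => f0 (mem_bot.1 (h0.le ⟨hf, mem_of_pow_mem_coprime
      (n := o[S]) ?_ (c.symm.coprime_dvd_left (orderOf_dvd_of_mem hf))⟩))]
    have := pow_mem a o[S]
    rwa [Commute.mul_pow (h3 hy f hf).symm, orderOf_dvd_iff_pow_eq_one.1 (orderOf_dvd_of_mem hy),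
      one_mul] at this
  have a := k x hx
  rw [(CfsgH1.cE_apply_eq_iff x1 _).2 (mem_centralizer_singleton_iff.2 (h4 hx _ ⟨Subtype.prop _,
    CfsgH1.nm_mem_cent f1 _⟩))] at a
  have b := k 1 (one_mem _)
  rw [CfsgH1.cE_one] at b
  replace b := (b.symm.trans a).symm
  have cK := cQ.coprime_dvd_left (card_dvd_of_le h.le)
  rw [h.avg (w := .ofMul ⟨v, v1⟩) nV x1 (h2 (mem_sup_right hx)) v2] at b
  replace b := b.trans (CfsgH1.nm_apply_of_cent (h.le.trans nV) v2)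
  split_ifs at b
  · rw [← sub_eq_zero, ← smul_sub] at b
    exact mem_centralizer_singleton_iff.1 ((CfsgH1.cE_apply_eq_iff x1 _).1 (sub_eq_zero.1
      (CfsgH1.eq_zero_of_smul_coprime cK b)))
  · rw [show v = 1 from congrArg (fun w : Additive V => (w.toMul : G))
      (CfsgH1.eq_zero_of_smul_coprime cK b.symm), one_mul, mul_one]

end MK

theorem mem_of_conj (hF : o[F].Prime) (nQ : F ≤ N[Q]) (c : o[F].Coprime o[Q]) (hs : Sol[Q]) (n : Q ≤ N[K])
    (l : K ≤ Q) (h0 : Q ⊓ C[F] ≤ K) (hx : x ∈ Q) (h : ∀ f ∈ F, f ≠ 1 → f * x * f⁻¹ ∈ K) : x ∈ K := by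
  obtain ⟨f, f1, f2⟩ := exists_prime_order_mem hF dvd_rfl
  have k : ∀ m, m + 1 ≤ o[F] → x⁻¹ * (x * f) ^ (m + 1) * (f ^ (m + 1))⁻¹ ∈ K := fun m => by
    induction m with
    | zero => exact fun _ => by simp
    | succ m ih =>
      intro a
      convert mul_mem (ih (by omega)) (h _ (pow_mem f1 (m + 1)) (pow_ne_one_of_lt_orderOf m.succ_ne_zero
        (by omega))) using 1
      rw [pow_succ (x * f), pow_succ f (m + 1)]
      group
  have a := k (o[F] - 1) (Nat.sub_add_cancel hF.pos).le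
  rw [Nat.sub_add_cancel hF.pos, ← f2, pow_orderOf_eq_one, f2, inv_one, mul_one] at a
  have b : (x * f) ^ o[F] ∈ Q := by simpa using mul_mem hx (l a)
  have d : o[zpowers ((x * f) ^ o[Q])] ∣ o[F] := by
    rw [Nat.card_zpowers, orderOf_dvd_iff_pow_eq_one, ← pow_mul, mul_comm, pow_mul]
    exact orderOf_dvd_iff_pow_eq_one.1 (orderOf_dvd_of_mem b)
  obtain ⟨y, y1, y2⟩ := exists_conj_le_compl nQ c (c.coprime_dvd_left d) (.inr hs) (zpowers_le.2 (pow_mem
    (mul_mem (mem_sup_left hx) (mem_sup_right f1)) _))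
  rcases eq_bot_or_eq_of_prime hF y2 with e | e
  · rw [map_cj_eq_bot, zpowers_eq_bot] at e
    have := mem_of_pow_mem_coprime b (c.symm.coprime_dvd_left (orderOf_dvd_of_pow_eq_one e))
    rw [CfsgH1.eq_one_of_mem_of_coprime c f1 ((mul_mem_cancel_left hx).1 this), orderOf_one] at f2
    exact (hF.ne_one f2.symm).elim
  have : y * (x * f) ^ o[F] * y⁻¹ ∈ K := h0 <| mem_inf.2 ⟨mul_mem (mul_mem y1 b) (inv_mem y1), by
    rw [← e, centralizer_map_cj, cent_zpowers]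
    exact conj_mem_map_cj (mem_centralizer_singleton_iff.2 (Commute.pow_pow_self _ _ _))⟩
  simpa [mul_assoc] using mul_mem (conj_mem_of_norm' (n y1) this) (inv_mem a)

/-- a nonabelian group of order `pq`. -/
structure FQ (p q : ℕ) (A F H : Subgroup G) : Prop where
  pp : p.Prime
  qp : q.Prime
  ne : q ≠ p
  cF : o[F] = q
  cH : o[H] = p
  n : H ≤ N[F]
  sup : F ⊔ H = A
  nc : ¬ H ≤ C[F]

namespace FQ
variable (a : FQ p q A F H)
include a

omit [Finite G] in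
theorem le : F ≤ A := a.sup ▸ le_sup_left

omit [Finite G] in
theorem le' : H ≤ A := a.sup ▸ le_sup_right

omit [Finite G] in
theorem nF : A ≤ N[F] := a.sup ▸ sup_le le_normalizer a.n

theorem inf : F ⊓ H = ⊥ := inf_eq_bot_of_coprime' (by
  rw [a.cF, a.cH]; exact (Nat.coprime_primes a.qp a.pp).2 a.ne)

theorem card : o[A] = q * p := by rw [← a.sup, card_sup_of_disj (.inr a.n) a.inf, a.cF, a.cH]

theorem idx : F.relIndex A = p := Nat.eq_of_mul_eq_mul_left a.qp.pos (by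
  rw [← a.card, ← CfsgH2.card_mul_relIndex a.le, a.cF])

theorem cases (h1 : F ≤ J) (h2 : J ≤ A) : J = F ∨ J = A := eq_or_eq_of_relIndex_prime (a.idx ▸ a.pp) h1 h2

theorem ab : Ab[F] := isMulComm_of_cyclic (haveI := Fact.mk a.qp; isCyclic_of_prime_card a.cF)

theorem cent : A ⊓ C[F] = F := (a.cases (le_inf a.le (le_cent_self a.ab)) inf_le_left).resolve_right
  fun e => a.nc (a.le'.trans (e.ge.trans inf_le_right))

theorem der : F ≤ ⁅A, A⁆ := (((eq_bot_or_eq_of_prime (a.cF ▸ a.qp) (comm_le_right a.n)).resolve_left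
  (mt comm_eq_bot_iff.1 a.nc)).ge).trans (commutator_mono a.le' a.le)

theorem not_exc (h : ¬ l ∣ o[A]) [hl : Fact l.Prime] {G' : Type u} [Group G'] {E X : Subgroup G'}
    (hE : o[E] = q) : ¬ Exc q l E X := by
  rintro ⟨-, k, m, b, c, d, -⟩
  haveI := Fact.mk a.pp
  have e := card_modEq_inf_cent (isPGroup_of_card' a.cH) a.n
  rw [(eq_bot_or_eq_of_prime (a.cF ▸ a.qp) inf_le_left).resolve_right fun z => a.nc (le_centralizer_iff.1
    (z.ge.trans inf_le_right)), card_bot, a.cF] at e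
  rw [hE] at d
  rcases (Nat.dvd_prime a.qp).1 d with z | z
  · have := pow_pos hl.out.pos m
    omega
  rw [← z, c, Nat.ModEq.add_iff_right (Nat.ModEq.refl 1) (b := 0), Nat.modEq_zero_iff_dvd] at e
  rw [← (Nat.prime_dvd_prime_iff_eq a.pp hl.out).1 (a.pp.dvd_of_dvd_pow e), a.card] at h
  exact h (dvd_mul_left _ _)

theorem comm_le [Fact l.Prime] {G' : Type u} [Group G'] [Finite G'] {E Q M : Subgroup G'} (hE : o[E] = q)
    (hQ : PG[l, Q]) (h : ¬ l ∣ o[A]) (nQ : E ≤ N[Q]) (hs : Sol[M])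
    (nM : Q ⊔ E ≤ N[M]) (hc : o[Q ⊔ E].Coprime o[M]) (h0 : M ⊓ C[E] = ⊥) : ⁅Q, E⁆ ≤ C[M] :=
  haveI := Fact.mk a.qp
  by_contra fun z => a.not_exc h hE (exc_of_not_cent (cy_self hE) hQ
    (fun e => h (e ▸ a.cF ▸ card_dvd_of_le a.le)) nQ hs nM hc h0 z)

theorem nil (nX : A ≤ N[X]) (h0 : X ⊓ C[A] = ⊥) : Nil[X ⊓ C[F]] :=
  CfsgH1.nil_of_prime_fpf (a.cH ▸ a.pp) (le_norm_inf (a.le'.trans nX) (le_norm_cent a.n)) (by
    rw [inf_assoc, ← cent_sup, a.sup, h0])

theorem alpha [IsMulCommutative V] [Fact l.Prime] (k : MK V Q K) (nV : Q ⊔ A ≤ N[V]) (hQ : PG[l, Q])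
    (nQ : A ≤ N[Q]) (hl : ¬ l ∣ o[A]) (c : o[Q ⊔ A].Coprime o[V]) (h0 : V ⊓ C[A] = ⊥)
    (h1 : Q ⊓ C[F] ≤ C[V ⊓ C[F]]) (h2 : ¬ Q ≤ K) (h : F ≤ N[K]) : ⁅Q, F⁆ ≤ K := by
  have n1 := le_sup_left.trans nV
  have n2 := le_sup_right.trans nV
  have cQ := c.coprime_dvd_left (card_dvd_of_le le_sup_left)
  have l1 := sup_le_sup_left a.le Q
  refine (le_inf (comm_le_left (a.le.trans nQ)) (a.comm_le a.cF hQ hl (a.le.trans nQ) (isSolvable_of_comm
    (isMulComm_of_le ‹_› inf_le_left)) (le_norm_inf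
    (l1.trans nV) (le_norm_cent (sup_le k.n h))) ((c.coprime_dvd_left (card_dvd_of_le l1)).coprime_dvd_right
      (card_dvd_of_le inf_le_left)) ?_)).trans (k.cent_le n1)
  rcases a.cases (le_inf a.le h) inf_le_left with e | e
  · exact e ▸ k.fix n1 cQ n2 nQ (c.coprime_dvd_left (card_dvd_of_le le_sup_right)) h0
  have nK := e.ge.trans inf_le_right
  obtain ⟨Z, z1, z2, z3⟩ := exists_qt_eq Z[qt K Q]
  have z4 : Z ≤ Q := (qt_le_qt' z2 k.n k.le).1 (z3.le.trans inf_le_left)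
  have z5 : ⁅Z, Q⁆ ≤ K := (qt_le_cent_iff z2 k.n).1 (z3.le.trans inf_le_right)
  have z6 : ∀ z ∈ Z, z ∉ K → V ⊓ C[K] ⊓ C1[z] = ⊥ := fun z a b => by_contra fun e => b (by
    rw [inf_assoc, ← cent_zpowers, ← cent_sup] at e
    have l := sup_le k.le (zpowers_le.2 (z4 a))
    exact (k.max _ le_sup_left l (le_norm_of_between ((commutator_mono (sup_le z1 (zpowers_le.2 a))
      le_rfl).trans (z5.trans le_sup_left)) le_rfl) e).le (mem_sup_right (mem_zpowers z)))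
  have nU : V ⊓ C[K] ≤ N[K] := inf_le_right.trans (cent_le_norm _)
  have d : V ⊓ K = ⊥ := inf_eq_bot_of_coprime' (cQ.symm.coprime_dvd_right (card_dvd_of_le k.le))
  have cy : Cyc[qt K Z] := by_contra fun z => k.ne (le_bot_iff.1 (d ▸ le_inf inf_le_left ((qt_eq_bot nU).1
    (le_bot_iff.1 (le_of_cent1 (z3 ▸ isMulComm_cent_inf _) z (qt_le_norm (z4.trans (le_norm_inf n1
      (le_norm_cent k.n)))) (coprime_qt ((cQ.coprime_dvd_left (card_dvd_of_le z4)).coprime_dvd_right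
        (card_dvd_of_le inf_le_left))) ?_)))))
  · have nZ : A ≤ N[Z] := (qt_le_norm_iff nK z2 z1).1 (z3 ▸ (qt_le_norm nQ).trans norm_le_norm_center)
    have b := commutator_le_cent_of_cyclic cy (qt_le_norm nZ)
    rw [← qt_commutator nK nK, qt_le_cent_iff (commutator_self_le.trans nK) z2] at b
    have cF : o[F].Coprime o[Z] := (coprime_of_pgroup (hQ.to_le z4) fun e => hl (e.trans
      (card_dvd_of_le a.le))).symm
    obtain ⟨z, ⟨y1, y2⟩, y3⟩ : ∃ z ∈ Z ⊓ C[F], z ∉ K := by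
      by_contra! y
      refine center_ne_bot (isPGroup_qt hQ) (mt (qt_eq_bot k.n).1 h2) (z3.symm.trans (qt_eq_bot_of_le ?_))
      rw [← coprime_comm_sup_cent (a.le.trans nZ) cF (.inr (isSolvable_of_pgroup (hQ.to_le z4)))]
      exact sup_le ((commutator_comm _ _).le.trans ((commutator_mono a.der le_rfl).trans b)) y
    exact le_bot_iff.1 (z6 z y1 y3 ▸ le_inf inf_le_left (le_cent1_iff.2 (cent_anti (inf_le_inf_right _
      inf_le_left) (h1 ⟨z4 y1, y2⟩))))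
  rintro _ ⟨z, y1, rfl⟩ y2 _ ⟨⟨u, u1, rfl⟩, u2⟩
  have : ⁅(u : G), (z : G)⁆ ∈ V ⊓ K := ⟨comm_le_left n1 (commutator_mem_commutator u1.1 (z4 y1)), by
    have := commutatorElement_eq_one_iff_mul_comm.2 (mem_centralizer_singleton_iff.1 u2)
    rw [← map_commutatorElement] at this
    exact qmk_eq_one.1 this⟩
  rw [d, mem_bot, commutatorElement_eq_one_iff_mul_comm] at this
  rw [show u = 1 from Subtype.ext (mem_bot.1 ((z6 z y1 fun e => y2 (qmk_eq_one.2 e)).le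
    ⟨u1, mem_centralizer_singleton_iff.2 this⟩)), map_one]
  exact one_mem _

end FQ

end CfsgCP
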