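import Cfsg.Agent.H9.Cp7

/-! Fixed-point-free action of a nonabelian group of order `pq`: the Fitting height. -/

set_option autoImplicit false
open Subgroup Cfsg CfsgH3 CfsgH2 Function
open CfsgH1 (nc)
open CfsgH9 (LF nres)
open scoped commutatorElement IsMulCommutative

namespace CfsgCP

universe u v
variable {G : Type u} [Group G] [Finite G] {Q K B A F H J M P S V X N : Subgroup G} {p q l t : ℕ} {x g : G}

theorem FQ.card_eq (a : FQ p q A F H) (h1 : J ≤ A) (h2 : J ≠ ⊥) (h3 : ¬ F ≤ J) : o[J] = p := by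
  have e : J ⊓ F = ⊥ := (eq_bot_or_eq_of_prime (a.cF ▸ a.qp) inf_le_right).resolve_right
    fun e => h3 (e.ge.trans inf_le_left)
  have := card_dvd_of_le (sup_le h1 a.le)
  rw [card_sup_of_disj (.inl (h1.trans a.nF)) e, a.card, a.cF, mul_comm q,
    Nat.mul_dvd_mul_iff_right a.qp.pos, Nat.dvd_prime a.pp, card_eq_one] at this
  exact this.resolve_left h2

theorem PC.cf [ht : Fact t.Prime] (h : PC t 0 V N A) (a : FQ p q A F H) (h1 : X ≤ N ⊓ C[F])
    (h2 : ¬ t ∣ o[X]) (l : M ≤ V) : X ≤ C[M ⊓ C[F]] :=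
  nil_le_cent (a.nil (le_norm_sup h.nA h.nAN) h.fix) (h1.trans (inf_le_inf_right _ le_sup_right))
    (inf_le_inf_right _ (l.trans le_sup_left)) (coprime_of_pgroup ((elem_pgroup h.el).to_le
      (inf_le_left.trans l)) h2).symm

theorem PC.pq [ht : Fact t.Prime] (h : PC t 0 V N A) (a : FQ p q A F H) : Nil[N] := by
  by_contra hn
  obtain ⟨r, l, hr, hl, P, rl, p1, p2, p3, -, p4⟩ := exists_nc h.nAN h.cN h.sol hn
  have cP := (h.cN.coprime_dvd_right (card_dvd_of_le p1)).coprime_dvd_left (card_dvd_of_le a.le)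
  have sP := isSolvable_of_pgroup p2
  obtain ⟨S, s1, s2, s3, s4⟩ : ∃ S ≤ P, A ≤ N[S] ∧ ¬ S ≤ C[O[{l}, N]] ∧
      (S ≤ C[F] ∨ ⁅S, F⁆ = S ∧ S ⊓ C[F] ≤ C[O[{l}, N]]) := by
    by_cases c : P ⊓ C[F] ≤ C[O[{l}, N]]
    · have l := comm_le_left (a.le.trans p3)
      exact ⟨_, l, le_norm_commutator p3 a.nF, fun z => p4 ((coprime_comm_sup_cent (a.le.trans p3) cP
        (.inr sP)).ge.trans (sup_le z c)), .inr ⟨coprime_comm_comm (a.le.trans p3) cP (.inr sP),
          (inf_le_inf_right _ l).trans c⟩⟩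
    · exact ⟨_, inf_le_left, le_norm_inf p3 (le_norm_cent a.nF), c, .inl inf_le_right⟩
  have sN := s1.trans p1
  have pS := p2.to_le s1
  obtain ⟨Q, q1, q2, s⟩ := exists_SP (B := S ⊔ A) isPGroup_piCoreOf (sup_le (sN.trans le_norm_piCoreOf)
    (le_norm_piCoreOf' h.nAN)) le_sup_left (sup_le le_normalizer s2) (not_dvd_pg pS rl.symm) s3
  have lQ := q1.trans piCoreOf_le
  have nA := le_sup_right.trans q2
  have cA := h.cN.coprime_dvd_right (card_dvd_of_le lQ)
  have cF := cA.coprime_dvd_left (card_dvd_of_le a.le)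
  have cS := (h.cN.coprime_dvd_right (card_dvd_of_le sN)).coprime_dvd_left (card_dvd_of_le a.le)
  have sQ := isSolvable_of_pgroup s.pg
  have tq := h.ne_of_core fun z => s.ne (le_bot_iff.1 (q1.trans z.le))
  obtain ⟨v1, v2, v3, v4, v5⟩ := h.sub (B := Q ⊔ (S ⊔ A)) s.pg lQ tq s.ne (sup_le le_normalizer q2)
    (sup_le (lQ.trans h.nN) (sup_le (sN.trans h.nN) h.nA))
  generalize ⁅V, Q⁆ = W at *
  haveI := v1.1
  have n1 := le_sup_left.trans v2
  have n2 := le_sup_right.trans v2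
  have w1 := (sup_le_sup_left (le_sup_right (a := S)) Q).trans v2
  have w2 := not_dvd_sup nA (not_dvd_pg s.pg tq) h.not_dvd
  have w3 := le_bot_iff.1 ((inf_le_inf_right _ v3).trans h.fV.le)
  have c1 := (coprime_of_pgroup (elem_pgroup v1) w2).symm
  have c2 := c1.coprime_dvd_left (card_dvd_of_le le_sup_left)
  have c3 := h.cf a (inf_le_inf_right _ lQ) (not_dvd_pg (s.pg.to_le inf_le_left) tq) v3
  have al : ∀ K, MK W Q K → F ≤ N[K] → ⁅Q, F⁆ ≤ K := fun K k => a.alpha k w1 s.pg nA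
    ((Nat.Prime.coprime_iff_not_dvd hl.out).1 (cA.symm.coprime_dvd_left (dvd_card_of_pgroup s.pg s.ne)))
    c1 w3 c3 (k.not_le v4)
  have lF := a.le.trans (le_sup_right (a := S))
  have b0 : ∀ K : Subgroup G, ¬ F ≤ N[K] → F ⊓ N[K] = ⊥ := fun K z => (eq_bot_or_eq_of_prime (a.cF ▸ a.qp)
    (inf_le_left (b := N[K]))).resolve_right fun e => z (e.ge.trans inf_le_right)
  have be : ∀ K, MK W Q K → ¬ F ≤ N[K] → Q ⊓ C[F] ≤ K := fun K k z => (le_inf inf_le_left (k.beta n1 c2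
    (sup_le (lF.trans n2) (inf_le_left.trans n1)) (sup_le (lF.trans q2) (inf_le_left.trans le_normalizer))
    (b0 K z) (cF.symm.coprime_dvd_left (card_dvd_of_le inf_le_left)) inf_le_right c3)).trans (k.cent_le n1)
  obtain ⟨K, k⟩ := exists_MK v5 Q
  rcases s4 with s4 | ⟨s4, s5⟩
  · have z : ¬ F ≤ N[K] := fun z => k.not_le v4 ((s.of_cent (a.le.trans nA) cF (nil_le_cent (a.nil h.nAN
      (h.fN le_rfl)) (inf_le_inf_right _ lQ) (le_inf sN s4) ((coprime_of_pgroup pS (not_dvd_pg s.pg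
        rl)).symm.coprime_dvd_left (card_dvd_of_le inf_le_left)))).2.ge.trans (al K k z))
    obtain ⟨R, d, θ, κ, m1⟩ := k.exists_KD v1 w1 nA w2 w3 s.cl
    have y : ¬ F ≤ Inv Q θ := fun y => z (y.trans κ.inv_K)
    obtain ⟨b, ⟨b1, b3⟩, b2⟩ := exists_ne_one (m1.ne_bot κ.pos)
    have b4 : b ∉ F := fun c => y (zpowers_eq_of_prime (a.cF ▸ a.qp) c b2 ▸ zpowers_le.2 b3)
    have e := CfsgH1.sup_zpowers_eq_of_prime (a.idx ▸ a.pp) a.le b1 b4
    have cI := a.card_eq inf_le_left (m1.ne_bot κ.pos) fun c => y (c.trans inf_le_right)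
    have eb := zpowers_eq_of_prime (cI ▸ a.pp) (mem_inf.2 ⟨b1, b3⟩) b2
    have fS : S ⊓ C[zpowers b] = ⊥ := le_bot_iff.1 ((le_inf inf_le_left (by
      rw [← e, cent_sup]; exact inf_le_inf_right _ s4)).trans (h.fN sN).le)
    have sI : S ≤ Inv Q θ := fun z hz => by
      obtain ⟨x, x1, x2⟩ := CfsgH1.exists_conj_of_fpf (s2 b1) (cent_zpowers b ▸ fS) hz
      obtain ⟨c, c1, c2, c3⟩ := k.conj_meet v1 w1 nA w2 w3 s.cl κ (n2 (mem_sup_left (inv_mem x1)))
        (q2 (mem_sup_left (inv_mem x1)))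
      rw [inv_inv] at c3
      obtain ⟨u, u1, g, g1, rfl⟩ := (mem_sup_of_norm' ((zpowers_le.2 b1).trans a.nF)).1 (e.ge c1)
      by_cases u2 : u = 1
      · rw [u2, one_mul] at c2 c3
        have : (zpowers b).map (cj x) ≤ Inv Q θ := by
          rw [← zpowers_eq_of_prime (eb ▸ cI ▸ a.pp) g1 c2, MonoidHom.map_zpowers, zpowers_le]
          exact c3
        simpa [x2] using mul_mem (this (conj_mem_map_cj (mem_zpowers b))) (inv_mem b3)
      refine (y ((le_zpowers_mul (a.cF ▸ a.qp) cS.symm s4 (mul_mem x1 (conj_mem_of_norm (s2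
        (zpowers_le.2 b1 g1)) (inv_mem x1))) u1 u2).trans (zpowers_le.2 ?_))).elim
      convert mul_mem c3 (inv_mem (zpowers_le.2 b3 g1)) using 1
      rw [← s4 (mul_mem x1 (conj_mem_of_norm (s2 (zpowers_le.2 b1 g1)) (inv_mem x1))) u u1,
        ← mul_assoc u, s4 x1 u u1]
      group
    have d1 := κ.one_lt sI (by rw [s.comm]; exact k.not_le v4)
    have lb := zpowers_le.2 b1
    have f0 := κ.free (CfsgH1.frob_of_prime (eb ▸ cI ▸ a.pp) (lb.trans s2) (fun e => s3 (e ▸ bot_le)) fS)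
      (sup_le sI (zpowers_le.2 b3)) (((coprime_of_pgroup pS (not_dvd_pg s.pg rl)).mul_left
        (cA.coprime_dvd_left (card_dvd_of_le lb))).coprime_dvd_left (CfsgH2.card_sup_dvd (.inr (lb.trans s2))))
      sQ (s.cen.le.trans ((le_inf phi_le s.phi).trans κ.center_le))
    obtain ⟨m, rfl⟩ := κ.pow_eq s.pg
    obtain ⟨j, hj⟩ : ∃ j, R.relIndex (Q ⊓ C[zpowers b]) = l ^ j := exists_pow_of_dvd s.pg
      (relIndex_dvd_card'.trans (card_dvd_of_le inf_le_left))
    have := m1.le (Real.sqrt_nonneg (l ^ j : ℕ)) fun u u1 u2 => κ.bd_sqrt u1.2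
      (cA.coprime_dvd_left (orderOf_dvd_of_mem u1.1)) (by
        rw [← cent_zpowers, zpowers_eq_of_prime (cI ▸ a.pp) u1 u2, ← hj, eb])
    rw [hj, eb, cI] at f0
    exact free_false a.pp hl.out d1 f0 (cI ▸ this)
  have s6 := s5.trans (cent_anti q1)
  have mp : ∀ K, MK W Q K → ∀ g ∈ S ⊔ A, MK W Q (K.map (cj g)) := fun K k g hg => k.map (n2 hg) (q2 hg)
  by_cases z : ∃ K, MK W Q K ∧ F ≤ N[K]
  · obtain ⟨K, k, z⟩ := z
    have u : ∀ g ∈ S, F ≤ N[K.map (cj g)] → g ∈ N[K] := fun g hg y => by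
      obtain ⟨c, c1, c2⟩ := coprime_conj_cent (a.le.trans s2) cS (.inr (isSolvable_of_pgroup pS)) z y hg rfl
      rw [← map_cj_eq_iff, ← c2]
      exact map_cj_eq (cent_le_norm _ (cent_anti k.le (s6 c1)))
    obtain ⟨g, g1, g2⟩ : ∃ g ∈ S, g ∉ N[K] := by
      by_contra! y
      refine k.not_le v4 (s.comm.ge.trans ((commutator_comm _ _).le.trans ((qt_le_cent_iff y k.n).1 ?_)))
      rw [← s4, qt_commutator y z]
      exact comm_le_cent_of_norm (qt_le_norm (le_sup_left.trans q2)) ((qt_le_cent_iff z k.n).2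
        ((commutator_comm _ _).le.trans (al K k z)))
    have k1 := mp K k g (mem_sup_left g1)
    have z1 := mt (u g g1) g2
    refine k.not_le v4 ((coprime_comm_sup_cent (a.le.trans nA) cF (.inr sQ)).ge.trans (sup_le (al K k z)
      fun c hc => ?_))
    have := mem_of_conj (a.cF ▸ a.qp) (a.le.trans nA) cF sQ k1.n k1.le (be _ k1 z1) (conj_mem_of_norm
      (q2 (mem_sup_left g1)) hc.1) fun f f1 f2 => by
        have m : g⁻¹ * (f⁻¹ * g * f) ∈ S := mul_mem (inv_mem g1) (conj_mem_of_norm' (s2 (a.le f1)) g1)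
        have := be _ (mp K k _ (mem_sup_left m)) (mt (u _ m) fun y => f2 (mem_bot.1 ((b0 _ z1).le <| mem_inf.2 ⟨f1, by
          rw [normalizer_map_cj, mem_map_cj]
          simpa [mul_assoc] using inv_mem (mul_mem y (inv_mem (z f1)))⟩))) hc
        rw [mem_map_cj] at this ⊢
        simpa [mul_assoc] using conj_mem_of_norm (z f1) this
    simpa [mem_map_cj, mul_assoc] using this
  have l1 : nc (Q ⊔ (S ⊔ A)) (Q ⊓ C[F]) ≤ K := CfsgH1.nc_le_iff.2 fun g hg => map_cj_le_iff.2 (by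
    have k1 := k.map (v2 (inv_mem hg)) (sup_le le_normalizer q2 (inv_mem hg))
    exact be _ k1 fun y => z ⟨_, k1, y⟩)
  have n := CfsgH1.le_norm_nc (L := Q ⊔ (S ⊔ A)) (A := Q ⊓ C[F])
  have l0 := CfsgH1.le_nc (L := Q ⊔ (S ⊔ A)) (A := Q ⊓ C[F])
  generalize nc (Q ⊔ (S ⊔ A)) (Q ⊓ C[F]) = L at *
  have nQ := le_sup_left.trans n
  have nS := (le_sup_left.trans le_sup_right).trans n
  have nF := (lF.trans le_sup_right).trans n
  have := a.comm_le (E := qt L F) (by
      rw [card_qt_of_disj nF (inf_eq_bot_of_coprime' (cF.coprime_dvd_right (card_dvd_of_le (l1.trans k.le)))),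
        a.cF]) (isPGroup_qt pS) ((Nat.Prime.coprime_iff_not_dvd hr.out).1 (h.cN.symm.coprime_dvd_left
      ((dvd_card_of_pgroup pS fun e => s3 (e ▸ bot_le)).trans (card_dvd_of_le sN))))
    (qt_le_norm (a.le.trans s2)) (isSolvable_qt sQ) (by
      rw [← qt_sup nS nF]; exact qt_le_norm ((sup_le_sup_left a.le S).trans q2)) (by
      rw [← qt_sup nS nF]
      exact coprime_qt (((coprime_of_pgroup pS (not_dvd_pg s.pg rl)).mul_left cF).coprime_dvd_left
        (CfsgH2.card_sup_dvd (.inr (a.le.trans s2))))) (by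
      rw [← qt_fix nF nQ (a.le.trans nA) cF sQ]; exact qt_eq_bot_of_le l0)
  rw [← qt_commutator nS nF, s4, qt_le_cent_iff nS nQ, commutator_comm, s.comm] at this
  exact k.not_le v4 (this.trans l1)

theorem FQ.der_le (a : FQ 2 3 A F H) (nA : A ≤ N[Q]) (c : o[A].Coprime o[Q]) (hs : Sol[Q])
    (h0 : Q ⊓ C[A] = ⊥) (n : Q ≤ N[K]) (l : K ≤ Q) (h1 : J ≤ A) (h2 : o[J] = 2) (h3 : ⁅Q, J⁆ ≤ K) :
    ⁅Q, Q⁆ ≤ K := by
  classical
  have e : ∀ J ≤ A, o[J] = 2 → F ⊔ J = A := fun J h1 h2 => (a.cases le_sup_left (sup_le a.le h1)).resolve_left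
    fun e => by simpa [h2, a.cF] using card_dvd_of_le (le_sup_right.trans e.le)
  have k : ∀ f ∈ F, f ≠ 1 → K ⊔ K.map (cj f) = Q := fun f f1 f2 => by
    have m : ⁅Q, J.map (cj f)⁆ ≤ K.map (cj f) := by
      rw [← map_cj_eq (nA (a.le f1)), ← map_commutator]; exact map_mono h3
    have l1 := sup_le l (map_cj_le_of_norm l (nA (a.le f1)))
    have n1 : Q ≤ N[K ⊔ K.map (cj f)] := le_norm_sup n (by
      rw [normalizer_map_cj, ← map_cj_eq (nA (a.le f1))]; exact map_mono n)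
    have n2 := le_norm_of_between (h3.trans le_sup_left) l1
    have n3 := le_norm_of_between (m.trans le_sup_right) l1
    have j : A ≤ J ⊔ J.map (cj f) := by
      obtain ⟨x, x1, x2⟩ := exists_prime_order_mem Nat.prime_two h2.symm.dvd
      rw [← e J h1 h2, sup_le_iff]
      refine ⟨?_, le_sup_left⟩
      rw [← zpowers_eq_of_prime (a.cF ▸ a.qp) (mul_mem f1 (conj_mem_of_norm (a.nF (h1 x1)) (inv_mem f1)))
        fun z => ?_, zpowers_le]
      · simpa [mul_assoc] using mul_mem (mem_sup_right (S := J) (conj_mem_map_cj (g := f) x1))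
          (mem_sup_left (inv_mem x1))
      have : x ∈ F := a.cent.le <| mem_inf.2 ⟨h1 x1, by
        rw [← zpowers_eq_of_prime (a.cF ▸ a.qp) f1 f2, cent_zpowers, mem_centralizer_singleton_iff,
          eq_comm, ← mul_inv_eq_one, ← z]
        group⟩
      simpa [x2, a.cF] using orderOf_dvd_of_mem this
    refine le_antisymm l1 ((coprime_comm_sup_cent nA c (.inr hs)).ge.trans ?_)
    rw [h0, sup_bot_eq, commutator_comm]
    refine (commutator_mono j le_rfl).trans ((qt_le_cent_iff (sup_le n2 n3) n1).1 ?_)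
    rw [qt_sup n2 n3]
    exact sup_le ((qt_le_cent_iff n2 n1).2 ((commutator_comm _ _).le.trans (h3.trans le_sup_left)))
      ((qt_le_cent_iff n3 n1).2 ((commutator_comm _ _).le.trans (m.trans le_sup_right)))
  have n0 := le_norm_inf (h1.trans nA) (le_norm_cent (h1.trans a.nF))
  have d : Q ⊓ C[F] ≤ K := by
    rw [← coprime_comm_sup_cent n0 ((c.coprime_dvd_left (card_dvd_of_le h1)).coprime_dvd_right
      (card_dvd_of_le inf_le_left)) (.inr (isSolvable_of_le hs inf_le_left)), inf_assoc, ← cent_sup,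
      e J h1 h2, h0, sup_bot_eq]
    exact (commutator_mono inf_le_left le_rfl).trans h3
  obtain ⟨f, f1, f2⟩ := exists_prime_order_mem Nat.prime_three a.cF.symm.dvd
  have f3 : f ≠ 1 := fun z => by simp [z] at f2
  have m : ∀ f ∈ F, K.map (cj f) ≤ Q ∧ Q ≤ N[K.map (cj f)] := fun f f1 =>
    ⟨map_cj_le_of_norm l (nA (a.le f1)), by
      rw [normalizer_map_cj, ← map_cj_eq (nA (a.le f1))]; exact map_mono n⟩
  have i : K.map (cj f) ⊓ K.map (cj f⁻¹) ≤ K := fun x ⟨x1, x2⟩ => mem_of_conj (a.cF ▸ a.qp) (a.le.trans nA)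
    (c.coprime_dvd_left (card_dvd_of_le a.le)) hs n l d ((m f f1).1 x1) fun g g1 g2 => by
      rw [← zpowers_eq_of_prime (a.cF ▸ a.qp) f1 f3, mem_zpowers_iff_mem_range_orderOf, f2] at g1
      obtain ⟨j, j1, rfl⟩ := Finset.mem_image.1 g1
      rw [Finset.mem_range] at j1
      interval_cases j
      · simp at g2
      · simpa using mem_map_cj.1 x2
      · rw [show f ^ 2 = f⁻¹ from eq_inv_of_mul_eq_one_left (by
          rw [← pow_succ]; exact orderOf_dvd_iff_pow_eq_one.1 f2.dvd)]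
        simpa using mem_map_cj.1 x1
  have a1 := m f f1
  have a2 := m _ (inv_mem f1)
  rw [← qt_le_cent_iff n n]
  conv_lhs => rw [← k f f1 f3, qt_self_sup (a1.1.trans n)]
  conv_rhs => rw [← k _ (inv_mem f1) (inv_ne_one.2 f3), qt_self_sup (a2.1.trans n)]
  exact (qt_le_cent_iff (a1.1.trans n) (a2.1.trans n)).2 ((le_inf (comm_le_left (a2.1.trans a1.2))
    (comm_le_right (a1.1.trans a2.2))).trans i)

theorem PC.s3 [ht : Fact t.Prime] (h : PC t 0 V N A) (a : FQ 2 3 A F H) : Ab[N] := by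
  refine nil_ab_of_cores (h.pq a) fun l hl d => comm_self_eq_bot_iff.1 (by_contra fun z => ?_)
  have tq := h.ne_of_core (q := l) fun e => z (by rw [e, commutator_bot_left])
  have pQ : PG[l, O[{l}, N]] := isPGroup_piCoreOf
  have lQ : O[{l}, N] ≤ N := piCoreOf_le
  have nA : A ≤ N[O[{l}, N]] := le_norm_piCoreOf' h.nAN
  generalize O[{l}, N] = Q at *
  obtain ⟨v1, v2, v3, v4, v5⟩ := h.sub (B := Q ⊔ A) (pQ.to_le commutator_self_le)
    (commutator_self_le.trans lQ) tq z (sup_le le_norm_comm_left (le_norm_commutator nA nA))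
    (sup_le (lQ.trans h.nN) h.nA)
  generalize ⁅V, ⁅Q, Q⁆⁆ = W at *
  haveI := v1.1
  obtain ⟨K, k⟩ := exists_MK v5 Q
  have cA := h.cN.coprime_dvd_right (card_dvd_of_le lQ)
  have sQ := isSolvable_of_pgroup pQ
  have n1 := le_sup_left.trans v2
  have c1 := (coprime_of_pgroup (elem_pgroup v1) (not_dvd_sup nA (not_dvd_pg pQ tq) h.not_dvd)).symm
  have w3 := le_bot_iff.1 ((inf_le_inf_right _ v3).trans h.fV.le)
  have hl' := (Nat.Prime.coprime_iff_not_dvd hl.out).1 (h.cN.symm.coprime_dvd_left d)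
  have y : ¬ ⁅Q, Q⁆ ≤ K := fun y => k.ne (le_bot_iff.1 (v4 ▸ inf_le_inf_left _ (cent_anti y)))
  by_cases b : F ≤ N[K]
  · have := a.alpha k v2 pQ nA hl' c1 w3 (h.cf a (inf_le_inf_right _ lQ) (not_dvd_pg (pQ.to_le inf_le_left)
      tq) v3) (mt commutator_self_le.trans y) b
    obtain ⟨x, x1, x2⟩ := exists_prime_order_mem Nat.prime_two a.cH.symm.dvd
    have ab := ab_of_sq (N := Q ⊓ C[F]) (le_norm_inf (a.le'.trans nA) (le_norm_cent a.n) x1) (by
      rw [← cent_zpowers, zpowers_eq_of_prime (a.cH ▸ a.pp) x1 (fun e => by simp [e] at x2), inf_assoc,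
        ← cent_sup, a.sup, h.fN lQ]) (by rw [← sq, ← x2, pow_orderOf_eq_one]; exact one_mem _)
    have n := (inf_le_left (b := C[F])).trans k.n
    refine y ((qt_le_cent_iff k.n k.n).1 ?_)
    rw [← coprime_comm_sup_cent (a.le.trans nA) (cA.coprime_dvd_left (card_dvd_of_le a.le)) (.inr sQ),
      qt_sup ((this.trans k.le).trans k.n) n, qt_eq_bot_of_le this, bot_sup_eq]
    exact qt_le_cent (le_cent_self ab)
  have f := k.fix n1 (c1.coprime_dvd_left (card_dvd_of_le le_sup_left)) (le_sup_right.trans v2) nA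
    (c1.coprime_dvd_left (card_dvd_of_le le_sup_right)) w3
  have cJ := a.card_eq (inf_le_left (b := N[K])) (fun e => k.ne (by rwa [e, cent_bot, inf_top_eq] at f))
    fun c => b (c.trans inf_le_right)
  have l1 := sup_le_sup_left (inf_le_left (a := A) (b := N[K])) Q
  refine y (a.der_le nA cA sQ (h.fN lQ) k.n k.le inf_le_left cJ ((le_inf (comm_le_left (inf_le_left.trans nA))
    (by_contra fun z => ?_)).trans (k.cent_le n1)))
  obtain ⟨-, j, m, b1, b2, b3, -⟩ := exc_of_not_cent (cy_self cJ) pQ (fun e => hl' (e ▸ cJ ▸ card_dvd_of_le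
    inf_le_left)) (inf_le_left.trans nA) (isSolvable_of_comm (isMulComm_of_le v1.1 inf_le_left))
    (le_norm_inf (l1.trans v2) (le_norm_cent (sup_le k.n inf_le_right))) ((c1.coprime_dvd_left
      (card_dvd_of_le l1)).coprime_dvd_right (card_dvd_of_le inf_le_left)) f z
  have := Nat.le_of_dvd two_pos (cJ ▸ b3)
  have := Nat.one_lt_pow (by omega : m ≠ 0) hl.out.one_lt
  omega

theorem exists_FQ (hp : p.Prime) (hq : q.Prime) (h : p < q) (hA : o[A] = p * q) (hn : ¬ Ab[A]) :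
    ∃ F H, FQ p q A F H := by
  obtain ⟨x, x1, x2⟩ := exists_prime_order_mem (H := A) hp (hA ▸ dvd_mul_right _ _)
  obtain ⟨y, y1, y2⟩ := exists_prime_order_mem (H := A) hq (hA ▸ dvd_mul_left _ _)
  have l := zpowers_le.2 y1
  have i : (zpowers y).relIndex A = p := Nat.eq_of_mul_eq_mul_left hq.pos (by
    rw [mul_comm q p, ← hA, ← CfsgH2.card_mul_relIndex l, Nat.card_zpowers, y2])
  have n : A ≤ N[zpowers y] := (normal_subgroupOf_iff' l).1 (normal_of_index_eq_minFac_card (by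
    rw [hA]
    refine i.trans (le_antisymm ?_ (Nat.minFac_le_of_dvd hp.two_le (dvd_mul_right _ _)))
    rcases (Nat.minFac_prime (mt mul_eq_one.1 fun e => hp.ne_one e.1)).dvd_mul.1 (Nat.minFac_dvd (p * q))
      with e | e
    · exact ((Nat.prime_dvd_prime_iff_eq (Nat.minFac_prime (mt mul_eq_one.1 fun e => hp.ne_one e.1)) hp).1
        e).ge
    · exact h.le.trans ((Nat.prime_dvd_prime_iff_eq (Nat.minFac_prime (mt mul_eq_one.1 fun e =>
        hp.ne_one e.1)) hq).1 e).ge))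
  have e := CfsgH1.sup_zpowers_eq_of_prime (i ▸ hp) l x1 fun z => h.ne ((Nat.prime_dvd_prime_iff_eq hp hq).1
    (by simpa [x2, y2] using orderOf_dvd_of_mem z))
  exact ⟨_, _, hp, hq, h.ne', by rw [Nat.card_zpowers, y2], by rw [Nat.card_zpowers, x2],
    (zpowers_le.2 x1).trans n, e, fun z => hn (e ▸ isMulComm_sup inferInstance inferInstance
      (le_centralizer_iff.1 z))⟩

theorem range_FQ {A₀ : Type v} [Group A₀] (hp : p.Prime) (hq : q.Prime) (h : p < q)
    (h1 : Nat.card A₀ = p * q) (h2 : ¬ IsMulCommutative A₀) {f : A₀ →* G} (hf : Injective f) :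
    ∃ F H, FQ p q f.range F H :=
  exists_FQ hp hq h ((Nat.card_congr (MonoidHom.ofInjective hf).toEquiv).symm.trans h1) fun z => h2
    ⟨⟨fun a b => hf (by rw [map_mul, map_mul]; exact comm_of_isMulComm z ⟨a, rfl⟩ ⟨b, rfl⟩)⟩⟩

theorem fit_pq {A₀ : Type v} [Group A₀] (hp : p.Prime) (hq : q.Prime) (h : p < q)
    (h1 : Nat.card A₀ = p * q) (h2 : ¬ IsMulCommutative A₀) (f : A₀ →* G) (hf : Injective f)
    (nA : f.range ≤ N[X]) (hs : Sol[X]) (hc : o[f.range].Coprime o[X]) (h0 : X ⊓ C[f.range] = ⊥) :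
    LF 2 X = ⊥ :=
  CfsgH9.nres_eq_bot.2 (prim_red (n := 0) (ρ := fun _ _ X _ => LF 1 X)
    (fun _ _ _ _ _ _ => ⟨LF_le 1, CfsgH9.le_normalizer_LF le_normalizer 1⟩)
    (fun _ _ _ _ _ _ _ _ _ => CfsgH9.map_LF _ _ _) (fun _ _ _ _ _ _ _ _ hf k _ =>
      let ⟨_, _, a⟩ := range_FQ hp hq h h1 h2 hf; CfsgH9.nres_eq_bot.2 (k.pq a)) X f hf nA hs hc h0)

theorem der_s3 {A₀ : Type v} [Group A₀] (h1 : Nat.card A₀ = 2 * 3) (h2 : ¬ IsMulCommutative A₀)
    (f : A₀ →* G) (hf : Injective f) (nA : f.range ≤ N[X]) (hs : Sol[X]) (hc : o[f.range].Coprime o[X])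
    (h0 : X ⊓ C[f.range] = ⊥) : Nil[⁅X, X⁆] :=
  prim_red (n := 0) (ρ := fun _ _ X _ => ⁅X, X⁆)
    (fun _ _ _ _ _ _ => ⟨commutator_self_le, le_norm_comm_left⟩) (fun _ _ _ _ _ _ _ _ _ =>
      map_commutator _ _ _) (fun _ _ _ _ _ _ _ _ hf k _ =>
      let ⟨_, _, a⟩ := range_FQ Nat.prime_two Nat.prime_three (by decide) h1 h2 hf
      comm_self_eq_bot_iff.2 (k.s3 a)) X f hf nA hs hc h0

end CfsgCP
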