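import Cfsg.Agent.H2.FF3
import Cfsg.Agent.H2.Trans
import Cfsg.Agent.H9.Amal
import Cfsg.Agent.H1.Coprime

/-! Coprime operators on failure of factorization modules. -/

set_option autoImplicit false
namespace CfsgFX
open Subgroup Function Cfsg CfsgH2
open CfsgL0 hiding cj
open scoped commutatorElement MatrixGroups

variable {G : Type*} [Group G] [Finite G] {A B D E F K L T U V W X Y : Subgroup G} {p q : ℕ}

theorem norm_mem {a : G} (cm : ∀ x ∈ X, Commute a (x * a * x⁻¹)) (hY : ∀ x ∈ X, x * a * x⁻¹ ∈ Y)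
    (hF : ∀ x ∈ X, x * a * x⁻¹ = a ∨ x * a * x⁻¹ ∈ F) (cop : (orderOf a).Coprime o[X]) :
    a ∈ Y ⊓ C[X] ⊔ F := by
  classical
  haveI := Fintype.ofFinite X
  let f : X → G := fun x => x * a * (x : G)⁻¹
  have c : ∀ s : Finset X, (s : Set X).Pairwise (Commute on f) := fun s x _ y _ _ => by
    have := (cm _ (mul_mem (inv_mem x.2) y.2)).map (cj (x : G))
    simpa [f, cj, mul_assoc, onFun] using this
  let P : X → Prop := fun x => f x = a
  have e := Finset.noncommProd_union_of_disjoint (Finset.disjoint_filter_filter_not Finset.univ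
    Finset.univ P) f (c _)
  rw [Finset.noncommProd_eq_pow_card _ _ _ a fun x hx => (Finset.mem_filter.1 hx).2,
    Finset.noncommProd_congr (Finset.filter_union_filter_not_eq P _) (fun _ _ => rfl)] at e
  have m1 : Finset.univ.noncommProd f (c _) ∈ Y ⊓ C[X] := ⟨noncommProd_mem _ _ fun x _ => hY x x.2,
    mem_cent_iff.2 fun y hy => by
      rw [← mul_inv_eq_iff_eq_mul]
      refine (Finset.map_noncommProd _ _ _ (cj y)).trans ?_
      unfold Finset.noncommProd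
      congr 1
      conv_rhs => rw [← Finset.map_univ_equiv (Equiv.mulLeft (⟨y, hy⟩ : X)), Finset.map_val,
        Multiset.map_map]
      exact Multiset.map_congr rfl fun x _ => by simp [f, cj, mul_assoc]⟩
  refine mem_of_pow_mem_coprime (n := (Finset.univ.filter P).card) ?_ (cop.coprime_dvd_right ?_)
  · rw [eq_mul_inv_of_mul_eq e.symm]
    exact mul_mem (mem_sup_left m1) (inv_mem (mem_sup_right (noncommProd_mem _ _ fun x hx =>
      (hF x x.2).resolve_left (Finset.mem_filter.1 hx).2)))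
  · convert card_subgroup_dvd_card (C1[a].subgroupOf X)
    rw [Nat.card_eq_fintype_card, Fintype.card_subtype]
    congr 2
    ext x
    simp [P, f, mem_subgroupOf, mem_centralizer_singleton_iff, mul_inv_eq_iff_eq_mul]

omit [Finite G] in
theorem quot_bar (h : K ≤ N[V]) (e : U.subgroupOf K = C[V].subgroupOf K) :
    ∃ _ : (U.subgroupOf K).Normal, Nonempty (K ⧸ U.subgroupOf K ≃* bar V K) := by
  let f : K →* HX V := (hψ V).comp (inclusion h)
  have k : f.ker = U.subgroupOf K := by rw [e]; ext x; exact hψ_eq_one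
  have r : f.range = bar V K := by
    ext x; exact ⟨fun ⟨y, e⟩ => ⟨_, y.2, e⟩, fun ⟨y, h, e⟩ => ⟨⟨y, h⟩, e⟩⟩
  haveI : (U.subgroupOf K).Normal := k ▸ inferInstance
  exact ⟨this, ⟨((QuotientGroup.quotientMulEquivOfEq k.symm).trans
    (QuotientGroup.quotientKerEquivRange f)).trans (MulEquiv.subgroupCongr r)⟩⟩

omit [Finite G] in
theorem cent_swap (ab : Ab[V]) (hA : A ≤ V) (hU : U ≤ V) (h1 : B ≤ A ⊔ U) (h2 : B ⊓ U = ⊥) (n1 : D ≤ N[U])
    (n2 : D ≤ N[B]) : D ⊓ C[A] ≤ C[B] := by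
  rw [le_centralizer_iff, ← comm_eq_bot_iff, eq_bot_iff, ← h2]
  refine le_inf (comm_le_left (inf_le_left.trans n2)) ((commutator_mono h1 le_rfl).trans
    (CfsgH9.commutator_sup_le (hA.trans ((le_cent_of_comm ab hU).trans (cent_le_norm _))) le_normalizer
      ?_ (comm_le_left (inf_le_left.trans n1))))
  rw [comm_eq_bot_iff.2 (le_centralizer_iff.1 inf_le_right)]; exact bot_le

variable [hp : Fact p.Prime]

theorem indep (h : AF p V L) (s : Finset (Subgroup G)) (c : ∀ E ∈ s, AC p V L E) :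
    ∀ w ∈ s.sup (⁅V, ·⁆), (∀ E ∈ s, w ∈ C[E]) → w = 1 := by
  classical
  induction s using Finset.induction_on with
  | empty => exact fun w hw _ => hw
  | insert E s hE ih =>
    intro w hw k
    have cE := c E (Finset.mem_insert_self _ _)
    have l : s.sup (⁅V, ·⁆) ≤ V ⊓ C[E] := Finset.sup_le fun D hD => by
      have cD := c D (Finset.mem_insert_of_mem hD)
      exact le_inf (cD.WV h) (le_centralizer_iff.1 ((cD.dich h cE).resolve_left fun e => hE (e ▸ hD)).1)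
    rw [Finset.sup_insert] at hw
    obtain ⟨a, ha, u, hu, rfl⟩ := (mem_sup_of_norm ((cE.WV h).trans ((le_cent_of_comm h.el.1
      (l.trans inf_le_left)).trans (cent_le_norm _)))).1 hw
    have : a = 1 := mem_bot.1 (cE.W_inf h ▸ ⟨ha, (C[E].mul_mem_cancel_right (l hu).2).1
      (k E (Finset.mem_insert_self _ _))⟩)
    rw [this, one_mul] at k ⊢
    exact ih (fun D hD => c D (Finset.mem_insert_of_mem hD)) u hu fun D hD =>
      k D (Finset.mem_insert_of_mem hD)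

theorem H_le (h : AF p V L) (c : AC p V L E) :
    J[p, L] ⊔ L ⊓ C[V] ≤ E ⊔ (J[p, L] ⊔ L ⊓ C[V]) ⊓ C[⁅V, E⁆] :=
  have l : L ⊓ C[V] ≤ E ⊔ (J[p, L] ⊔ L ⊓ C[V]) ⊓ C[⁅V, E⁆] := c.ge.trans le_sup_left
  sup_le (h.gen l (sup_le c.le (inf_le_left.trans (sup_le J_le inf_le_left))) fun D d =>
    (c.dich h d).elim (fun e => e ▸ le_sup_left) fun k => (le_inf (d.leJ h) k.1).trans le_sup_right) l

variable [hq : Fact q.Prime] (h : AF p V L) (c : AC p V L E) (pX : PG[q, X]) (nL : X ≤ N[L])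
  (nV : X ≤ N[V]) (nd : ¬ q ∣ o[L])
include h c pX nL nV nd

omit nL in
theorem stab_cent : X ⊓ N[E] ≤ C[⁅V, E⁆] := by
  have m := card_modEq_inf_cent (pX.to_le (inf_le_left : X ⊓ N[E] ≤ X))
    (le_norm_commutator (inf_le_left.trans nV) inf_le_right)
  have nq : ¬ q ∣ p * (p ^ 2 - 1) := fun d => nd (d.trans (c.idx h ▸ (relIndex_dvd_card _ _).trans
    (card_dvd_of_le c.le)))
  have d := card_dvd_of_le (inf_le_left : ⁅V, E⁆ ⊓ C[X ⊓ N[E]] ≤ _)
  rw [c.cW h] at d m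
  obtain ⟨k, hk, e⟩ := (Nat.dvd_prime_pow hp.out).1 d
  have p1 := hp.out.one_lt
  interval_cases k
  · rw [e] at m
    exact absurd (((Nat.modEq_iff_dvd' (Nat.one_le_pow _ _ (by omega))).1 m.symm).mul_left p) nq
  · rw [e] at m
    refine absurd (((Nat.modEq_iff_dvd' (Nat.pow_le_pow_right (by omega) (by omega))).1 m.symm).trans
      ⟨p + 1, ?_⟩) nq
    zify [Nat.one_le_pow 2 p (by omega), Nat.pow_le_pow_right (show 0 < p by omega) (show 1 ≤ 2 by omega)]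
    ring
  · exact le_centralizer_iff.1 (inf_eq_left.1 (eq_of_le_of_card_ge inf_le_left (by rw [e, c.cW h])))

omit c in
theorem lift {H : Subgroup G} (h1 : L ⊓ C[V] ≤ H) (HL : H ≤ L) :
    bar V H ⊓ C[bar V X] ≤ bar V (H ⊓ C[X]) := by
  intro y hy
  obtain ⟨k, hk, rfl⟩ := mem_bar.1 (mem_inf.1 hy).1
  have ck := mem_cent_iff.1 (mem_inf.1 hy).2
  obtain ⟨n, hn, cn⟩ := CfsgH1.coprime_fixed_coset (A := X) (N := L ⊓ C[V]) (k := k)
    (le_norm_inf nL (le_norm_cent nV)) ((coprime_of_pgroup pX nd).coprime_dvd_right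
      (card_dvd_of_le inf_le_left)) (.inl (haveI := pX.isNilpotent; inferInstance)) fun a ha => mem_inf.2
      ⟨mul_mem (inv_mem (HL hk)) (conj_mem_of_norm (nL ha) (HL hk)),
        (hψ_eq_one (l := k⁻¹ * (⟨a, nV ha⟩ * k * ⟨a, nV ha⟩⁻¹))).1 (by
          rw [map_mul, map_mul, map_mul, ck _ (mem_bar.2 ⟨⟨a, nV ha⟩, ha, rfl⟩)]; simp)⟩
  refine mem_bar.2 ⟨k * ⟨n, h.nm hn.1⟩, mem_inf.2 ⟨mul_mem hk (h1 hn), cn⟩, ?_⟩
  rw [map_mul, (hψ_eq_one (l := ⟨n, _⟩)).2 hn.2, mul_one]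

omit nL in
theorem bar_fix {x e : N[V]} (hx : (x : G) ∈ X) (he : (e : G) ∈ E) (k : E = E.map (cj (x : G))) :
    hψ V x * hψ V e * (hψ V x)⁻¹ = hψ V e := by
  have xn := map_cj_eq_iff.1 k.symm
  have s := stab_cent h c pX nV nd (mem_inf.2 ⟨hx, xn⟩)
  rw [← mul_inv_eq_one, ← map_inv, ← map_inv, ← map_mul, ← map_mul, ← map_mul, hψ_eq_one]
  refine c.faW h (mem_inf.2 ⟨mul_mem (conj_mem_of_norm xn he) (E.inv_mem he), ?_⟩)
  simpa [mul_assoc] using mul_mem s (conj_mem_of_norm (le_norm_cent (le_norm_commutator (c.n h)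
    le_normalizer) he) (inv_mem s))

theorem bar_E_le : bar V E ≤ bar V (J[p, L] ⊔ L ⊓ C[V]) ⊓ C[bar V X] ⊔
    bar V ((J[p, L] ⊔ L ⊓ C[V]) ⊓ C[⁅V, E⁆]) := by
  intro y hy
  obtain ⟨e, he, rfl⟩ := mem_bar.1 hy
  have cx : ∀ x : N[V], (x : G) ∈ X → AC p V L (E.map (cj (x : G))) ∧
      ((x * e * x⁻¹ : N[V]) : G) ∈ E.map (cj (x : G)) :=
    fun x hx => ⟨c.map_cj h x.2 (nL hx), conj_mem_map_cj he⟩
  have e1 : ∀ x : N[V], hψ V (x * e * x⁻¹) = hψ V x * hψ V e * (hψ V x)⁻¹ := fun x => by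
    rw [map_mul, map_mul, map_inv]
  refine norm_mem (fun y hy => ?_) (fun y hy => ?_) (fun y hy => ?_) ?_
  · obtain ⟨x, hx, rfl⟩ := mem_bar.1 hy
    rcases c.dich h (cx x hx).1 with k | k
    · rw [bar_fix h c pX nV nd hx he k]; exact .refl _
    · rw [← e1, ← commutatorElement_eq_one_iff_commute, ← map_commutatorElement, hψ_eq_one]
      have := k.2
      rw [commutator_comm] at this
      exact this (commutator_mem_commutator he (cx x hx).2)
  · obtain ⟨x, hx, rfl⟩ := mem_bar.1 hy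
    exact mem_bar.2 ⟨_, (cx x hx).1.leJ h (cx x hx).2, e1 x⟩
  · obtain ⟨x, hx, rfl⟩ := mem_bar.1 hy
    exact (c.dich h (cx x hx).1).imp (bar_fix h c pX nV nd hx he) fun k =>
      mem_bar.2 ⟨_, mem_inf.2 ⟨(cx x hx).1.leJ h (cx x hx).2, k.1 (cx x hx).2⟩, e1 x⟩
  · refine ((coprime_of_pgroup pX nd).symm.coprime_dvd_left ((orderOf_map_dvd _ _).trans
      ?_)).coprime_dvd_right (Dvd.intro _ (card_bar_mul nV))
    rw [← orderOf_coe]; exact orderOf_dvd_of_mem (c.le he)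

theorem E_le : E ≤ (J[p, L] ⊔ L ⊓ C[V]) ⊓ C[X] ⊔ (J[p, L] ⊔ L ⊓ C[V]) ⊓ C[⁅V, E⁆] := by
  have HL : J[p, L] ⊔ L ⊓ C[V] ≤ L := sup_le J_le inf_le_left
  refine h.le_of c.le ((le_inf le_sup_right (inf_le_right.trans (cent_anti (c.WV h)))).trans le_sup_right)
    (sup_le (inf_le_left.trans HL) (inf_le_left.trans HL)) ?_
  rw [bar_sup ((inf_le_left.trans HL).trans h.nm) ((inf_le_left.trans HL).trans h.nm)]
  exact (bar_E_le h c pX nL nV nd).trans (sup_le_sup_right (lift h pX nL nV nd le_sup_right HL) _)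

theorem exists_W : ∃ W ≤ V ⊓ C[X], (J[p, L] ⊔ L ⊓ C[V]) ⊓ C[X] ≤ N[W] ∧ W ⊓ (V ⊓ C[E]) = ⊥ ∧
    ⁅V, E⁆ ≤ W ⊔ V ⊓ C[E] := by
  classical
  haveI := Fintype.ofFinite X
  let s : Finset (Subgroup G) := Finset.univ.image fun x : X => E.map (cj x)
  have ms : ∀ x ∈ X, E.map (cj x) ∈ s := fun x hx => Finset.mem_image.2 ⟨⟨x, hx⟩, Finset.mem_univ _, rfl⟩
  have cs : ∀ D ∈ s, AC p V L D := fun D hD => by
    obtain ⟨x, -, rfl⟩ := Finset.mem_image.1 hD
    exact c.map_cj h (nV x.2) (nL x.2)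
  have mx : ∀ x ∈ X, ∀ v ∈ ⁅V, E⁆, x * v * x⁻¹ ∈ ⁅V, E.map (cj x)⁆ := fun x hx v hv => by
    have := conj_mem_map_cj (g := x) hv
    rwa [map_commutator, map_cj_eq (nV hx)] at this
  refine ⟨s.sup (⁅V, ·⁆) ⊓ C[X], inf_le_inf_right _ (Finset.sup_le fun D hD => (cs D hD).WV h),
    le_norm_inf (fun g hg => mem_norm_of_map_le (map_cj_le_iff.2 (Finset.sup_le fun D hD =>
      map_cj_le_iff.1 ?_))) (inf_le_right.trans le_normalizer), eq_bot_iff.2 fun w hw =>
        indep h s cs w hw.1.1 fun D hD => ?_, fun v hv => norm_mem (fun x hx => ?_) (fun x hx =>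
          Finset.le_sup (f := (⁅V, ·⁆)) (ms x hx) (mx x hx v hv)) (fun x hx => ?_) ?_⟩
  · have HL : J[p, L] ⊔ L ⊓ C[V] ≤ L := sup_le J_le inf_le_left
    rw [map_cj_eq (mem_norm_commutator (h.nm (HL hg.1)) ((cs D hD).norm h hg.1))]
    exact Finset.le_sup (f := (⁅V, ·⁆)) hD
  · obtain ⟨x, -, rfl⟩ := Finset.mem_image.1 hD
    have := mem_cent_iff.1 (mem_inf.1 (mem_inf.1 hw).1).2 (x : G) x.2
    rw [centralizer_map_cj, mem_map_cj, _root_.mul_assoc, ← this, inv_mul_cancel_left]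
    exact hw.2.2
  · exact comm_of_isMulComm h.el.1 (c.WV h hv) (conj_mem_of_norm (nV hx) (c.WV h hv))
  · rcases ((cs _ (ms x hx)).dich h c) with k | k
    · exact .inl (by rw [← mem_cent_iff.1 (stab_cent h c pX nV nd ⟨hx, map_cj_eq_iff.1 k⟩) v hv,
        mul_inv_cancel_right])
    · exact .inr ⟨conj_mem_of_norm (nV hx) (c.WV h hv), le_centralizer_iff.1 k.1 (mx x hx v hv)⟩
  · exact (coprime_of_pgroup pX nd).symm.coprime_dvd_left (orderOf_dvd_of_mem (h.le (c.WV h hv)))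

theorem exists_sl : ∃ W D : Subgroup G, W ≤ L ⊓ C[X] ∧ D ≤ L ⊓ C[X] ∧ IsElementaryAbelian p W ∧
    o[W] = p ^ 2 ∧ D ≤ N[W] ∧ ∃ _ : (C[W].subgroupOf D).Normal,
      Nonempty (D ⧸ C[W].subgroupOf D ≃* SL(2, ZMod p)) := by
  obtain ⟨W, l, n, i, s⟩ := exists_W h c pX nL nV nd
  have HL : J[p, L] ⊔ L ⊓ C[V] ≤ L := sup_le J_le inf_le_left
  have WV : W ≤ V := l.trans inf_le_left
  have nD := (inf_le_left.trans HL : _ ⊓ C[X] ≤ L).trans h.nm
  have nE : _ ⊓ C[X] ≤ N[E] := inf_le_left.trans (c.norm h)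
  have i2 : ⁅V, E⁆ ⊓ (V ⊓ C[E]) = ⊥ := eq_bot_iff.2 (c.W_inf h ▸ inf_le_inf_left _ inf_le_right)
  have s2 : W ⊔ V ⊓ C[E] = V := le_antisymm (sup_le WV inf_le_left)
    ((c.W_sup h).ge.trans (sup_le s le_sup_right))
  have nU : V ≤ N[V ⊓ C[E]] := (le_cent_of_comm h.el.1 inf_le_left).trans (cent_le_norm _)
  have c1 := card_sup_of_disj (.inl (WV.trans nU)) i
  have c2 := card_sup_of_disj (.inl ((c.WV h).trans nU)) i2
  rw [s2] at c1
  rw [c.W_sup h, c1, c.cW h] at c2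
  have nDU := le_norm_inf nD (le_norm_cent nE)
  have nD1 := le_norm_commutator nD nE
  have nE1 := le_norm_commutator (c.n h) (le_normalizer (H := E))
  obtain ⟨_, ⟨f1⟩⟩ := quot_bar (U := C[W]) nD1 (le_antisymm
    (fun x hx => cent_swap h.el.1 WV inf_le_left s i2 nDU nD1 (mem_inf.2 ⟨x.2, hx⟩))
    fun x hx => cent_swap h.el.1 (c.WV h) inf_le_left (WV.trans (c.W_sup h).ge) i nDU n
      (mem_inf.2 ⟨x.2, hx⟩))
  obtain ⟨_, ⟨f2⟩⟩ := quot_bar (U := C[V]) nE1 (le_antisymm (fun x hx => cent_anti (c.WV h) hx)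
    fun x hx => c.faW h (mem_inf.2 ⟨x.2, hx⟩))
  obtain ⟨_, ⟨f3⟩⟩ := c.iso h
  refine ⟨W, _, l.trans (inf_le_inf_right _ h.le), inf_le_inf_right _ HL, elem_of_le h.el WV,
    Nat.eq_of_mul_eq_mul_right (card_pos' _) c2, n, ‹_›,
    ⟨(f1.trans (MulEquiv.subgroupCongr (le_antisymm ?_ ?_))).trans (f2.symm.trans f3)⟩⟩
  · exact (bar_le_bar nD1 nE1).2 (inf_le_left.trans ((H_le h c).trans (sup_le_sup_left inf_le_right _)))
  · exact (bar_le_bar nE1 nD1).2 ((E_le h c pX nL nV nd).trans (sup_le_sup_left inf_le_right _))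

theorem E_le_of (t : Syl p T L) (h1 : T ≤ Y) (h2 : L ⊓ C[V] ≤ Y) (h3 : L ⊓ C[X] ≤ Y) : E ≤ Y := by
  have HL : J[p, L] ⊔ L ⊓ C[V] ≤ L := sup_le J_le inf_le_left
  have l : L ⊓ C[V] ≤ Y ⊓ E := le_inf h2 c.ge
  have n : E ≤ N[Y ⊓ E] := (E_le h c pX nL nV nd).trans (sup_le (le_norm_inf
    (((inf_le_inf_right _ HL).trans h3).trans le_normalizer) (inf_le_left.trans (c.norm h))) ?_)
  · have t2 := (t.inf_norm HL (t.le.trans (le_norm_sup le_norm_J (le_norm_inf le_normalizer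
      (le_norm_cent h.nm))))).inf_norm (c.leJ h) (inf_le_right.trans (c.norm h))
    obtain ⟨R, A, a, e, -⟩ := c.cm.ex h.fa
    have nb := bar_le_norm (V := V) n
    have t3 : Syl p (bar V _) (bar V E) := ((inj_syl N[V].subtype_injective).1 (by
      rwa [map_subgroupOf_eq_of_le ((t2.le.trans (c.n h))), map_subgroupOf_eq_of_le (c.n h)])).map (hψ V)
    obtain ⟨g, hg, lA⟩ := t3.exists_le_conj (IsPGroup.of_card (a.cA.trans (pow_one p).symm))
      (e ▸ le_sup_right)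
    replace lA : A ≤ bar V (Y ⊓ E) := lA.trans (map_cj_le_of_norm (bar_mono (le_inf
      ((inf_le_left.trans inf_le_left).trans h1) inf_le_right)) (nb hg))
    refine (h.le_of c.le l (inf_le_right.trans c.le) ?_).trans inf_le_left
    refine e.le.trans (sup_le (a.cm.ge.trans ((commutator_mono le_rfl lA).trans
      (comm_le_right ((le_sup_left.trans e.ge).trans nb)))) lA)
  · refine le_norm_of_comm_le (K := L ⊓ C[V]) ((commutator_mono inf_le_right le_rfl).trans ?_) l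
    have k1 := comm_le_left (inf_le_left.trans (c.norm h) : _ ⊓ C[⁅V, E⁆] ≤ N[E])
    exact le_inf (k1.trans c.le) ((le_inf k1 ((commutator_mono le_rfl inf_le_right).trans
      (comm_le_right (le_norm_cent (le_norm_commutator (c.n h) le_normalizer))))).trans (c.faW h))

omit hq h c pX nL nV nd in
theorem af_scc (hs : IsPSolvable p K) (hO : pPrimeCore p K = ⊥) :
    AF p ((VZ p K).map K.subtype) K ∧ N[K] ≤ N[(VZ p K).map K.subtype] := by
  have i := K.subtype_injective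
  refine ⟨⟨(inj_elem i).2 (VZ_elem (con_top_iff.1 (CfsgH1.centralizer_pCore_le hs hO))),
    map_subtype_le _, CfsgH9.le_normalizer_map_subtype _, (CfsgH1.isPSolvable_iff Fact.out).1 hs,
    fun D l n k => ?_⟩, ?_⟩
  · haveI := (normal_subgroupOf_iff_le_normalizer l).2 n
    rw [← map_subgroupOf_eq_of_le l] at k ⊢
    rw [← map_piRes, inj_le_cent i] at k
    exact (inj_le_cent i).2 (le_cent_VZ_of_piRes k)
  · rw [show (VZ p K).map K.subtype = sylowCenterClosure p K by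
      rw [VZ, Subgroup.map_iSup, CfsgH9.scc_eq]; exact iSup_congr fun S => CfsgH9.map_OZ i _]
    exact CfsgH9.le_normalizer_scc le_rfl

end CfsgFX
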