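import Mathlib
import Cfsg.Agent.H6.BN

/-! Hecke-algebra computations for a finite group with a (B,N)-pair. -/

set_option autoImplicit false

namespace CfsgH9
namespace FH

open Cfsg CfsgH6 CfsgH6.BN
open scoped Classical

variable {G : Type*} [Group G] (P : BNPair G)

/-- the Weyl group element whose cell contains `g` -/
noncomputable def pos (g : G) : W P := (exists_mem_cell P g).choose

theorem mem_pos (g : G) : g ∈ cell P (pos P g) := (exists_mem_cell P g).choose_spec

variable {P}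

theorem pos_eq {g : G} {w : W P} (h : g ∈ cell P w) : pos P g = w :=
  eq_of_mem_cell (mem_pos P g) h

theorem mem_of_pos {g : G} {w : W P} (h : pos P g = w) : g ∈ cell P w := h ▸ mem_pos P g

theorem pos_inv (g : G) : pos P g⁻¹ = (pos P g)⁻¹ := pos_eq (inv_mem_cell (mem_pos P g))

theorem pos_one : pos P 1 = 1 := pos_eq ((mem_cell_one P).2 P.B.one_mem)

theorem σσ (s : P.S) (w : W P) : σ P s * (σ P s * w) = w := by
  rw [← mul_assoc, σ_sq, one_mul]

/-- indicator of `{1, s}` -/
noncomputable def ind (s : P.S) (w : W P) : ℂ := if w = 1 ∨ w = σ P s then 1 else 0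

theorem ind_mul (s : P.S) {x : G} (hx : x ∈ cell P (σ P s)) (u : G) :
    ind s (pos P (x * u)) = ind s (pos P u) := by
  have key : ∀ x u : G, x ∈ cell P (σ P s) → (pos P u = 1 ∨ pos P u = σ P s) →
      (pos P (x * u) = 1 ∨ pos P (x * u) = σ P s) := by
    intro x u hx h
    rcases σ_mul_mem hx (mem_pos P u) with h1 | h1
    · rw [pos_eq h1]
      rcases h with h | h
      · rw [h, mul_one]; exact Or.inr rfl
      · rw [h, σ_sq]; exact Or.inl rfl
    · rw [pos_eq h1]; exact h
  have hx' : x⁻¹ ∈ cell P (σ P s) := by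
    have := inv_mem_cell hx; rwa [σ_inv] at this
  unfold ind
  by_cases h : pos P u = 1 ∨ pos P u = σ P s
  · rw [if_pos h, if_pos (key x u hx h)]
  · rw [if_neg h, if_neg]
    intro h'
    have := key x⁻¹ _ hx' h'
    rw [inv_mul_cancel_left] at this
    exact h this

variable [Fintype G]

variable (P) in
/-- size of a cell -/
noncomputable def nn (w : W P) : ℕ := (Finset.univ.filter (fun g => pos P g = w)).card

theorem sum_pos (f : W P → ℂ) [Fintype (W P)] :
    ∑ g, f (pos P g) = ∑ w, (nn P w : ℂ) * f w := by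
  rw [← Finset.sum_fiberwise (s := Finset.univ) (g := pos P)]
  refine Finset.sum_congr rfl fun w _ => ?_
  rw [Finset.sum_congr rfl (g := fun _ => f w), Finset.sum_const, nsmul_eq_mul]
  · rfl
  · intro g hg
    rw [(Finset.mem_filter.1 hg).2]

theorem nn_pos (w : W P) : 0 < nn P w := by
  obtain ⟨g, hg⟩ := cell_nonempty (P := P) w
  exact Finset.card_pos.2 ⟨g, Finset.mem_filter.2 ⟨Finset.mem_univ _, pos_eq hg⟩⟩

theorem sum_pair_short (s : P.S) (φ : W P → ℂ) (w : W P) (hw : len P w < len P (σ P s * w))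
    (g : G) (hg : pos P g = w) :
    ∑ u, ind s (pos P u) * φ (pos P (u⁻¹ * g)) =
      nn P 1 * φ w + nn P (σ P s) * φ (σ P s * w) := by
  have h1 : ∀ u, ind s (pos P u) * φ (pos P (u⁻¹ * g)) =
      (if pos P u = 1 then φ w else 0) + (if pos P u = σ P s then φ (σ P s * w) else 0) := by
    intro u
    unfold ind
    by_cases h : pos P u = 1
    · have h2 : pos P u ≠ σ P s := by rw [h]; exact (σ_ne_one P s).symm
      rw [if_pos (Or.inl h), if_pos h, if_neg h2, one_mul, add_zero]
      have hu : u⁻¹ ∈ P.B := P.B.inv_mem ((mem_cell_one P).1 (mem_of_pos h))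
      rw [pos_eq (B_mul_mem_cell hu (mem_of_pos hg))]
    · by_cases h2 : pos P u = σ P s
      · rw [if_pos (Or.inr h2), if_neg h, if_pos h2, one_mul, zero_add]
        have hu : u⁻¹ ∈ cell P (σ P s) := by
          have := inv_mem_cell (mem_of_pos h2); rwa [σ_inv] at this
        rw [pos_eq (σ_mul_mem_of_len_le s w hw.le hu (mem_of_pos hg))]
      · rw [if_neg (by tauto), if_neg h, if_neg h2]; simp
  simp only [h1, Finset.sum_add_distrib, ← Finset.sum_filter, Finset.sum_const, nsmul_eq_mul]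
  rfl

theorem sum_pair (s : P.S) (φ : W P → ℂ) (w : W P) (hw : len P w < len P (σ P s * w))
    (g : G) (hg : pos P g = w ∨ pos P g = σ P s * w) :
    ∑ u, ind s (pos P u) * φ (pos P (u⁻¹ * g)) =
      nn P 1 * φ w + nn P (σ P s) * φ (σ P s * w) := by
  rcases hg with hg | hg
  · exact sum_pair_short s φ w hw g hg
  · obtain ⟨b₁, hb₁, n, hn, b₂, hb₂, he, rfl⟩ := mem_of_pos hg
    have hx : b₁ * (s : G) ∈ cell P (σ P s) := B_mul_mem_cell hb₁ (s_mem_cell s)
    have hg' : pos P ((s : G)⁻¹ * n * b₂) = w := by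
      refine pos_eq (mul_B_mem_cell ?_ hb₂)
      have hsN : (s : G) ∈ P.N := P.subset s.2
      have := self_mem_cell P (P.N.mul_mem (P.N.inv_mem hsN) hn)
      rw [mk_mul P _ _ (P.N.inv_mem hsN) hn, mk_inv P _ hsN, he] at this
      change _ ∈ cell P ((σ P s)⁻¹ * _) at this
      rwa [inv_mul_cancel_left] at this
    rw [← sum_pair_short s φ w hw _ hg', ← Equiv.sum_comp (Equiv.mulLeft (b₁ * (s : G)))]
    refine Finset.sum_congr rfl fun u _ => ?_
    simp only [Equiv.coe_mulLeft]
    rw [ind_mul s hx]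
    congr 3
    group

/-- the matrix of a bi-invariant function -/
noncomputable def M (φ : W P → ℂ) : Matrix G G ℂ := fun x y => φ (pos P (x * y⁻¹))

/-- the action of `1 + T_s` on coefficient functions (times `|B|`) -/
noncomputable def A (s : P.S) (φ : W P → ℂ) (w : W P) : ℂ :=
  if len P w < len P (σ P s * w) then nn P 1 * φ w + nn P (σ P s) * φ (σ P s * w)
  else nn P 1 * φ (σ P s * w) + nn P (σ P s) * φ w

theorem mul_M_apply (χ φ : W P → ℂ) (x z : G) :
    (M χ * M φ) x z = ∑ u, χ (pos P u) * φ (pos P (u⁻¹ * (x * z⁻¹))) := by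
  rw [Matrix.mul_apply, ← Equiv.sum_comp ((Equiv.inv G).trans (Equiv.mulRight x))]
  refine Finset.sum_congr rfl fun u _ => ?_
  simp only [M, Equiv.trans_apply, Equiv.inv_apply, Equiv.coe_mulRight]
  congr 3 <;> group

theorem ind_mul_M (s : P.S) (φ : W P → ℂ) : M (ind s) * M φ = M (A s φ) := by
  ext x z
  rw [mul_M_apply]
  unfold M A
  by_cases h : len P (pos P (x * z⁻¹)) < len P (σ P s * pos P (x * z⁻¹))
  · rw [if_pos h]; exact sum_pair s φ _ h _ (Or.inl rfl)
  · rw [if_neg h]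
    have h' : len P (σ P s * pos P (x * z⁻¹)) < len P (σ P s * (σ P s * pos P (x * z⁻¹))) := by
      rw [σσ]
      exact lt_of_le_of_ne (not_lt.1 h) (len_σ_mul_ne s _)
    rw [sum_pair s φ _ h' _ (Or.inr (σσ s _).symm), σσ]

theorem one_mul_M (φ : W P → ℂ) : M (Pi.single (1 : W P) 1) * M φ = (nn P 1 : ℂ) • M φ := by
  ext x z
  rw [mul_M_apply]
  have h1 : ∀ u, (Pi.single 1 1 : W P → ℂ) (pos P u) * φ (pos P (u⁻¹ * (x * z⁻¹))) =
      if pos P u = 1 then φ (pos P (x * z⁻¹)) else 0 := by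
    intro u
    by_cases h : pos P u = 1
    · rw [if_pos h, h, Pi.single_eq_same, one_mul]
      have hu : u⁻¹ ∈ P.B := P.B.inv_mem ((mem_cell_one P).1 (mem_of_pos h))
      rw [pos_eq (B_mul_mem_cell hu (mem_pos P _))]
    · rw [if_neg h, Pi.single_eq_of_ne h, zero_mul]
  simp only [h1, ← Finset.sum_filter, Finset.sum_const, nsmul_eq_mul]
  rfl

theorem A_single (s : P.S) (w : W P) (hw : len P w < len P (σ P s * w)) :
    A s (Pi.single w 1) = (nn P 1 : ℂ) • (Pi.single w 1 + Pi.single (σ P s * w) 1) := by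
  have hne : σ P s * w ≠ w := fun h => by rw [h] at hw; exact lt_irrefl _ hw
  ext v
  unfold A
  simp only [Pi.smul_apply, Pi.add_apply, smul_eq_mul]
  by_cases h1 : v = w
  · subst h1
    rw [if_pos hw, Pi.single_eq_same, Pi.single_eq_of_ne hne, Pi.single_eq_of_ne hne.symm]
    simp
  · by_cases h2 : v = σ P s * w
    · subst h2
      rw [σσ, if_neg (not_lt.2 hw.le), Pi.single_eq_same, Pi.single_eq_of_ne hne,
        Pi.single_eq_same]
      simp
    · have h3 : σ P s * v ≠ w := fun h => h2 (by rw [← h, σσ])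
      rw [Pi.single_eq_of_ne h1, Pi.single_eq_of_ne h2, Pi.single_eq_of_ne h3]
      simp

theorem M_add (φ ψ : W P → ℂ) : M (φ + ψ) = M φ + M ψ := rfl
theorem M_smul (c : ℂ) (φ : W P → ℂ) : M (c • φ) = c • M φ := rfl

theorem nn_mul (s : P.S) (w : W P) (hw : len P w < len P (σ P s * w)) :
    nn P (σ P s * w) * nn P 1 = nn P (σ P s) * nn P w := by
  haveI : Fintype (W P) := Fintype.ofFinite _
  have h := ind_mul_M s (Pi.single w 1)
  rw [A_single s w hw] at h
  have h2 := congrArg (fun N : Matrix G G ℂ => ∑ z, N 1 z⁻¹) h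
  simp only [mul_M_apply, M, one_mul, inv_inv] at h2
  rw [Finset.sum_comm] at h2
  have h3 : ∀ u : G, ∑ z, ind s (pos P u) * (Pi.single w 1 : W P → ℂ) (pos P (u⁻¹ * z)) =
      ind s (pos P u) * nn P w := by
    intro u
    rw [← Finset.mul_sum, ← Equiv.sum_comp (Equiv.mulLeft u)]
    simp only [Equiv.coe_mulLeft, inv_mul_cancel_left]
    rw [sum_pos (Pi.single w 1)]
    simp [Pi.single_apply]
  simp only [h3] at h2
  rw [← Finset.sum_mul, sum_pos (ind s), sum_pos] at h2
  have h4 : ∑ v, (nn P v : ℂ) * ind s v = nn P 1 + nn P (σ P s) := by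
    have : ∀ v, (nn P v : ℂ) * ind s v =
        (if v = 1 then (nn P 1 : ℂ) else 0) + (if v = σ P s then (nn P (σ P s) : ℂ) else 0) := by
      intro v
      unfold ind
      by_cases h : v = 1
      · subst h; simp [(σ_ne_one P s).symm]
      · by_cases h' : v = σ P s
        · subst h'; simp [h]
        · simp [h, h']
    simp [this, Finset.sum_add_distrib]
  rw [h4] at h2
  simp only [Pi.smul_apply, Pi.add_apply, smul_eq_mul, Pi.single_apply, mul_add,
    Finset.sum_add_distrib, mul_ite, mul_one, mul_zero, Finset.sum_ite_eq', Finset.mem_univ,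
    if_true] at h2
  have : ((nn P (σ P s * w) * nn P 1 : ℕ) : ℂ) = ((nn P (σ P s) * nn P w : ℕ) : ℂ) := by
    push_cast; linear_combination -h2
  exact_mod_cast this

theorem nn_lt (s : P.S) : nn P 1 < nn P (σ P s) := by
  obtain ⟨b, hb, hbs⟩ := exists_conj_mem_cell s
  have hinj : Set.InjOn (fun g => (s : G) * g)
      (Finset.univ.filter (fun g => pos P g = 1) : Finset G) := fun _ _ _ _ h => mul_left_cancel h
  unfold nn
  rw [← Finset.card_image_of_injOn hinj]
  refine Finset.card_lt_card ⟨?_, fun h => ?_⟩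
  · intro g hg
    obtain ⟨u, hu, rfl⟩ := Finset.mem_image.1 hg
    have hu' := (mem_cell_one P).1 (mem_of_pos (Finset.mem_filter.1 hu).2)
    exact Finset.mem_filter.2 ⟨Finset.mem_univ _, pos_eq (mul_B_mem_cell (s_mem_cell s) hu')⟩
  · obtain ⟨u, hu, he⟩ := Finset.mem_image.1
      (h (Finset.mem_filter.2 ⟨Finset.mem_univ _, pos_eq hbs⟩))
    have hu' := (mem_cell_one P).1 (mem_of_pos (Finset.mem_filter.1 hu).2)
    have : (s : G) = b⁻¹ * u := by
      have h5 : u = b * s := by rw [mul_assoc] at he; exact mul_left_cancel he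
      rw [h5]; group
    exact not_mem_B P s (this ▸ P.B.mul_mem (P.B.inv_mem hb) hu')

theorem M_mul_mem (V : Submodule ℂ (Matrix G G ℂ)) (h1 : ∀ v ∈ V, M (Pi.single (1 : W P) 1) * v ∈ V)
    (hs : ∀ s : P.S, ∀ v ∈ V, M (ind s) * v ∈ V) (χ : W P → ℂ) : ∀ v ∈ V, M χ * v ∈ V := by
  haveI : Fintype (W P) := Fintype.ofFinite _
  have hw : ∀ k, ∀ w : W P, len P w = k → ∀ v ∈ V, M (Pi.single w 1) * v ∈ V := by
    intro k
    induction k with
    | zero => intro w hw; rw [len_eq_zero hw]; exact h1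
    | succ k ih =>
      intro w hw v hv
      have hne : w ≠ 1 := fun h => by rw [h, len_one] at hw; omega
      obtain ⟨s, hs'⟩ := exists_left_descent hne
      have hlt : len P (σ P s * w) < len P (σ P s * (σ P s * w)) := by rw [σσ]; omega
      have h := ind_mul_M s (Pi.single (σ P s * w) 1)
      rw [A_single s _ hlt, σσ, M_smul, M_add] at h
      have h2 := ih (σ P s * w) (by omega) v hv
      have h3 := hs s _ h2
      rw [← Matrix.mul_assoc, h, Matrix.smul_mul, Matrix.add_mul] at h3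
      have hn : (nn P 1 : ℂ) ≠ 0 := by exact_mod_cast (nn_pos 1).ne'
      rw [V.smul_mem_iff hn] at h3
      exact (V.add_mem_iff_right h2).1 h3
  intro v hv
  have : M χ = ∑ w, χ w • M (Pi.single w 1 : W P → ℂ) := by
    ext x y
    simp [M, Matrix.sum_apply, Pi.single_apply]
  rw [this, Matrix.sum_mul]
  exact V.sum_mem fun w _ => by
    rw [Matrix.smul_mul]; exact V.smul_mem _ (hw _ w rfl v hv)

theorem trace_idem (E : Matrix G G ℂ) (h : E * E = E) : ∃ k : ℕ, E.trace = k := by
  have h1 : IsIdempotentElem (Matrix.toLin' E) := by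
    unfold IsIdempotentElem
    rw [Module.End.mul_eq_comp, ← Matrix.toLin'_mul, h]
  have h2 := (LinearMap.IsIdempotentElem.isProj_range _ h1).trace
  rw [Matrix.trace_toLin'_eq] at h2
  exact ⟨_, h2⟩

/-- the rationality statement -/
theorem core [Fintype (W P)] (r s : P.S) (hS : ∀ t : P.S, t = r ∨ t = s) (φ ψ : W P → ℂ)
    (c₁ c₂ c₃ μ : ℂ) (hc₁ : c₁ ≠ 0) (h1 : A r φ = c₁ • φ) (h2 : A s ψ = c₂ • ψ) (h3 : A s φ = c₃ • ψ)
    (h4 : A r ψ = μ • φ) (h0 : φ 1 ≠ 0) :
    ∃ K : ℚ, ∑ w, (nn P w : ℂ) * (φ w * φ w⁻¹) = K * φ 1 ^ 2 := by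
  let V : Submodule ℂ (Matrix G G ℂ) := Submodule.span ℂ {M φ, M ψ}
  have mφ : M φ ∈ V := Submodule.subset_span (by simp)
  have mψ : M ψ ∈ V := Submodule.subset_span (by simp)
  have key : ∀ X : Matrix G G ℂ, X * M φ ∈ V → X * M ψ ∈ V → ∀ v ∈ V, X * v ∈ V := by
    intro X ha hb v hv
    obtain ⟨a, b, rfl⟩ := Submodule.mem_span_pair.1 hv
    rw [Matrix.mul_add, Matrix.mul_smul, Matrix.mul_smul]
    exact V.add_mem (V.smul_mem _ ha) (V.smul_mem _ hb)
  have hV := M_mul_mem (P := P) V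
    (key _ (by rw [one_mul_M]; exact V.smul_mem _ mφ) (by rw [one_mul_M]; exact V.smul_mem _ mψ))
    (by
      intro t
      rcases hS t with rfl | rfl
      · exact key _ (by rw [ind_mul_M, h1, M_smul]; exact V.smul_mem _ mφ)
          (by rw [ind_mul_M, h4, M_smul]; exact V.smul_mem _ mφ)
      · exact key _ (by rw [ind_mul_M, h3, M_smul]; exact V.smul_mem _ mψ)
          (by rw [ind_mul_M, h2, M_smul]; exact V.smul_mem _ mψ)) φ _ mφ
  obtain ⟨a, b, hab⟩ := Submodule.mem_span_pair.1 hV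
  have hE : M φ * M φ = (a + b * μ / c₁) • M φ := by
    have h5 := congrArg (fun X => M (ind r) * X) hab
    simp only [Matrix.mul_add, Matrix.mul_smul] at h5
    rw [← Matrix.mul_assoc, ind_mul_M, ind_mul_M, h1, h4, M_smul, M_smul, Matrix.smul_mul] at h5
    have h6 : M φ * M φ = c₁⁻¹ • (c₁ • (M φ * M φ)) := by
      rw [smul_smul, inv_mul_cancel₀ hc₁, one_smul]
    rw [h6, ← h5, smul_smul, smul_smul, ← add_smul, smul_smul]
    congr 1
    field_simp
  set c := a + b * μ / c₁ with hc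
  have hS1 : ∑ w, (nn P w : ℂ) * (φ w * φ w⁻¹) = c * φ 1 := by
    have h7 := congrFun (congrFun hE 1) 1
    rw [mul_M_apply] at h7
    simp only [inv_one, mul_one, pos_inv, Matrix.smul_apply, M, pos_one, smul_eq_mul] at h7
    rw [← h7, sum_pos (fun w => φ w * φ w⁻¹)]
  by_cases hc0 : c = 0
  · exact ⟨0, by rw [hS1, hc0]; simp⟩
  · obtain ⟨k, hk⟩ := trace_idem (c⁻¹ • M φ) (by
      rw [Matrix.smul_mul, Matrix.mul_smul, hE, smul_smul, smul_smul]
      congr 1; field_simp)
    have h8 : (c⁻¹ • M φ).trace = c⁻¹ * (Fintype.card G * φ 1) := by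
      simp [Matrix.trace, M, pos_one]; ring
    rw [h8] at hk
    have hG : (Fintype.card G : ℂ) ≠ 0 := by exact_mod_cast Fintype.card_ne_zero
    have hk0 : (k : ℂ) ≠ 0 := by
      rw [← hk]; exact mul_ne_zero (inv_ne_zero hc0) (mul_ne_zero hG h0)
    refine ⟨(Fintype.card G : ℚ) / k, ?_⟩
    rw [hS1]
    push_cast
    have : c = Fintype.card G * φ 1 / k := by
      rw [← hk]; field_simp
    rw [this]; field_simp

end FH
end CfsgH9
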