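import Mathlib
import Cfsg.Agent.H9.FH1

/-! The dihedral Weyl group of a rank two (B,N)-pair. -/

set_option autoImplicit false

namespace CfsgH9
namespace FH

open Cfsg CfsgH6 CfsgH6.BN
open scoped Classical

variable {G : Type*} [Group G] {P : BNPair G} (r s : P.S)

/-- chambers around the Coxeter polygon -/
noncomputable def E (k : ℤ) : W P :=
  if k % 2 = 0 then (σ P r * σ P s) ^ (k / 2) else σ P s * (σ P r * σ P s) ^ (k / 2)

theorem s_E_even {k : ℤ} (h : k % 2 = 0) : σ P s * E r s k = E r s (k + 1) := by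
  unfold E
  rw [if_pos h, if_neg (by omega), show (k + 1) / 2 = k / 2 by omega]

theorem s_E_odd {k : ℤ} (h : k % 2 = 1) : σ P s * E r s k = E r s (k - 1) := by
  have := s_E_even r s (k := k - 1) (by omega)
  rw [sub_add_cancel] at this
  rw [← this, σσ]

theorem r_E_odd {k : ℤ} (h : k % 2 = 1) : σ P r * E r s k = E r s (k + 1) := by
  unfold E
  rw [if_neg (by omega), if_pos (by omega), show (k + 1) / 2 = 1 + k / 2 by omega, zpow_add,
    zpow_one, mul_assoc]

theorem r_E_even {k : ℤ} (h : k % 2 = 0) : σ P r * E r s k = E r s (k - 1) := by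
  have := r_E_odd r s (k := k - 1) (by omega)
  rw [sub_add_cancel] at this
  rw [← this, σσ]

theorem E_zero : E r s 0 = 1 := by simp [E]

theorem s_conj (i : ℤ) : σ P s * (σ P r * σ P s) ^ i * σ P s = (σ P r * σ P s) ^ (-i) := by
  have h : σ P s * (σ P r * σ P s) * (σ P s)⁻¹ = (σ P r * σ P s)⁻¹ := by
    rw [mul_inv_rev, σ_inv, σ_inv, mul_assoc, mul_assoc, σ_sq, mul_one]
  have := conj_zpow (a := σ P s) (b := σ P r * σ P s) (i := i)
  rw [h, σ_inv] at this
  rw [← this, inv_zpow']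

theorem E_inv_even {k : ℤ} (h : k % 2 = 0) : (E r s k)⁻¹ = E r s (-k) := by
  unfold E
  rw [if_pos h, if_pos (by omega), show -k / 2 = -(k / 2) by omega, zpow_neg]

theorem E_inv_odd {k : ℤ} (h : k % 2 = 1) : (E r s k)⁻¹ = E r s k := by
  unfold E
  rw [if_neg (by omega), inv_eq_iff_mul_eq_one, ← mul_assoc, s_conj, zpow_neg, inv_mul_cancel]

variable {r s}

theorem s_ne (hrs : r ≠ s) (i : ℤ) : σ P s ≠ (σ P r * σ P s) ^ i := by
  intro h
  have hc : σ P r * σ P s ≠ 1 := by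
    intro h1
    have : σ P r = σ P s := by
      have h2 := eq_inv_of_mul_eq_one_left h1
      rwa [σ_inv] at h2
    exact hrs (σ_inj P this)
  have h1 := s_conj r s 1
  have h2 : Commute (σ P s) (σ P r * σ P s) := by
    have : Commute ((σ P r * σ P s) ^ i) (σ P r * σ P s) := Commute.zpow_self _ _
    rwa [← h] at this
  rw [zpow_one, h2.eq, mul_assoc, σ_sq, mul_one] at h1
  have h3 : (σ P r * σ P s) ^ (2 : ℤ) = 1 := by
    have : (σ P r * σ P s) ^ (2 : ℤ) = (σ P r * σ P s) * (σ P r * σ P s) := by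
      rw [zpow_two]
    rw [this]; nth_rewrite 1 [h1]; rw [zpow_neg, zpow_one, inv_mul_cancel]
  rw [← Int.mul_ediv_add_emod i 2, zpow_add, zpow_mul, h3, one_zpow, one_mul] at h
  rcases Int.emod_two_eq_zero_or_one i with h4 | h4
  · rw [h4, zpow_zero] at h; exact σ_ne_one P s h
  · rw [h4, zpow_one] at h
    exact σ_ne_one P r (mul_eq_right.1 h.symm)

theorem E_inj (hrs : r ≠ s) {k k' : ℤ} (h : E r s k = E r s k') :
    (2 * orderOf (σ P r * σ P s) : ℤ) ∣ k - k' := by
  unfold E at h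
  have key : k % 2 = k' % 2 → (σ P r * σ P s) ^ (k / 2) = (σ P r * σ P s) ^ (k' / 2) →
      (2 * orderOf (σ P r * σ P s) : ℤ) ∣ k - k' := by
    intro h1 h2
    obtain ⟨t, ht⟩ := (zpow_eq_zpow_iff_modEq.1 h2).symm.dvd
    exact ⟨t, by rw [mul_assoc, ← ht]; omega⟩
  by_cases h1 : k % 2 = 0 <;> by_cases h2 : k' % 2 = 0
  · rw [if_pos h1, if_pos h2] at h; exact key (by omega) h
  · rw [if_pos h1, if_neg h2] at h
    exact absurd (by rw [zpow_sub, h, mul_inv_cancel_right]) (s_ne hrs (k / 2 - k' / 2))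
  · rw [if_neg h1, if_pos h2] at h
    exact absurd (by rw [zpow_sub, ← h, mul_inv_cancel_right]) (s_ne hrs (k' / 2 - k / 2))
  · rw [if_neg h1, if_neg h2] at h; exact key (by omega) (mul_left_cancel h)

theorem E_per (k t : ℤ) : E r s (k + 2 * orderOf (σ P r * σ P s) * t) = E r s k := by
  unfold E
  rw [show (k + 2 * orderOf (σ P r * σ P s) * t) % 2 = k % 2 by rw [mul_assoc]; omega,
    show (k + 2 * orderOf (σ P r * σ P s) * t) / 2 = k / 2 + orderOf (σ P r * σ P s) * t by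
      rw [mul_assoc]; omega, zpow_add, zpow_mul, zpow_natCast, pow_orderOf_eq_one, one_zpow,
    mul_one]

theorem σ_E (hS : ∀ t : P.S, t = r ∨ t = s) (t : P.S) (k : ℤ) :
    σ P t * E r s k = E r s (k + 1) ∨ σ P t * E r s k = E r s (k - 1) := by
  rcases hS t with rfl | rfl <;> rcases Int.emod_two_eq_zero_or_one k with h | h
  · exact Or.inr (r_E_even _ _ h)
  · exact Or.inl (r_E_odd _ _ h)
  · exact Or.inl (s_E_even _ _ h)
  · exact Or.inr (s_E_odd _ _ h)

theorem wp_E (hS : ∀ t : P.S, t = r ∨ t = s) (l : List P.S) :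
    ∃ k : ℤ, k.natAbs ≤ l.length ∧ wp (σ P) l = E r s k := by
  induction l with
  | nil => exact ⟨0, by simp, by rw [E_zero]; rfl⟩
  | cons t l ih =>
    obtain ⟨k, hk, he⟩ := ih
    rw [wp_cons, he, List.length_cons]
    rcases σ_E hS t k with h | h
    · exact ⟨_, by omega, h⟩
    · exact ⟨_, by omega, h⟩

theorem len_E_le (j : ℕ) : len P (E r s j) ≤ j ∧ len P (E r s (-j)) ≤ j := by
  induction j with
  | zero => simp [E_zero, len_one]
  | succ j ih =>
    push_cast
    rw [neg_add, ← sub_eq_add_neg]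
    rcases Int.emod_two_eq_zero_or_one j with h | h
    · rw [← s_E_even r s h, ← r_E_even r s (by omega)]
      exact ⟨(len_σ_mul_le _ _).trans (by omega), (len_σ_mul_le _ _).trans (by omega)⟩
    · rw [← r_E_odd r s h, ← s_E_odd r s (by omega)]
      exact ⟨(len_σ_mul_le _ _).trans (by omega), (len_σ_mul_le _ _).trans (by omega)⟩

theorem len_E (hrs : r ≠ s) (hS : ∀ t : P.S, t = r ∨ t = s) {k : ℤ}
    (hk : k.natAbs ≤ orderOf (σ P r * σ P s)) : len P (E r s k) = k.natAbs := by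
  apply le_antisymm
  · rcases Int.natAbs_eq k with h | h
    · have := (len_E_le (r := r) (s := s) k.natAbs).1; rwa [← h] at this
    · have := (len_E_le (r := r) (s := s) k.natAbs).2; rwa [← h] at this
  · obtain ⟨l, hl, he⟩ := exists_reduced (E r s k)
    obtain ⟨k', hk', he'⟩ := wp_E hS l
    obtain ⟨t, ht⟩ := E_inj hrs (he.symm.trans he')
    rw [← hl]
    generalize orderOf (σ P r * σ P s) = m at hk ht
    rcases lt_trichotomy t 0 with h | h | h
    · have : (2 * m : ℤ) * t ≤ -(2 * m) := by nlinarith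
      omega
    · subst h; omega
    · have : (2 * m : ℤ) ≤ (2 * m) * t := by nlinarith
      omega

theorem E_surj [Finite G] (hS : ∀ t : P.S, t = r ∨ t = s) (w : W P) :
    ∃ k : ℤ, -(orderOf (σ P r * σ P s) : ℤ) ≤ k ∧ k < orderOf (σ P r * σ P s) ∧ E r s k = w := by
  obtain ⟨l, rfl⟩ := exists_word P w
  obtain ⟨k, -, he⟩ := wp_E hS l
  have hm : 0 < orderOf (σ P r * σ P s) := orderOf_pos _
  set m := orderOf (σ P r * σ P s) with hm'
  have h2 : (0 : ℤ) < 2 * m := by omega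
  refine ⟨(k + m) % (2 * m) - m, ?_, ?_, ?_⟩
  · have := Int.emod_nonneg (k + m) h2.ne'; omega
  · have := Int.emod_lt_of_pos (k + m) h2; omega
  · rw [he, ← E_per _ ((k + m) / (2 * m)), ← hm']
    congr 1
    have := Int.mul_ediv_add_emod (k + m) (2 * m)
    omega

theorem sum_W [Finite G] [Fintype (W P)] (hrs : r ≠ s) (hS : ∀ t : P.S, t = r ∨ t = s)
    (f : W P → ℂ) : ∑ w, f w =
      ∑ j ∈ Finset.range (orderOf (σ P r * σ P s)), (f (E r s j) + f (E r s (-(j + 1 : ℕ)))) := by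
  set m := orderOf (σ P r * σ P s) with hm'
  have hinj : ∀ k k' : ℤ, -(m : ℤ) ≤ k → k < m → -(m : ℤ) ≤ k' → k' < m →
      E r s k = E r s k' → k = k' := by
    intro k k' h1 h2 h3 h4 h
    obtain ⟨t, ht⟩ := E_inj hrs h
    rw [← hm'] at ht
    rcases lt_trichotomy t 0 with h | h | h
    · have : (2 * m : ℤ) * t ≤ -(2 * m) := by nlinarith
      omega
    · subst h; omega
    · have : (2 * m : ℤ) ≤ (2 * m) * t := by nlinarith
      omega
  rw [Finset.sum_add_distrib,
    ← Finset.sum_image (s := Finset.range m) (g := fun j : ℕ => E r s j) (f := f),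
    ← Finset.sum_image (s := Finset.range m) (g := fun j : ℕ => E r s (-(j + 1 : ℕ))) (f := f),
    ← Finset.sum_union]
  · refine Finset.sum_congr ?_ fun _ _ => rfl
    ext w
    simp only [Finset.mem_univ, Finset.mem_union, Finset.mem_image, Finset.mem_range, true_iff]
    obtain ⟨k, h1, h2, rfl⟩ := E_surj hS w
    by_cases h : 0 ≤ k
    · exact Or.inl ⟨k.toNat, by omega, by congr 1; omega⟩
    · exact Or.inr ⟨(-k).toNat - 1, by omega, by congr 1; omega⟩
  · rw [Finset.disjoint_left]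
    intro w h1 h2
    obtain ⟨i, hi, rfl⟩ := Finset.mem_image.1 h1
    obtain ⟨j, hj, he⟩ := Finset.mem_image.1 h2
    rw [Finset.mem_range] at hi hj
    have := hinj _ _ (by omega) (by omega) (by omega) (by omega) he
    omega
  · intro i hi j hj he
    simp only [Finset.coe_range, Set.mem_Iio] at hi hj
    have := hinj _ _ (by omega) (by omega) (by omega) (by omega) he
    omega
  · intro i hi j hj he
    simp only [Finset.coe_range, Set.mem_Iio] at hi hj
    have := hinj _ _ (by omega) (by omega) (by omega) (by omega) he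
    omega

theorem card_W [Finite G] (hrs : r ≠ s) (hS : ∀ t : P.S, t = r ∨ t = s) :
    Nat.card (W P) = 2 * orderOf (σ P r * σ P s) := by
  haveI : Fintype (W P) := Fintype.ofFinite _
  have := sum_W hrs hS (fun _ => 1)
  simp only [Finset.sum_const, Finset.card_univ, nsmul_eq_mul, mul_one, Finset.card_range] at this
  rw [Nat.card_eq_fintype_card]
  have h2 : ((Fintype.card (W P) : ℕ) : ℂ) = ((2 * orderOf (σ P r * σ P s) : ℕ) : ℂ) := by
    rw [this]; push_cast; ring
  exact_mod_cast h2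

theorem short_cases [Finite G] (hrs : r ≠ s) (hS : ∀ t : P.S, t = r ∨ t = s) (t : P.S) (w : W P)
    (h : len P w < len P (σ P t * w)) : ∃ j : ℕ, j < orderOf (σ P r * σ P s) ∧
      ((w = E r s j ∧ σ P t * w = E r s (j + 1 : ℕ) ∧ (t = s ↔ j % 2 = 0)) ∨
        (w = E r s (-j) ∧ σ P t * w = E r s (-(j + 1 : ℕ)) ∧ (t = r ↔ j % 2 = 0))) := by
  obtain ⟨k, h1, h2, rfl⟩ := E_surj hS w
  have hup : σ P t * E r s k = E r s (k + 1) → 0 ≤ k := by
    intro he
    rw [he, len_E hrs hS (by omega), len_E hrs hS (by omega)] at h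
    omega
  have hdn : σ P t * E r s k = E r s (k - 1) → k ≤ 0 ∧ -(orderOf (σ P r * σ P s) : ℤ) < k := by
    intro he
    have hm : 0 < orderOf (σ P r * σ P s) := orderOf_pos _
    by_cases hk : k = -(orderOf (σ P r * σ P s) : ℤ)
    · rw [he, ← E_per (k - 1) 1, len_E hrs hS (by omega), len_E hrs hS (by omega)] at h
      omega
    · rw [he, len_E hrs hS (by omega), len_E hrs hS (by omega)] at h
      omega
  rcases hS t with rfl | rfl <;> rcases Int.emod_two_eq_zero_or_one k with hk | hk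
  · have he := r_E_even t s hk
    have := hdn he
    refine ⟨(-k).toNat, by omega, Or.inr ⟨by congr 1; omega, by rw [he]; congr 1; omega, ?_⟩⟩
    simp only [true_iff]; omega
  · have he := r_E_odd t s hk
    have := hup he
    refine ⟨k.toNat, by omega, Or.inl ⟨by congr 1; omega, by rw [he]; congr 1; omega, ?_⟩⟩
    simp only [hrs, false_iff]; omega
  · have he := s_E_even r t hk
    have := hup he
    refine ⟨k.toNat, by omega, Or.inl ⟨by congr 1; omega, by rw [he]; congr 1; omega, ?_⟩⟩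
    simp only [true_iff]; omega
  · have he := s_E_odd r t hk
    have := hdn he
    refine ⟨(-k).toNat, by omega, Or.inr ⟨by congr 1; omega, by rw [he]; congr 1; omega, ?_⟩⟩
    simp only [hrs.symm, false_iff]; omega

variable [Fintype G]

theorem nn_E (hrs : r ≠ s) (hS : ∀ t : P.S, t = r ∨ t = s) (a b : ℂ)
    (ha : (nn P (σ P r) : ℂ) = a * nn P 1) (hb : (nn P (σ P s) : ℂ) = b * nn P 1) (j : ℕ)
    (hj : j ≤ orderOf (σ P r * σ P s)) :
    (nn P (E r s j) : ℂ) = nn P 1 * (b ^ ((j + 1) / 2) * a ^ (j / 2)) ∧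
      (nn P (E r s (-j)) : ℂ) = nn P 1 * (a ^ ((j + 1) / 2) * b ^ (j / 2)) := by
  have hn : (nn P 1 : ℂ) ≠ 0 := by exact_mod_cast (nn_pos 1).ne'
  have step : ∀ (t : P.S) (q : ℂ) (k k' : ℤ), (nn P (σ P t) : ℂ) = q * nn P 1 →
      σ P t * E r s k = E r s k' → k.natAbs < k'.natAbs → k'.natAbs ≤ orderOf (σ P r * σ P s) →
      (nn P (E r s k') : ℂ) = q * nn P (E r s k) := by
    intro t q k k' hq he h1 h2
    have h3 := nn_mul t (E r s k) (by rw [he, len_E hrs hS h2, len_E hrs hS (by omega)]; exact h1)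
    rw [he] at h3
    have h4 : (nn P (E r s k') : ℂ) * nn P 1 = nn P (σ P t) * nn P (E r s k) := by exact_mod_cast h3
    apply mul_right_cancel₀ hn
    rw [h4, hq]; ring
  induction j with
  | zero => simp [E_zero]
  | succ j ih =>
    obtain ⟨ih1, ih2⟩ := ih (by omega)
    rcases Nat.mod_two_eq_zero_or_one j with h | h
    · rw [step s b j (j + 1 : ℕ) hb (by rw [s_E_even r s (by omega)]; simp) (by omega) (by omega),
        step r a (-j) (-(j + 1 : ℕ)) ha (by rw [r_E_even r s (by omega)]; congr 1; omega)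
          (by omega) (by omega), ih1, ih2, show (j + 1 + 1) / 2 = (j + 1) / 2 + 1 by omega,
        show (j + 1) / 2 = j / 2 by omega]
      constructor <;> ring
    · rw [step r a j (j + 1 : ℕ) ha (by rw [r_E_odd r s (by omega)]; simp) (by omega) (by omega),
        step s b (-j) (-(j + 1 : ℕ)) hb (by rw [s_E_odd r s (by omega)]; congr 1; omega)
          (by omega) (by omega), ih1, ih2, show (j + 1 + 1) / 2 = (j + 1) / 2 by omega,
        show (j + 1) / 2 = j / 2 + 1 by omega]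
      constructor <;> ring

theorem A_eq (t : P.S) (φ ψ : W P → ℂ) (c : ℂ)
    (h : ∀ w, len P w < len P (σ P t * w) →
      nn P 1 * φ w + nn P (σ P t) * φ (σ P t * w) = c * ψ w ∧ ψ (σ P t * w) = ψ w) :
    A t φ = c • ψ := by
  ext w
  unfold A
  by_cases hw : len P w < len P (σ P t * w)
  · rw [if_pos hw]; exact (h w hw).1
  · rw [if_neg hw]
    have h' : len P (σ P t * w) < len P (σ P t * (σ P t * w)) := by
      rw [σσ]
      exact lt_of_le_of_ne (not_lt.1 hw) (len_σ_mul_ne t _)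
    obtain ⟨h1, h2⟩ := h _ h'
    rw [σσ] at h1 h2
    rw [h1, ← h2]; rfl

theorem exists_fun (hrs : r ≠ s) (hS : ∀ t : P.S, t = r ∨ t = s) (f g : ℕ → ℂ) (h0 : f 0 = g 0)
    (hm : f (orderOf (σ P r * σ P s)) = g (orderOf (σ P r * σ P s))) :
    ∃ φ : W P → ℂ, ∀ j : ℕ, j ≤ orderOf (σ P r * σ P s) →
      φ (E r s j) = f j ∧ φ (E r s (-j)) = g j := by
  refine ⟨fun w => if w = E r s (len P w) then f (len P w) else g (len P w), fun j hj => ?_⟩
  have h1 : len P (E r s j) = j := by rw [len_E hrs hS (by omega)]; simp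
  have h2 : len P (E r s (-j)) = j := by rw [len_E hrs hS (by omega)]; simp
  simp only [h1, h2, if_true, true_and]
  split_ifs with h
  · obtain ⟨t, ht⟩ := E_inj hrs h
    generalize orderOf (σ P r * σ P s) = m at hm hj ht
    rcases lt_trichotomy t 0 with h | h | h
    · have : (2 * m : ℤ) * t ≤ -(2 * m) := by nlinarith
      rw [show j = m by omega, hm]
    · subst h; rw [show j = 0 by omega, h0]
    · have : (0 : ℤ) ≤ (2 * m) * t := by positivity
      rw [show j = 0 by omega, h0]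
  · rfl

/-- rationality of the norm of a spherical function -/
theorem dih_core (hrs : r ≠ s) (hS : ∀ t : P.S, t = r ∨ t = s) (a b : ℂ) (ha1 : 1 + a ≠ 0)
    (ha : (nn P (σ P r) : ℂ) = a * nn P 1) (hb : (nn P (σ P s) : ℂ) = b * nn P 1)
    (F Ψ : ℕ → ℂ) (μ : ℂ) (h1 : ∀ i, Ψ (i + 1) = F i + b * F (i + 1))
    (h2 : ∀ i, μ * F i = Ψ i + a * Ψ (i + 1)) (h3 : Ψ 0 = Ψ 1)
    (h4 : ∀ n, orderOf (σ P r * σ P s) = 2 * n + 1 → F (n + 1) = F n)
    (h5 : ∀ n, orderOf (σ P r * σ P s) = 2 * n → Ψ (n + 1) = Ψ n) (h0 : F 0 ≠ 0) :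
    ∃ K : ℚ, ∑ j ∈ Finset.range (orderOf (σ P r * σ P s)),
      (b ^ ((j + 1) / 2) * a ^ (j / 2) + a ^ ((j + 1 + 1) / 2) * b ^ ((j + 1) / 2)) *
        F ((j + 1) / 2) ^ 2 = K * F 0 ^ 2 := by
  haveI : Fintype (W P) := Fintype.ofFinite _
  have hn : (nn P 1 : ℂ) ≠ 0 := by exact_mod_cast (nn_pos 1).ne'
  obtain ⟨φ, hφ⟩ := exists_fun hrs hS (fun j => F ((j + 1) / 2)) (fun j => F (j / 2)) rfl (by
    rcases Nat.even_or_odd' (orderOf (σ P r * σ P s)) with ⟨n, hn | hn⟩
    · simp only [hn]; congr 1; omega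
    · simp only [hn]
      rw [show (2 * n + 1 + 1) / 2 = n + 1 by omega, show (2 * n + 1) / 2 = n by omega, h4 n hn])
  obtain ⟨ψ, hψ⟩ := exists_fun hrs hS (fun j => Ψ (j / 2 + 1)) (fun j => Ψ ((j + 1) / 2))
    (by simpa using h3.symm) (by
    rcases Nat.even_or_odd' (orderOf (σ P r * σ P s)) with ⟨n, hn | hn⟩
    · simp only [hn]
      rw [show (2 * n + 1) / 2 = n by omega, show (2 * n) / 2 = n by omega, h5 n hn]
    · simp only [hn]; congr 1; omega)
  have hφ1 : φ 1 = F 0 := by have := (hφ 0 (by omega)).1; simpa [E_zero] using this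
  have main : A r φ = (nn P 1 * (1 + a) : ℂ) • φ → A s ψ = (nn P 1 * (1 + b) : ℂ) • ψ →
      A s φ = (nn P 1 : ℂ) • ψ → A r ψ = (nn P 1 * μ : ℂ) • φ → _ := fun e1 e2 e3 e4 =>
    core r s hS φ ψ _ _ _ _ (mul_ne_zero hn ha1) e1 e2 e3 e4 (by rw [hφ1]; exact h0)
  refine Exists.elim (main ?_ ?_ ?_ ?_) fun K hK => ?_
  rotate_right
  · refine ⟨K / nn P 1, ?_⟩
    rw [sum_W hrs hS, hφ1] at hK
    push_cast
    rw [div_mul_eq_mul_div, eq_div_iff hn, ← hK, Finset.sum_mul]
    refine Finset.sum_congr rfl fun j hj => ?_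
    rw [Finset.mem_range] at hj
    have e1 : φ (E r s j)⁻¹ = F ((j + 1) / 2) := by
      rcases Nat.mod_two_eq_zero_or_one j with h | h
      · rw [E_inv_even r s (by omega), (hφ j hj.le).2]; congr 1; omega
      · rw [E_inv_odd r s (by omega), (hφ j hj.le).1]
    have e2 : φ (E r s (-(j + 1 : ℕ)))⁻¹ = F ((j + 1) / 2) := by
      rcases Nat.mod_two_eq_zero_or_one j with h | h
      · rw [E_inv_odd r s (by omega), (hφ (j + 1) hj).2]
      · rw [E_inv_even r s (by omega), neg_neg, (hφ (j + 1) hj).1]; congr 1; omega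
    rw [e1, e2, (hφ j hj.le).1, (hφ (j + 1) hj).2, (nn_E hrs hS a b ha hb j hj.le).1,
      (nn_E hrs hS a b ha hb (j + 1) hj).2]
    ring
  all_goals
    refine A_eq _ _ _ _ fun w hw => ?_
    obtain ⟨j, hj, ⟨rfl, he, hp⟩ | ⟨rfl, he, hp⟩⟩ := short_cases hrs hS _ w hw
  all_goals
    simp only [hrs, hrs.symm, false_iff, true_iff] at hp
    simp only [he, (hφ j hj.le).1, (hφ j hj.le).2, (hφ (j + 1) hj).1, (hφ (j + 1) hj).2,
      (hψ j hj.le).1, (hψ j hj.le).2, (hψ (j + 1) hj).1, (hψ (j + 1) hj).2, ha, hb]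
  · rw [show (j + 1 + 1) / 2 = (j + 1) / 2 by omega]; exact ⟨by ring, rfl⟩
  · rw [show (j + 1) / 2 = j / 2 by omega]; exact ⟨by ring, rfl⟩
  · rw [show (j + 1) / 2 = j / 2 by omega]; exact ⟨by ring, rfl⟩
  · rw [show (j + 1 + 1) / 2 = (j + 1) / 2 by omega]; exact ⟨by ring, rfl⟩
  · rw [show (j + 1 + 1) / 2 = j / 2 + 1 by omega, show (j + 1) / 2 = j / 2 by omega, h1]
    exact ⟨by ring, rfl⟩
  · rw [show (j + 1 + 1) / 2 = j / 2 + 1 by omega, show (j + 1) / 2 = j / 2 + 1 by omega, h1]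
    exact ⟨by ring, rfl⟩
  · rw [show (j + 1 + 1) / 2 = j / 2 + 1 by omega, show (j + 1) / 2 = j / 2 + 1 by omega,
      mul_assoc, mul_assoc, h2]
    exact ⟨by ring, rfl⟩
  · rw [show (j + 1 + 1) / 2 = j / 2 + 1 by omega, show (j + 1) / 2 = j / 2 by omega,
      mul_assoc, mul_assoc, h2]
    exact ⟨by ring, rfl⟩

end FH
end CfsgH9
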