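import Mathlib
import Cfsg.Agent.H9.FH2

/-! The Feit–Higman theorem for (B,N)-pairs of rank two. -/

set_option autoImplicit false

namespace CfsgH9
namespace FH

open Cfsg CfsgH6 CfsgH6.BN

theorem sum_pairs (t : ℕ → ℂ) (n : ℕ) :
    ∑ j ∈ Finset.range (2 * n), t j = ∑ i ∈ Finset.range n, (t (2 * i) + t (2 * i + 1)) := by
  induction n with
  | zero => simp
  | succ n ih => rw [show 2 * (n + 1) = 2 * n + 1 + 1 by ring, Finset.sum_range_succ,
      Finset.sum_range_succ, ih, Finset.sum_range_succ, add_assoc]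

theorem sum_sq (α β z w : ℂ) (h : z * w = 1) (n : ℕ) :
    (z ^ 2 - 1) * ∑ i ∈ Finset.range n, (α * z ^ i + β * w ^ i) ^ 2 =
      α ^ 2 * ((z ^ n) ^ 2 - 1) - β ^ 2 * z ^ 2 * ((w ^ n) ^ 2 - 1) + 2 * n * α * β * (z ^ 2 - 1) := by
  induction n with
  | zero => simp
  | succ n ih =>
    rw [Finset.sum_range_succ, mul_add, ih]
    have h2 : z ^ n * w ^ n = 1 := by rw [← mul_pow, h, one_pow]
    push_cast
    rw [pow_succ z n, pow_succ w n]
    linear_combination (2 * α * β * (z ^ 2 - 1)) * h2 + β ^ 2 * (w ^ n) ^ 2 * (z * w + 1) * h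

theorem formula (m : ℕ) (a b ρ z : ℂ) (ha : a ≠ 0) (ha1 : 1 + a ≠ 0) (hρ : ρ ≠ 0)
    (hab : ρ ^ 2 = a * b) (hz : z ^ m = 1) (hm : 0 < m) (hz2 : z ^ 2 ≠ 1)
    (hodd : m % 2 = 1 → ρ = a)
    (H : ∀ (F Ψ : ℕ → ℂ) (μ : ℂ), (∀ i, Ψ (i + 1) = F i + b * F (i + 1)) →
      (∀ i, μ * F i = Ψ i + a * Ψ (i + 1)) → Ψ 0 = Ψ 1 →
      (∀ n, m = 2 * n + 1 → F (n + 1) = F n) → (∀ n, m = 2 * n → Ψ (n + 1) = Ψ n) → F 0 ≠ 0 →
      ∃ K : ℚ, ∑ j ∈ Finset.range m,
        (b ^ ((j + 1) / 2) * a ^ (j / 2) + a ^ ((j + 1 + 1) / 2) * b ^ ((j + 1) / 2)) *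
          F ((j + 1) / 2) ^ 2 = K * F 0 ^ 2) :
    ∃ K : ℚ, K * (4 * a * b - (ρ * (z + z⁻¹)) ^ 2) =
      m * ((a + b + ρ * (z + z⁻¹)) * (1 + a * b - ρ * (z + z⁻¹))) := by
  have hz0 : z ≠ 0 := by rintro rfl; rw [zero_pow hm.ne'] at hz; exact zero_ne_one hz
  have hz3 : z ^ 2 - 1 ≠ 0 := sub_ne_zero.2 hz2
  obtain rfl : b = ρ ^ 2 / a := by rw [hab]; field_simp
  set α := (a + ρ * z⁻¹) * (1 - ρ * z) with hα
  set β := -((a + ρ * z) * (1 - ρ * z⁻¹)) with hβ
  let Gf : ℕ → ℂ := fun i => α * z ^ i + β * z⁻¹ ^ i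
  let F : ℕ → ℂ := fun i => Gf i / ρ ^ i
  let Ψ : ℕ → ℂ := fun i => F (i - 1) + ρ ^ 2 / a * F (i - 1 + 1)
  have hF0 : F 0 = ρ * (1 + a) * (z⁻¹ - z) := by
    simp only [F, Gf, hα, hβ]; field_simp; ring
  have hzz : z⁻¹ - z ≠ 0 := by
    intro h; apply hz3
    have : z * (z⁻¹ - z) = 0 := by rw [h, mul_zero]
    rw [mul_sub, mul_inv_cancel₀ hz0] at this
    linear_combination -this
  obtain ⟨K, hK⟩ := H F Ψ (a + ρ ^ 2 / a + ρ * (z + z⁻¹)) (fun i => rfl) (by
      intro i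
      rcases i with _ | i
      · simp only [Ψ, F, Gf, hα, hβ]; norm_num; field_simp; ring
      · simp only [Ψ, F, Gf, Nat.add_sub_cancel, pow_succ]
        generalize z ^ i = u
        generalize z⁻¹ ^ i = v
        field_simp; ring) rfl (by
      intro n hn
      obtain rfl := hodd (by omega)
      have h1 : z⁻¹ ^ n = z ^ n * z := by
        rw [inv_pow]; apply inv_eq_of_mul_eq_one_right
        rw [← hz, hn]; ring
      simp only [F, Gf, pow_succ, h1, hα, hβ]
      field_simp; ring) (by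
      intro n hn
      rcases n with _ | n
      · rfl
      · have h1 : z⁻¹ ^ n = z ^ n * z * z := by
          rw [inv_pow]; apply inv_eq_of_mul_eq_one_right
          rw [← hz, hn]; ring
        simp only [Ψ, F, Gf, Nat.add_sub_cancel, pow_succ, h1, hα, hβ]
        field_simp; ring) (by rw [hF0]; exact mul_ne_zero (mul_ne_zero hρ ha1) hzz)
  have hev : ∀ i : ℕ, ((ρ ^ 2 / a) ^ ((2 * i + 1) / 2) * a ^ (2 * i / 2) +
      a ^ ((2 * i + 1 + 1) / 2) * (ρ ^ 2 / a) ^ ((2 * i + 1) / 2)) * F ((2 * i + 1) / 2) ^ 2 =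
      (1 + a) * Gf i ^ 2 := by
    intro i
    rw [show (2 * i + 1) / 2 = i by omega, show 2 * i / 2 = i by omega,
      show (2 * i + 1 + 1) / 2 = i + 1 by omega]
    simp only [F, div_pow, ← pow_mul, mul_comm i 2]
    field_simp; ring
  have hod : ∀ i : ℕ, ((ρ ^ 2 / a) ^ ((2 * i + 1 + 1) / 2) * a ^ ((2 * i + 1) / 2) +
      a ^ ((2 * i + 1 + 1 + 1) / 2) * (ρ ^ 2 / a) ^ ((2 * i + 1 + 1) / 2)) *
        F ((2 * i + 1 + 1) / 2) ^ 2 = (1 + a⁻¹) * Gf (i + 1) ^ 2 := by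
    intro i
    rw [show (2 * i + 1) / 2 = i by omega, show (2 * i + 1 + 1 + 1) / 2 = i + 1 by omega,
      show (2 * i + 1 + 1) / 2 = i + 1 by omega]
    simp only [F, div_pow, ← pow_mul, mul_comm (i + 1) 2]
    field_simp; ring
  have hshift : ∀ n, ∑ i ∈ Finset.range n, Gf (i + 1) ^ 2 =
      ∑ i ∈ Finset.range n, Gf i ^ 2 + Gf n ^ 2 - Gf 0 ^ 2 := by
    intro n
    rw [← Finset.sum_range_succ (fun i => Gf i ^ 2), Finset.sum_range_succ' (fun i => Gf i ^ 2)]
    ring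
  have hsum : K * F 0 ^ 2 = (1 + a) * (1 + a⁻¹) * (m * α * β) := by
    rw [← hK]
    have hP := fun n => sum_sq α β z z⁻¹ (mul_inv_cancel₀ hz0) n
    apply mul_left_cancel₀ hz3
    rcases Nat.even_or_odd' m with ⟨n, hn | hn⟩
    · subst hn
      rw [sum_pairs]
      simp only [hev, hod, Finset.sum_add_distrib, ← Finset.mul_sum, hshift]
      have h1 : (z ^ n) ^ 2 = 1 := by rw [← hz]; ring
      have h2 : (z⁻¹ ^ n) ^ 2 = 1 := by rw [inv_pow, inv_pow, h1, inv_one]
      have h3 : z ^ n * z⁻¹ ^ n = 1 := by rw [← mul_pow, mul_inv_cancel₀ hz0, one_pow]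
      have h4 : Gf n ^ 2 = Gf 0 ^ 2 := by
        simp only [Gf]
        linear_combination α ^ 2 * h1 + β ^ 2 * h2 + 2 * α * β * h3
      have h5 := hP n
      rw [h1, h2] at h5
      rw [h4]
      push_cast
      linear_combination ((1 + a) + (1 + a⁻¹)) * h5 +
        (z ^ 2 - 1) * (2 * n * α * β) * (mul_inv_cancel₀ ha).symm
    · subst hn
      obtain rfl := hodd (by omega)
      rw [Finset.sum_range_succ, sum_pairs]
      simp only [hev, hod, Finset.sum_add_distrib, ← Finset.mul_sum, hshift]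
      have h1 : (z ^ n) ^ 2 = z⁻¹ := by
        apply eq_inv_of_mul_eq_one_left; rw [← hz]; ring
      have h2 : (z⁻¹ ^ n) ^ 2 = z := by rw [inv_pow, inv_pow, h1, inv_inv]
      have h3 : z ^ n * z⁻¹ ^ n = 1 := by rw [← mul_pow, mul_inv_cancel₀ hz0, one_pow]
      have h4 : Gf n ^ 2 = α ^ 2 * z⁻¹ + β ^ 2 * z + 2 * α * β := by
        simp only [Gf]
        linear_combination α ^ 2 * h1 + β ^ 2 * h2 + 2 * α * β * h3
      have h5 := hP n
      rw [h1, h2] at h5
      have h6 : ∑ i ∈ Finset.range n, Gf i ^ 2 = (α ^ 2 * (z⁻¹ - 1) - β ^ 2 * z ^ 2 * (z - 1) +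
          2 * n * α * β * (z ^ 2 - 1)) / (z ^ 2 - 1) := by
        rw [eq_div_iff hz3, mul_comm]; exact h5
      rw [h4, h6]
      simp only [Gf, hα, hβ]
      push_cast
      field_simp; ring
  refine ⟨K, ?_⟩
  rw [hF0, hα, hβ] at hsum
  apply mul_left_cancel₀ (pow_ne_zero 2 ha1)
  have e1 : (1 + a) ^ 2 * (K * (4 * a * (ρ ^ 2 / a) - (ρ * (z + z⁻¹)) ^ 2)) =
      -(K * (ρ * (1 + a) * (z⁻¹ - z)) ^ 2) := by field_simp; ring
  rw [e1, hsum]
  field_simp; ring

/-- Chebyshev-type sequence -/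
noncomputable def U (d t : ℝ) : ℕ → ℝ
  | 0 => 0
  | 1 => 1
  | k + 2 => t * U d t (k + 1) - d * U d t k

theorem U_rat (d σ π : ℚ) (k : ℕ) : ∃ A B : ℚ, ∀ t : ℝ, t ^ 2 = σ * t - π → U d t k = A + B * t := by
  induction k using Nat.twoStepInduction with
  | zero => exact ⟨0, 0, fun t _ => by simp [U]⟩
  | one => exact ⟨1, 0, fun t _ => by simp [U]⟩
  | more k ih1 ih2 =>
    obtain ⟨A, B, h1⟩ := ih1
    obtain ⟨A', B', h2⟩ := ih2
    refine ⟨-B' * π - d * A, A' + B' * σ - d * B, fun t ht => ?_⟩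
    rw [U, h1 t ht, h2 t ht]
    push_cast
    linear_combination B' * ht

theorem U_neg (d t : ℝ) (k : ℕ) : U d (-t) k = -(-1) ^ k * U d t k := by
  induction k using Nat.twoStepInduction with
  | zero => simp [U]
  | one => simp [U]
  | more k ih1 ih2 => rw [U, U, ih1, ih2]; ring

theorem U_cos (ρ θ : ℝ) (k : ℕ) :
    U (ρ ^ 2) (2 * ρ * Real.cos θ) k * (ρ * Real.sin θ) = ρ ^ k * Real.sin (k * θ) := by
  induction k using Nat.twoStepInduction with
  | zero => simp [U]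
  | one => simp [U]
  | more k ih1 ih2 =>
    rw [U, sub_mul, mul_assoc _ (U _ _ _), mul_assoc _ (U _ _ _), ih1, ih2]
    have e1 : ((k + 2 : ℕ) : ℝ) * θ = ((k + 1 : ℕ) : ℝ) * θ + θ := by push_cast; ring
    have e2 : (k : ℝ) * θ = ((k + 1 : ℕ) : ℝ) * θ - θ := by push_cast; ring
    rw [e1, e2, Real.sin_add, Real.sin_sub]; ring

theorem U_pos (ρ : ℝ) (hρ : 0 < ρ) (N : ℕ) (hN : 2 ≤ N) (t : ℝ)
    (ht : 2 * ρ * Real.cos (Real.pi / N) < t) : 0 < U (ρ ^ 2) t N := by
  set θ := Real.pi / N with hθ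
  have hN0 : (0 : ℝ) < N := by exact_mod_cast (by omega : 0 < N)
  have hsin : ∀ k : ℕ, k ≤ N → 0 ≤ Real.sin (k * θ) := by
    intro k hk
    refine Real.sin_nonneg_of_nonneg_of_le_pi (by positivity) ?_
    rw [hθ, mul_div_assoc', div_le_iff₀ hN0, mul_comm]
    exact mul_le_mul_of_nonneg_left (by exact_mod_cast hk) Real.pi_pos.le
  have hsin' : ∀ k : ℕ, 0 < k → k < N → 0 < Real.sin (k * θ) := by
    intro k hk0 hk
    have : (0 : ℝ) < k := by exact_mod_cast hk0
    refine Real.sin_pos_of_pos_of_lt_pi (by positivity) ?_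
    rw [hθ, mul_div_assoc', div_lt_iff₀ hN0, mul_comm]
    exact mul_lt_mul_of_pos_left (by exact_mod_cast hk) Real.pi_pos
  have h1 : 0 < ρ * Real.sin θ := by
    have := hsin' 1 one_pos (by omega)
    simp only [Nat.cast_one, one_mul] at this
    positivity
  set t₀ := 2 * ρ * Real.cos θ
  have hs : ∀ k, k ≤ N → 0 ≤ U (ρ ^ 2) t₀ k := by
    intro k hk
    refine nonneg_of_mul_nonneg_left ?_ h1
    rw [U_cos]; have := hsin k hk; positivity
  have hs' : ∀ k, 0 < k → k < N → 0 < U (ρ ^ 2) t₀ k := by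
    intro k hk0 hk
    refine (mul_pos_iff_of_pos_right h1).1 ?_
    rw [U_cos]; have := hsin' k hk0 hk; positivity
  have key : ∀ k, k + 1 ≤ N → 0 < U (ρ ^ 2) t (k + 1) ∧
      0 ≤ U (ρ ^ 2) t (k + 1) * U (ρ ^ 2) t₀ k - U (ρ ^ 2) t k * U (ρ ^ 2) t₀ (k + 1) := by
    intro k
    induction k with
    | zero => intro _; simp [U]
    | succ k ih =>
      intro hk
      obtain ⟨i1, i2⟩ := ih (by omega)
      have p1 := hs' (k + 1) (by omega) (by omega)
      have p2 := hs (k + 2) hk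
      have hW : 0 < U (ρ ^ 2) t (k + 2) * U (ρ ^ 2) t₀ (k + 1) -
          U (ρ ^ 2) t (k + 1) * U (ρ ^ 2) t₀ (k + 2) := by
        have : U (ρ ^ 2) t (k + 2) * U (ρ ^ 2) t₀ (k + 1) -
          U (ρ ^ 2) t (k + 1) * U (ρ ^ 2) t₀ (k + 2) =
            (t - t₀) * (U (ρ ^ 2) t (k + 1) * U (ρ ^ 2) t₀ (k + 1)) + ρ ^ 2 *
            (U (ρ ^ 2) t (k + 1) * U (ρ ^ 2) t₀ k - U (ρ ^ 2) t k * U (ρ ^ 2) t₀ (k + 1)) := by
          rw [U, U]; ring
        rw [this]
        have := sub_pos.2 ht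
        positivity
      refine ⟨(mul_pos_iff_of_pos_right p1).1 ?_, hW.le⟩
      have := mul_nonneg i1.le p2
      linarith
  have := (key (N - 1) (by omega)).1
  rwa [show N - 1 + 1 = N by omega] at this

theorem rat_of_quad (a b K : ℚ) (m : ℕ) (hm : 0 < m) (ha : 1 < a) (hb : 1 < b) (y : ℝ)
    (h : K * (4 * a * b - y ^ 2) = m * ((a + b + y) * (1 + a * b - y))) (N : ℕ)
    (hy : U ((a * b : ℚ) : ℝ) y N = 0)
    (hno : ∀ t : ℝ, U ((a * b : ℚ) : ℝ) t N = 0 →
      ((a + b) * (1 + a * b) - 4 * a * b) * (y + t) + (a - 1) * (b - 1) * (4 * a * b + y * t) ≠ 0) :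
    ∃ q : ℚ, y = q := by
  by_contra hirr
  have hlin : ∀ A B : ℚ, (A : ℝ) + B * y = 0 → A = 0 ∧ B = 0 := by
    intro A B hAB
    by_cases hB : B = 0
    · subst hB; simpa using hAB
    · refine absurd ⟨-A / B, ?_⟩ hirr
      have : (B : ℝ) ≠ 0 := by exact_mod_cast hB
      push_cast; field_simp; linarith
  have hm' : (0 : ℚ) < m := by exact_mod_cast hm
  by_cases hK : K = m
  · have := (hlin (m * (a + b) * (1 + a * b) - 4 * K * a * b) (m * ((a - 1) * (b - 1))) (by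
      rw [hK] at h ⊢; push_cast at h ⊢; linear_combination -h)).2
    have h2 : 0 < (m : ℚ) * ((a - 1) * (b - 1)) := by
      have := sub_pos.2 ha; have := sub_pos.2 hb; positivity
    exact h2.ne' this
  · have hK' : ((K : ℝ) - m) ≠ 0 := by
      have : (K - m : ℚ) ≠ 0 := sub_ne_zero.2 hK
      exact_mod_cast this
    set σ : ℚ := -(m * ((a - 1) * (b - 1))) / (K - m) with hσ
    set π : ℚ := (m * (a + b) * (1 + a * b) - 4 * K * a * b) / (K - m) with hπ
    have hq : ∀ t : ℝ, t ^ 2 = σ * t - π ↔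
        K * (4 * a * b - t ^ 2) = m * ((a + b + t) * (1 + a * b - t)) := by
      intro t
      rw [hσ, hπ]; push_cast
      constructor
      · intro h1
        field_simp at h1
        linear_combination -h1
      · intro h1
        field_simp
        linear_combination -h1
    have hy2 := (hq y).2 h
    have hy' : (σ - y) ^ 2 = σ * (σ - y) - π := by linear_combination hy2
    obtain ⟨A, B, hAB⟩ := U_rat (a * b) σ π N
    have h0 := hlin A B (by rw [← hAB y hy2, hy])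
    have h1 : U ((a * b : ℚ) : ℝ) (σ - y) N = 0 := by rw [hAB _ hy', h0.1, h0.2]; simp
    apply hno _ h1
    have hne : y - (σ - y) ≠ 0 := by
      intro h2
      exact hirr ⟨σ / 2, by push_cast; linarith⟩
    have h3 := (hq _).1 hy'
    have hm0 : (m : ℝ) ≠ 0 := by exact_mod_cast hm.ne'
    apply mul_left_cancel₀ (mul_ne_zero hm0 hne)
    generalize (σ : ℝ) - y = y' at h3 ⊢
    linear_combination (4 * a * b - y ^ 2) * h3 - (4 * a * b - y' ^ 2) * h

theorem U_bound (ρ : ℝ) (hρ : 0 < ρ) (N : ℕ) (hN : 2 ≤ N) (t : ℝ) (h : U (ρ ^ 2) t N = 0) :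
    -(2 * ρ * Real.cos (Real.pi / N)) ≤ t := by
  by_contra hlt
  have := U_pos ρ hρ N hN (-t) (by linarith)
  rw [U_neg, h, mul_zero] at this
  exact lt_irrefl _ this

theorem number (a b : ℚ) (m : ℕ) (hm : 5 ≤ m) (ha : 1 < a) (hb : 1 < b) (hodd : m % 2 = 1 → a = b)
    (ρ : ℝ) (hρ : 0 < ρ) (hab : ρ ^ 2 = a * b)
    (H : ∀ j : ℕ, j = 1 ∨ j = 2 → ∃ K : ℚ,
      K * (4 * a * b - (2 * ρ * Real.cos (j * (2 * Real.pi / m))) ^ 2) =
        m * ((a + b + 2 * ρ * Real.cos (j * (2 * Real.pi / m))) *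
          (1 + a * b - 2 * ρ * Real.cos (j * (2 * Real.pi / m))))) : m = 6 ∨ m = 8 := by
  have hm0 : (0 : ℝ) < m := by exact_mod_cast (by omega : 0 < m)
  have hm5 : (5 : ℝ) ≤ m := by exact_mod_cast hm
  have ha' : (0 : ℝ) < a - 1 := by exact_mod_cast sub_pos.2 ha
  have hb' : (0 : ℝ) < b - 1 := by exact_mod_cast sub_pos.2 hb
  have hd : ((a * b : ℚ) : ℝ) = ρ ^ 2 := by rw [hab]; push_cast; rfl
  set θ := 2 * Real.pi / m with hθ
  have hθ0 : 0 < θ := by positivity
  have hθ1 : θ < Real.pi / 2 := by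
    rw [hθ, div_lt_div_iff₀ hm0 two_pos]; nlinarith [Real.pi_pos]
  have hc0 : 0 < Real.cos θ := Real.cos_pos_of_mem_Ioo ⟨by linarith, hθ1⟩
  have hs0 : 0 < Real.sin θ := Real.sin_pos_of_pos_of_lt_pi hθ0 (by linarith)
  have hc1 : Real.cos θ < 1 := by nlinarith [Real.sin_sq_add_cos_sq θ]
  have hU : ∀ N : ℕ, Real.sin (N * θ) = 0 → U ((a * b : ℚ) : ℝ) (2 * ρ * Real.cos θ) N = 0 := by
    intro N hN
    have := U_cos ρ θ N
    rw [hN, mul_zero] at this
    rw [hd]
    exact (mul_eq_zero.1 this).resolve_right (by positivity)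
  obtain ⟨K, hK⟩ := H 1 (Or.inl rfl)
  rw [Nat.cast_one, one_mul] at hK
  obtain ⟨y, hy⟩ : ∃ q : ℚ, 2 * ρ * Real.cos θ = q := by
    rcases Nat.even_or_odd' m with ⟨n, hn | hn⟩
    · have hn0 : (n : ℝ) ≠ 0 := by exact_mod_cast (by omega : n ≠ 0)
      have e : θ = Real.pi / n := by rw [hθ, hn]; push_cast; field_simp
      refine rat_of_quad a b K m (by omega) ha hb _ hK n (hU n ?_) fun t ht => ?_
      · rw [e, mul_div_cancel₀ _ hn0, Real.sin_pi]
      · rw [hd] at ht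
        have h1 := U_bound ρ hρ n (by omega) t ht
        rw [← e] at h1
        apply ne_of_gt
        set y := 2 * ρ * Real.cos θ with hy
        have y0 : 0 < y := by positivity
        have y1 : y < 2 * ρ := by rw [hy]; nlinarith
        have p1 : (0 : ℝ) ≤ (a + b) * (1 + a * b) - 4 * a * b := by
          have : ((a : ℝ) + b) * (1 + a * b) - 4 * a * b = b * (a - 1) ^ 2 + a * (b - 1) ^ 2 := by ring
          rw [this]
          have : (0 : ℝ) < a := by linarith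
          have : (0 : ℝ) < b := by linarith
          positivity
        have p2 : 0 < 4 * (a : ℝ) * b + y * t := by
          rw [mul_assoc, ← hab]; nlinarith
        have p3 : 0 ≤ y + t := by linarith
        positivity
    · obtain rfl := hodd (by omega)
      have hρa : ρ = a := by
        have : (ρ - a) * (ρ + a) = 0 := by linear_combination hab
        have h2 : ρ + a ≠ 0 := by linarith
        linarith [(mul_eq_zero.1 this).resolve_right h2]
      refine rat_of_quad a a K m (by omega) ha ha _ hK m (hU m ?_) fun t ht => ?_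
      · rw [hθ, mul_div_cancel₀ _ hm0.ne', Real.sin_two_pi]
      · rw [hd] at ht
        have h1 := U_bound ρ hρ m (by omega) t ht
        have h2 : Real.cos (Real.pi / m) < 1 := by
          have h3 : 0 < Real.sin (Real.pi / m) := Real.sin_pos_of_pos_of_lt_pi (by positivity)
            (by rw [div_lt_iff₀ hm0]; nlinarith [Real.pi_pos])
          nlinarith [Real.sin_sq_add_cos_sq (Real.pi / m)]
        have h4 : 0 < t + 2 * ρ := by nlinarith
        rw [← hρa] at ha' ⊢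
        have : ((ρ + ρ) * (1 + ρ * ρ) - 4 * ρ * ρ) * (2 * ρ * Real.cos θ + t) +
            (ρ - 1) * (ρ - 1) * (4 * ρ * ρ + 2 * ρ * Real.cos θ * t) =
            (ρ - 1) ^ 2 * ((2 * ρ * Real.cos θ + 2 * ρ) * (t + 2 * ρ)) := by ring
        rw [this]
        positivity
  have hab0 : (a * b : ℚ) ≠ 0 := by
    have : (0 : ℚ) < a * b := by nlinarith
    exact this.ne'
  have hcos : Real.cos (((4 / m : ℚ) : ℝ) * Real.pi) = ((y ^ 2 / (2 * (a * b)) - 1 : ℚ) : ℝ) := by
    have e : ((4 / m : ℚ) : ℝ) * Real.pi = 2 * θ := by rw [hθ]; push_cast; ring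
    rw [e, Real.cos_two_mul]
    push_cast
    rw [← hy, ← hab]
    field_simp
  have hmq : (5 : ℚ) ≤ m := by exact_mod_cast hm
  have h4 := niven_angle_div_pi_eq ⟨_, hcos⟩
    ⟨by positivity, by rw [div_le_one (by linarith)]; linarith⟩
  have hmq0 : (m : ℚ) ≠ 0 := by linarith
  simp only [Set.mem_insert_iff, Set.mem_singleton_iff] at h4
  rcases h4 with h4 | h4 | h4 | h4 | h4
  · exfalso; have : (0 : ℚ) < 4 / m := by positivity
    linarith
  · exfalso
    have h12 : m = 12 := by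
      field_simp at h4; exact_mod_cast (by linarith : (m : ℚ) = 12)
    rw [h4] at hcos
    have e1 : Real.cos (((1 / 3 : ℚ) : ℝ) * Real.pi) = 1 / 2 := by
      rw [← Real.cos_pi_div_three]; congr 1; push_cast; ring
    rw [e1] at hcos
    have hy3 : (y : ℝ) ^ 2 = 3 * ρ ^ 2 := by
      push_cast at hcos
      rw [← hab] at hcos
      field_simp at hcos
      linarith
    obtain ⟨K', hK'⟩ := H 2 (Or.inr rfl)
    have e2 : Real.cos ((2 : ℕ) * θ) = 1 / 2 := by
      rw [← Real.cos_pi_div_three, hθ, h12]; congr 1; push_cast; ring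
    rw [e2, h12] at hK'
    have hρq : ρ = (((3 * K' * a * b - 12 * ((a + b) * (1 + a * b) - a * b)) /
        (12 * ((a - 1) * (b - 1))) : ℚ) : ℝ) := by
      push_cast at hK' ⊢
      rw [eq_div_iff (by positivity)]
      linear_combination -hK' + (12 - K') * hab
    generalize (3 * K' * a * b - 12 * ((a + b) * (1 + a * b) - a * b)) /
        (12 * ((a - 1) * (b - 1))) = q at hρq
    have hirr : Irrational (Real.sqrt (3 : ℕ)) := Nat.Prime.irrational_sqrt (by norm_num)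
    apply hirr
    refine ⟨y / q, ?_⟩
    push_cast
    rw [← hρq]
    have y0 : (0 : ℝ) < y := by rw [← hy]; positivity
    rw [eq_comm, Real.sqrt_eq_iff_mul_self_eq (by norm_num) (by positivity)]
    field_simp; linarith
  · right; field_simp at h4; exact_mod_cast (by linarith : (m : ℚ) = 8)
  · left; field_simp at h4; exact_mod_cast (by linarith : (m : ℚ) = 6)
  · exfalso; field_simp at h4; linarith

end FH
end CfsgH9
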