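import Mathlib
import Cfsg.Prelude.Def_FischerSpaces

/-! The two model planes of Fischer spaces, with their third-point operations. -/

set_option autoImplicit false
namespace CfsgH9.Fi
open Function Cfsg Cfsg.LineSystem

structure Md {P : Type} (M : Set (Set P)) (T : P → P → P) : Prop where
  hM : ∀ m, m ∈ M ↔ ∃ x y, T y x ≠ x ∧ m = {x, y, T y x}
  dist : ∀ w y x, T (T w y) x = T w (T y (T w x))
  inv : ∀ w x, T w (T w x) = x
  self : ∀ x, T x x = x
  lin : ∀ p q a b, T q p ≠ p → (a = p ∨ a = q ∨ a = T q p) → (b = p ∨ b = q ∨ b = T q p) → a ≠ b →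
    ∀ c, (c = p ∨ c = q ∨ c = T q p) → c ≠ a → c ≠ b → T a b = c
  tr : ∀ p x, ∃ u v, T u (T v x) = p

def T3 (y x : Fin 2 → ZMod 3) : Fin 2 → ZMod 3 := -x - y

def T2 (y x : DualAffinePoint) : DualAffinePoint :=
  if h : (symmDiff x.1 y.1).card = 2 then ⟨_, h⟩ else x

theorem md3 : Md affinePlaneThree T3 where
  hM m := by
    have k : ∀ v w z : Fin 2 → ZMod 3, (∃ c : ZMod 3, z = v + c • w) ↔
      z = v ∨ z = v + w ∨ z = T3 (v + w) v := by decide +kernel
    have k2 : ∀ v w : Fin 2 → ZMod 3, w ≠ 0 ↔ T3 (v + w) v ≠ v := by decide +kernel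
    constructor
    · rintro ⟨v, w, h, rfl⟩
      exact ⟨v, v + w, (k2 v w).1 h, Set.ext (k v w)⟩
    · rintro ⟨x, y, h, rfl⟩
      obtain ⟨w, rfl⟩ : ∃ w, y = x + w := ⟨y - x, by abel⟩
      exact ⟨x, w, (k2 x w).2 h, Set.ext fun z => (k x w z).symm⟩
  dist := by decide +kernel
  inv := by decide +kernel
  self := by decide +kernel
  lin := by
    rintro p q a b h (rfl | rfl | rfl) (rfl | rfl | rfl) n c (rfl | rfl | rfl) h1 h2 <;>
      first | exact absurd rfl n | exact absurd rfl h1 | exact absurd rfl h2 | (unfold T3; abel)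
  tr := by decide +kernel

theorem md2 : Md dualAffinePlaneTwo T2 where
  hM m := by
    have k : ∀ i : Fin 4, ∃ x y, T2 y x ≠ x ∧ ∀ s : DualAffinePoint, i ∉ s.1 ↔
      s = x ∨ s = y ∨ s = T2 y x := by decide +kernel
    have k2 : ∀ x y, T2 y x ≠ x → ∃ i : Fin 4, ∀ s : DualAffinePoint, i ∉ s.1 ↔
      s = x ∨ s = y ∨ s = T2 y x := by decide +kernel
    constructor
    · rintro ⟨i, rfl⟩
      obtain ⟨x, y, h, e⟩ := k i
      exact ⟨x, y, h, Set.ext e⟩
    · rintro ⟨x, y, h, rfl⟩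
      obtain ⟨i, e⟩ := k2 x y h
      exact ⟨i, Set.ext fun z => (e z).symm⟩
  dist := by decide +kernel
  inv := by decide +kernel
  self := by decide +kernel
  lin := by
    have k : ∀ p q, T2 q p ≠ p → T2 p q = T2 q p ∧ T2 (T2 q p) p = q ∧ T2 (T2 q p) q = p ∧
      T2 p (T2 q p) = q ∧ T2 q (T2 q p) = p := by decide +kernel
    rintro p q a b h ha hb n c hc h1 h2
    obtain ⟨k1, k2, k3, k4, k5⟩ := k p q h
    rcases ha with rfl | rfl | rfl <;> rcases hb with rfl | rfl | rfl <;>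
      rcases hc with rfl | rfl | rfl <;>
      first | exact absurd rfl n | exact absurd rfl h1 | exact absurd rfl h2 | assumption | rfl
  tr := by decide +kernel

theorem Md.ne {P : Type} {M : Set (Set P)} {T : P → P → P} (h : Md M T) {x y : P} (n : T y x ≠ x) :
    x ≠ y ∧ T y x ≠ y := by
  have : x ≠ y := fun e => n (by rw [e, h.self])
  exact ⟨this, fun e => this (by rw [← h.inv y x, e, h.self])⟩

theorem Md.img {P : Type} {M : Set (Set P)} {T : P → P → P} (h : Md M T) (w : P) {m : Set P}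
    (hm : m ∈ M) : T w '' m ∈ M := by
  obtain ⟨x, y, n, rfl⟩ := (h.hM _).1 hm
  have e : T (T w y) (T w x) = T w (T y x) := by rw [h.dist, h.inv]
  refine (h.hM _).2 ⟨T w x, T w y, fun k => n ?_, by simp only [Set.image_insert_eq, Set.image_singleton, e]⟩
  rw [← h.inv w (T y x), ← e, k, h.inv]

variable {X : Type*} {L : Set (Set X)}

theorem sub_span (S : Set X) : S ⊆ span L S := fun _ hx _ hT => hT.1 hx

theorem span_sub (S : Set X) : IsSubspace L (span L S) :=
  fun l hl x hx y hy n h1 h2 _ hz T hT => hT.2 l hl x (hx T hT) y (hy T hT) n h1 h2 hz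

section group
variable {G : Type*} [Group G] {D : Set G}

theorem sq (hD : IsThreeTranspositionSet D) {d : G} (hd : d ∈ D) : d * d = 1 := by
  rw [← pow_two, ← hD.1 d hd, pow_orderOf_eq_one]

theorem iv (hD : IsThreeTranspositionSet D) {d : G} (hd : d ∈ D) : d⁻¹ = d :=
  inv_eq_of_mul_eq_one_right (sq hD hd)

theorem cc (hD : IsThreeTranspositionSet D) {d : G} (hd : d ∈ D) (y : G) : d * (d * y) = y := by
  rw [← mul_assoc, sq hD hd, one_mul]

theorem br (hD : IsThreeTranspositionSet D) {a b : G} (ha : a ∈ D) (hb : b ∈ D) (n : ¬ Commute a b) :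
    a * b * a⁻¹ = b * a * b⁻¹ := by
  rcases hD.2 a ha b hb with h | h
  · refine absurd ?_ n
    rw [pow_two] at h
    rw [commute_iff_eq, eq_inv_of_mul_eq_one_left h, mul_inv_rev, iv hD ha, iv hD hb]
  · have : a * b * a * (b * a * b) = 1 := by rw [← h]; simp only [pow_succ, pow_zero]; group
    rw [iv hD ha, iv hD hb, eq_inv_of_mul_eq_one_left this]
    simp only [mul_inv_rev, iv hD ha, iv hD hb, mul_assoc]

def ln (D : Set G) (x y : G) : Set D := {z : D | (z : G) = x ∨ (z : G) = y ∨ (z : G) = y * x * y⁻¹}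

theorem ln_sw (hD : IsThreeTranspositionSet D) {a b : G} (ha : a ∈ D) (hb : b ∈ D)
    (n : ¬ Commute a b) : ln D a b = ln D b a := by
  ext z; simp only [ln, Set.mem_setOf_eq, br hD ha hb n]; tauto

theorem ln_rt (hD : IsThreeTranspositionSet D) {a b : G} (hb : b ∈ D) :
    ln D a b = ln D (b * a * b⁻¹) b := by
  have : b * (b * a * b⁻¹) * b⁻¹ = a := by
    simp only [iv hD hb, mul_assoc, cc hD hb, sq hD hb, mul_one]
  ext z; simp only [ln, Set.mem_setOf_eq, this]; tauto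

theorem nc_rt {a b : G} (n : ¬ Commute a b) : ¬ Commute (b * a * b⁻¹) b := fun h => n (by
  have := h.conj b⁻¹
  simpa [mul_assoc] using this)

theorem ln_eq (hD : IsThreeTranspositionGroup D) {x y : D} (n : ¬ Commute x.1 y.1) {a b : D}
    (ha : a ∈ ln D x y) (hb : b ∈ ln D x y) (ne : a ≠ b) :
    ¬ Commute a.1 b.1 ∧ ln D x y = ln D a b := by
  have h := hD.1
  have n' : ¬ Commute y.1 x.1 := fun c => n c.symm
  have e := br h x.2 y.2 n
  have m := hD.2.1 y.1 x.1 x.2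
  have ne' : a.1 ≠ b.1 := fun e => ne (Subtype.ext e)
  have n1 := nc_rt n
  have n2 := e ▸ nc_rt n'
  have l1 := ln_rt h (a := x.1) y.2
  have l2 := (ln_sw h x.2 y.2 n).trans (e ▸ ln_rt h (a := y.1) x.2)
  rcases ha with ha | ha | ha <;> rcases hb with hb | hb | hb <;> rw [ha, hb] at ne' ⊢ <;>
    try exact absurd rfl ne'
  · exact ⟨n, rfl⟩
  · exact ⟨fun c => n2 c.symm, l2.trans (ln_sw h m x.2 n2)⟩
  · exact ⟨n', ln_sw h x.2 y.2 n⟩
  · exact ⟨fun c => n1 c.symm, l1.trans (ln_sw h m y.2 n1)⟩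
  · exact ⟨n2, l2⟩
  · exact ⟨n1, l1⟩

theorem gen (hD : IsThreeTranspositionGroup D) {P : Type} {M : Set (Set P)} {T : P → P → P}
    (h : Md M T) (φ : P → D) (p q r : P) (hi : ∀ z, φ z = φ p → z = p)
    (hp : ∀ z, (φ (T p z) : G) = φ p * φ z * (φ p : G)⁻¹)
    (hq : ∀ z, (φ (T q z) : G) = φ q * φ z * (φ q : G)⁻¹)
    (hr : ∀ z, (φ (T r z) : G) = φ r * φ z * (φ r : G)⁻¹)
    (hg : ∀ A : Set P, p ∈ A → q ∈ A → r ∈ A → (∀ x ∈ A, ∀ y ∈ A, T y x ∈ A) → ∀ z, z ∈ A) :
    Isomorphic (restrict (threeTranspositionLines D) (span (threeTranspositionLines D)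
      (ln D (φ p) (φ q) ∪ ln D (φ p) (φ r)))) M := by
  set S := ln D (φ p) (φ q) ∪ ln D (φ p) (φ r)
  have E : ∀ q z, (φ (T q z) : G) = φ q * φ z * (φ q : G)⁻¹ :=
    hg {q | ∀ z, (φ (T q z) : G) = φ q * φ z * (φ q : G)⁻¹} hp hq hr fun x hx y hy z => by
      rw [h.dist, hy, hx, hy, hy, iv hD.1 (φ y).2]
      simp only [mul_inv_rev, iv hD.1 (φ y).2, mul_assoc]
  have lr : ∀ a b, ln D (φ a) (φ b) ⊆ Set.range φ := by
    rintro a b z (k | k | k)
    exacts [⟨a, Subtype.ext k.symm⟩, ⟨b, Subtype.ext k.symm⟩, ⟨T b a, Subtype.ext ((E _ _).trans k.symm)⟩]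
  have inj : Injective φ := fun x y e => by
    obtain ⟨u, v, k⟩ := h.tr p x
    have := hi (T u (T v y)) (Subtype.ext (by rw [← k, E, E, E, E, e]))
    rw [← h.inv v y, ← h.inv u (T v y), this, ← k, h.inv, h.inv]
  have sp : span (threeTranspositionLines D) S = Set.range φ := by
    refine Set.Subset.antisymm (fun z hz => hz _ ⟨Set.union_subset (lr _ _) (lr _ _), ?_⟩) ?_
    · rintro _ ⟨x, y, n, rfl⟩ _ ⟨a, rfl⟩ _ ⟨b, rfl⟩ ne ha hb z hz
      exact lr a b ((ln_eq hD n ha hb ne).2 ▸ hz)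
    · rintro _ ⟨z, rfl⟩
      refine hg {q | φ q ∈ span (threeTranspositionLines D) S} (sub_span S (.inl (.inl rfl)))
        (sub_span S (.inl (.inr (.inl rfl)))) (sub_span S (.inr (.inr (.inl rfl))))
        (fun x hx y hy => ?_) z
      by_cases c : Commute (φ x).1 (φ y).1
      · change φ _ ∈ span _ S
        rwa [show φ (T y x) = φ x from Subtype.ext (by rw [E, ← c.eq, mul_inv_cancel_right])]
      · exact span_sub (L := threeTranspositionLines D) S (ln D (φ x) (φ y)) ⟨_, _, c, rfl⟩ _ hx _ hy (fun e => c (e ▸ Commute.refl _))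
          (.inl rfl) (.inr (.inl rfl)) (.inr (.inr (E _ _)))
  rw [sp]
  have mem : ∀ x y r, φ r ∈ ln D (φ x) (φ y) ↔ r ∈ ({x, y, T y x} : Set P) := fun x y r => by
    simp only [ln, Set.mem_setOf_eq, ← E, Subtype.val_inj, inj.eq_iff, Set.mem_insert_iff,
      Set.mem_singleton_iff]
  refine ⟨(Equiv.ofInjective φ inj).symm, fun l => ?_⟩
  rw [h.hM, Equiv.image_symm_eq_preimage]
  constructor
  · rintro ⟨_, ⟨x, y, n, rfl⟩, hs, rfl⟩
    obtain ⟨a, rfl⟩ := hs (show x ∈ ln D x y from .inl rfl)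
    obtain ⟨b, rfl⟩ := hs (show y ∈ ln D (φ a) y from .inr (.inl rfl))
    refine ⟨a, b, fun k => n ?_, Set.ext (mem a b)⟩
    have := E b a
    rw [k] at this
    exact (mul_inv_eq_iff_eq_mul.1 this.symm).symm
  · rintro ⟨a, b, n, e⟩
    refine ⟨ln D (φ a) (φ b), ⟨_, _, fun c => n (inj (Subtype.ext ?_)), rfl⟩, ?_, ?_⟩
    · rw [E, ← c.eq, mul_inv_cancel_right]
    · exact lr a b
    · ext ⟨_, r, rfl⟩
      exact ((mem a b r).trans (e ▸ Iff.rfl)).symm

end group
end CfsgH9.Fi
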