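import Cfsg.Agent.H1.LX

/-! Large 2-subgroups of symplectic type and exponent four. -/

set_option autoImplicit false
namespace CfsgGX
open Subgroup Cfsg CfsgH2 CfsgH1 Function
open CfsgL0 hiding cj cj_injective conj_mem_of_mem_normalizer conj_mem_of_mem_normalizer' isPGroup_of_forall isPGroup_zpowers isPGroup_zpowers_of_orderOf mem_normalizer_of_conj_mem
open scoped commutatorElement

variable {G : Type*} [Group G] [Finite G] {a b g q x y z : G} {A Q : Subgroup G}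

/-- squares lie in `⟨z⟩`, the centre is cyclic -/
structure GX (Q : Subgroup G) (z : G) : Prop where
  ord : orderOf z = 2
  mem : z ∈ Q
  sq : ∀ a ∈ Q, a ^ 2 ∈ zpowers z
  cyc : IsCyclic Z[Q]
  cent : C[Q] ≤ Q
  le : Q ≤ C1[z]
  norm : C1[z] ≤ N[Q]

namespace GX
variable (h : GX Q z)
include h

theorem inv2 (hx : x ∈ C[Q]) (x2 : x * x = 1) : x ∈ zpowers z := (mem_zp2 h.ord).2 (or_iff_not_imp_left.2
  fun e => eq_of_orderOf_two h.cyc ⟨h.cent hx, hx⟩ ⟨h.mem, le_cent1_iff.1 h.le⟩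
    (orderOf_eq_prime (by rwa [pow_two]) e) h.ord)
omit [Finite G] in
theorem comm_mem (hx : x ∈ Q) (hy : y ∈ Q) : ⁅x, y⁆ ∈ zpowers z := by
  convert mul_mem (mul_mem (h.sq _ hx) (h.sq _ (mul_mem (inv_mem hx) hy))) (h.sq _ (inv_mem hy)) using 1
  simp only [pow_two, commutatorElement_def]; group
omit [Finite G] in
theorem der : ⁅Q, Q⁆ ≤ zpowers z := commutator_le.2 fun _ a _ b => h.comm_mem a b
theorem comm_eq (hx : x ∈ Q) (hy : y ∈ Q) (hc : x ∉ C1[y]) : ⁅x, y⁆ = z :=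
  ((mem_zp2 h.ord).1 (h.comm_mem hx hy)).resolve_left fun e =>
    hc (mem_c1.2 (commutatorElement_eq_one_iff_mul_comm.1 e))
theorem conj_eq (hq : q ∈ Q) (hb : b ∈ Q) (hc : q ∉ C1[b]) : q * b * q⁻¹ = z * b := by
  rw [← h.comm_eq hq hb hc]; group
theorem exists_conj (hb : b ∈ Q) (h1 : b ∉ C[Q]) : ∃ q ∈ Q, q * b * q⁻¹ = z * b := by
  obtain ⟨q, hq, hc⟩ := SetLike.not_le_iff_exists.1 (mt le_cent1_iff.1 h1)
  exact ⟨q, hq, h.conj_eq hq hb hc⟩
omit [Finite G] in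
theorem map_cj (g : G) : GX (Q.map (cj g)) (g * z * g⁻¹) :=
  ⟨(MulEquiv.orderOf_eq (MulAut.conj g) z).trans h.ord, conj_mem_map_cj h.mem, by
    rintro _ ⟨a, ha, rfl⟩
    rw [← map_pow, ← cj_apply, ← MonoidHom.map_zpowers]; exact mem_map_of_mem _ (h.sq a ha), by
    rw [centralizer_map_cj, ← map_cj_inf]
    haveI := h.cyc
    exact isCyclic_of_surjective _ ((cj g).subgroupMap_surjective _),
    by rw [centralizer_map_cj]; exact map_mono h.cent, by rw [centralizer_conj]; exact map_mono h.le,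
    by rw [centralizer_conj, normalizer_map_cj]; exact map_mono h.norm⟩
omit [Finite G] in
theorem map_eq {g k : G} (e : g * z * g⁻¹ = k * z * k⁻¹) : Q.map (cj g) = Q.map (cj k) := by
  rw [show g = k * (k⁻¹ * g) by group, ← map_cj_cj, map_cj_eq (h.norm (mem_c1.2 ?_))]
  calc _ = k⁻¹ * (g * z * g⁻¹) * g := by group
    _ = _ := by rw [e]; group
theorem card_inf (hb : b ∈ Q) (h1 : b ∉ C[Q]) : o[Q ⊓ C1[b]] * 2 = o[Q] := by
  have := relIndex_cent1_le (H := Q) (K := zpowers z) (a := b) fun x hx => h.comm_mem hx hb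
  rw [Nat.card_zpowers, h.ord] at this
  have h2 := CfsgH2.relIndex_pos C1[b] Q
  have h3 : C1[b].relIndex Q ≠ 1 := fun e => h1 (le_cent1_iff.1 (relIndex_eq_one.1 e))
  rw [← show C1[b].relIndex Q = 2 by omega, inf_comm, CfsgH2.card_inf_mul_relIndex]
theorem cent_c1 (hb : b ∈ Q) (h1 : b ∉ C[Q]) (hx : x ∈ Q) (hc : x ∈ C[Q ⊓ C1[b]]) :
    x ∈ C[Q] ∨ b⁻¹ * x ∈ C[Q] := by
  refine or_iff_not_imp_left.2 fun c => ?_
  have e : Q ⊓ C1[b] = Q ⊓ C1[x] := eq_of_le_of_card_ge (le_inf inf_le_left (le_cent1_iff.2 hc)) (by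
    have := h.card_inf hb h1; have := h.card_inf hx c; omega)
  refine mem_cent_iff.2 fun q hq => ?_
  by_cases d : q ∈ C1[b]
  · exact mem_c1.1 (mem_c1_comm.1 (mul_mem (inv_mem (mem_c1_comm.1 d)) (mem_c1_comm.1 (e.le ⟨hq, d⟩).2)))
  · have k1 := h.conj_eq hq hb d
    have k2 := h.conj_eq hq hx fun t => d (e.ge ⟨hq, t⟩).2
    calc q * (b⁻¹ * x) = (q * b * q⁻¹)⁻¹ * (q * x * q⁻¹) * q := by group
      _ = _ := by rw [k1, k2]; group
theorem mem_der (hA : A ≤ Q) (hab : ¬ Ab[A]) : z ∈ ⁅A, A⁆ := by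
  obtain ⟨x, hx, y, hy, c⟩ := exists_not_commute hab
  exact h.comm_eq (hA hx) (hA hy) (mt mem_c1.1 c) ▸ commutator_mem_commutator hx hy

theorem symm (hx : g * z * g⁻¹ ∈ Q) : z ∈ Q.map (cj g) := by
  have h' := h.map_cj g
  have hm : ∀ k, k * z * k⁻¹ = g * z * g⁻¹ → Q.map (cj k) = Q.map (cj g) := fun k => h.map_eq
  have hc := card_map_cj g Q
  have hZ : o[Z[Q.map (cj g)]] = o[Z[Q]] := by rw [centralizer_map_cj, ← map_cj_inf, card_map_cj]
  generalize Q.map (cj g) = R at h' hm hc hZ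
  generalize g * z * g⁻¹ = x at h' hm hx
  by_contra c
  have x2 := mul_self_of_two h'.ord
  have zz : ∀ w ∈ R, w ∈ zpowers z → w = 1 := fun w hw e =>
    ((mem_zp2 h.ord).1 e).resolve_right fun e => c (e ▸ hw)
  have x1 : x ∉ C[Q] := fun e => ne_one_of_two h'.ord (zz x h'.mem (h.inv2 e x2))
  have zx : z ∈ C1[x] := mem_c1_comm.1 (h.le hx)
  have nz := h'.norm zx
  have h1 : ∀ k ∈ R, ⁅k, z⁆ ∈ zpowers x → k ∈ C1[z] := fun k hk e => by
    rcases (mem_zp2 h'.ord).1 e with e | e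
    · exact mem_c1.2 (commutatorElement_eq_one_iff_mul_comm.1 e)
    obtain ⟨a, ha, e2⟩ := h.exists_conj hx x1
    have e3 : a⁻¹ * k * z * (a⁻¹ * k)⁻¹ = x := by
      calc _ = a⁻¹ * (⁅k, z⁆ * z) * a := by group
        _ = _ := by rw [e, ← mem_c1.1 zx, ← e2]; group
    refine (c (hm _ e3 ▸ mem_map_cj.2 ?_)).elim
    have : (a⁻¹ * k)⁻¹ * z * (a⁻¹ * k) = z * x := by
      calc _ = k⁻¹ * (a * z) * a⁻¹ * k := by group
        _ = k⁻¹ * (x * ⁅k, z⁆ * z) * k := by rw [mem_c1.1 (h.le ha), e, x2]; group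
        _ = (k⁻¹ * x * k) * z * (k⁻¹ * z⁻¹ * z * k) := by group
        _ = _ := by rw [mem_c1.1 (h'.le (inv_mem hk)), mem_c1.1 zx]; group
    exact this ▸ mul_mem h.mem hx
  have m1 : ∀ k ∈ R, ⁅k, z⁆ ∈ R := fun k hk => by
    simpa [commutatorElement_def, mul_assoc] using mul_mem hk (conj_mem_of_norm nz (inv_mem hk))
  have h2 : ∀ k ∈ R, ⁅k, z⁆ ∈ C1[z] := fun k hk => h1 _ (m1 k hk) (by
    convert h'.sq _ (m1 k hk) using 1
    calc _ = k * z * k⁻¹ * z⁻¹ * (z * z) * k * z⁻¹ * k⁻¹ * z⁻¹ := by group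
      _ = _ := by rw [mul_self_of_two h.ord, pow_two, commutatorElement_def, inv_of_two h.ord]; group)
  have h6 : ∀ k ∈ R, ⁅k, z⁆ ∈ C[R] → k ∈ C1[z] := fun k hk e => h1 k hk (h'.inv2 e (by
    calc _ = k * z * k⁻¹ * z⁻¹ * z⁻¹ * (z * ⁅k, z⁆) := by group
      _ = k * z * k⁻¹ * (z * z)⁻¹ * k * z * k⁻¹ := by rw [← mem_c1.1 (h2 k hk)]; group
      _ = k * (z * z) * k⁻¹ := by
        conv_lhs => rw [mul_self_of_two h.ord]
        group
      _ = _ := by rw [mul_self_of_two h.ord]; group))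
  have h3 : ⁅R, zpowers z⁆ ≤ R ⊓ C1[z] := commutator_le.2 fun k hk w hw =>
    ((mem_zp2 h.ord).1 hw).elim (fun e => by simp [e]) fun e => by rw [e]; exact ⟨m1 k hk, h2 k hk⟩
  have h4 : R ⊓ C[R ⊓ C1[z]] ≤ C1[z] := fun k hk => h6 k hk.1 (commutator_eq_bot_iff_le_centralizer.1
    (three_subgroup (H := zpowers k) (K := zpowers z) (L := R) (commutator_eq_bot_iff_le_centralizer.2
      ((commutator_comm _ _).le.trans (h3.trans (le_centralizer_iff.1 (zpowers_le.2 hk.2)))))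
      (commutator_eq_bot_iff_le_centralizer.2 ((commutator_mono le_rfl (zpowers_le.2 hk.1)).trans
      (h'.der.trans (zpowers_le.2 ((cent_zpowers z).ge (h.le hx)))))))
    (commutator_mem_commutator (mem_zpowers k) (mem_zpowers z)))
  have h5 : ¬ R ≤ C1[z] := fun e => c (h'.cent (le_cent1_iff.1 e))
  by_cases ab : Ab[Q ⊓ C1[x]]
  · obtain ⟨k, hk, k1⟩ := SetLike.not_le_iff_exists.1 h5
    have k2 := mt (h6 k hk) k1
    have k3 := h'.card_inf (m1 k hk) k2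
    have k4 : k ∈ C1[⁅k, z⁆] := by
      have e1 := mem_c1.1 (h2 k hk)
      have e2 := mem_c1.1 ((zpowers_le.2 (h.le hx) : zpowers x ≤ C1[z]) (h'.sq _ hk))
      have e3 := mul_self_of_two h.ord
      rw [mem_c1]
      calc k * ⁅k, z⁆ = (k ^ 2 * z) * k⁻¹ * z⁻¹ := by rw [pow_two]; group
        _ = z * k * z⁻¹ := by rw [e2, pow_two]; group
        _ = z * ⁅k, z⁆ * (z * z) * z⁻¹ * k * (z * z)⁻¹ := by group
        _ = z * ⁅k, z⁆ * z⁻¹ * k := by rw [e3]; group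
        _ = _ := by rw [← e1]; group
    have k5 : Q ⊓ C1[x] ≤ Z[Q] ⊔ zpowers x := fun u hu =>
      (h.cent_c1 hx x1 hu.1 (le_cent_self ab hu)).elim (fun e => mem_sup_left ⟨hu.1, e⟩) fun e => by
        rw [← mul_inv_cancel_left x u]
        exact mul_mem (mem_sup_right (mem_zpowers x)) (mem_sup_left ⟨h.cent e, e⟩)
    have k6 := (card_le_of_le k5).trans (Nat.le_of_dvd (Nat.mul_pos (card_pos' _) (card_pos' _))
      (card_sup_dvd (.inr ((zpowers_le.2 hx).trans le_norm_center))))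
    rw [Nat.card_zpowers, h'.ord] at k6
    have k7 := h.card_inf hx x1
    have l0 : Z[R] ⊔ zpowers ⁅k, z⁆ ≤ R ⊓ C1[⁅k, z⁆] := sup_le (inf_le_inf_left _ (cent_le_cent1 (m1 k hk)))
      (zpowers_le.2 ⟨m1 k hk, self_mem_cent1 _⟩)
    have l1 := CfsgH2.card_mul_relIndex (le_sup_left (a := Z[R]) (b := zpowers ⁅k, z⁆))
    have l2 := CfsgH2.relIndex_pos Z[R] (Z[R] ⊔ zpowers ⁅k, z⁆)
    have l3 : Z[R].relIndex (Z[R] ⊔ zpowers ⁅k, z⁆) ≠ 1 := fun e =>
      k2 (relIndex_eq_one.1 e (mem_sup_right (mem_zpowers _))).2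
    have l4 := Nat.mul_le_mul_left o[Z[R]] (show 2 ≤ Z[R].relIndex (Z[R] ⊔ zpowers ⁅k, z⁆) by omega)
    refine k1 (sup_le (a := Z[R]) (fun d hd => h6 d hd.1 ?_) (zpowers_le.2 (h2 k hk))
      ((eq_of_le_of_card_ge l0 (by omega)).ge ⟨hk, k4⟩))
    simpa [commutatorElement_def, mul_assoc] using
      mul_mem hd.2 (conj_mem_of_norm (norm_le_norm_cent _ nz) (inv_mem hd.2))
  · have nP : Q ⊓ C1[x] ≤ N[R] := inf_le_right.trans h'.norm
    have k0 : ∀ w ∈ R, w ∈ C[Q] → w = 1 := fun w hw e => zz w hw (h.inv2 e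
      (zz _ (mul_mem hw hw) (pow_two w ▸ h.sq w (h.cent e))))
    have k1 : ⁅Q ⊓ C1[x], R ⊓ C1[z]⁆ ≤ zpowers x := by
      have t : ⁅Q ⊓ C1[x], R ⊓ C1[z]⁆ ≤ (Q ⊓ C1[x]) ⊓ R := le_inf (comm_le_left (le_norm_inf
        (inf_le_right.trans h.norm) (le_norm_of_le (inf_le_left.trans h'.le))))
        ((commutator_mono le_rfl inf_le_left).trans (comm_le_right nP))
      refine t.trans fun u hu => ?_
      rcases h.cent_c1 hx x1 hu.1.1 (mem_cent_iff.2 fun p hp => commutatorElement_eq_one_iff_mul_comm.1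
        (zz _ (mul_mem (conj_mem_of_norm (nP hp) hu.2) (inv_mem hu.2)) (h.comm_mem hp.1 hu.1.1))) with e | e
      · rw [k0 u hu.2 e]; exact one_mem _
      · rw [← inv_mul_eq_one.1 (k0 _ (mul_mem (inv_mem h'.mem) hu.2) e)]; exact mem_zpowers x
    have k2 : ⁅R, Q ⊓ C1[x]⁆ ≤ R ⊓ C1[z] := le_inf (comm_le_left nP) (le_trans (le_inf (comm_le_left nP)
      (commutator_eq_bot_iff_le_centralizer.1 (three_subgroup (commutator_eq_bot_iff_le_centralizer.2
      (k1.trans (zpowers_le.2 (le_cent1_iff.1 h'.le)))) (commutator_eq_bot_iff_le_centralizer.2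
      ((commutator_mono inf_le_left le_rfl).trans (h'.der.trans (zpowers_le.2
        (le_cent1_iff.1 inf_le_right)))))))) h4)
    have k3 : ⁅⁅R, Q ⊓ C1[x]⁆, Q ⊓ C1[x]⁆ ≤ zpowers x :=
      (commutator_mono k2 le_rfl).trans ((commutator_comm _ _).le.trans k1)
    have n1 : Q ⊓ C1[x] ≤ N[zpowers x] := inf_le_right.trans (norm_zp2 h'.ord).ge
    have k4 := three_subgroup_le n1 n1 (h'.le.trans (norm_zp2 h'.ord).ge)
      ((commutator_mono (commutator_comm _ _).le le_rfl).trans k3) k3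
    exact h5 fun k hk => h1 k hk (((commutator_comm R _).le.trans k4) <|
      commutator_mem_commutator hk (h.mem_der inf_le_left ab))

end GX
end CfsgGX
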