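import Mathlib
import Cfsg.Agent.H9.FsAct
import Cfsg.Agent.H9.Gen
import Cfsg.Agent.H2.PG3
import Cfsg.Agent.H1.Fitting

/-! Goldschmidt's generation lemma for fixed points under coprime action. -/

set_option autoImplicit false
open Cfsg Subgroup

namespace CfsgH9

universe u v

variable {ι : Type v} {p : ℕ} [hp : Fact p.Prime]

theorem three_bot {G : Type*} [Group G] {A B C : Subgroup G} (h1 : ⁅⁅B, C⁆, A⁆ = ⊥)
    (h2 : ⁅⁅C, A⁆, B⁆ = ⊥) : ⁅⁅A, B⁆, C⁆ = ⊥ :=
  eq_bot_iff.2 (three_subgroups le_normalizer_of_normal le_normalizer_of_normal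
    le_normalizer_of_normal h1.le h2.le)

theorem comm_inf_cent_p {G : Type*} [Group G] [Finite G] {A V : Subgroup G} (hA : IsPGroup p A)
    (hV : (Nat.card V).Coprime p) (hc : ⁅V, V⁆ = ⊥) (hn : A ≤ normalizer (V : Set G)) :
    ⁅V, A⁆ ⊓ centralizer (A : Set G) = ⊥ :=
  CfsgH2.coprime_comm_inf_cent (isMulCommutative_iff_comm.2 hc) hn (coprime_card_of_p hV hA).symm

theorem gold_aux (n : ℕ) : ∀ {G : Type u} [Group G] [Finite G] (A B Y : Subgroup G)
    (β : ι → Subgroup G), Nat.card Y < n → IsPGroup p A → ⁅A, A⁆ = ⊥ → (∀ i, β i ≤ B) → B ≤ A →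
    (∃ i, β i = B) → Group.IsSolvable Y → (Nat.card Y).Coprime p → A ≤ normalizer (Y : Set G) →
    ⁅Y, A⁆ = Y → (∀ K ≤ Y, A ≤ normalizer (K : Set G) → ∀ T : Subgroup G,
      (∀ i, K ⊓ centralizer (β i : Set G) ≤ T) → K ≤ T) →
    Y ⊓ centralizer (B : Set G) ≤
      ⨆ i, ⁅Y ⊓ centralizer (β i : Set G), A⁆ ⊓ centralizer (B : Set G) := by
  induction n with
  | zero => intro G _ _ A B Y β h; omega
  | succ n ih =>
  intro G _ _ A B Y β hn hA hAA hβ hB ⟨i₀, hi₀⟩ hs hY hAY hYA gen
  set X : ι → Subgroup G := fun i => ⁅Y ⊓ centralizer (β i : Set G), A⁆ with hX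
  set W := ⨆ i, X i ⊓ centralizer (B : Set G) with hW
  have aC : ∀ {D : Subgroup G}, D ≤ A → A ≤ normalizer (centralizer (D : Set G) : Set G) := fun h =>
    ((comm_bot_iff.1 hAA).trans (centralizer_anti h)).trans le_normalizer
  have aβ : ∀ i, A ≤ normalizer ((Y ⊓ centralizer (β i : Set G) : Subgroup G) : Set G) := fun i =>
    le_normalizer_inf hAY (aC ((hβ i).trans hB))
  have x1 : ∀ i, X i ≤ Y ⊓ centralizer (β i : Set G) := fun i => commutator_le_left_of (aβ i)
  have x2 : ∀ i, Y ⊓ centralizer (β i : Set G) ≤ normalizer (X i : Set G) := fun i =>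
    le_normalizer_comm_left _ _
  have x3 : ∀ i, A ≤ normalizer (X i : Set G) := fun i => le_normalizer_comm_right _ _
  have cA : ∀ i, centralizer (A : Set G) ≤ centralizer (β i : Set G) := fun i =>
    centralizer_anti ((hβ i).trans hB)
  have split : ∀ {K D : Subgroup G}, K ≤ Y → D ≤ A → D ≤ normalizer (K : Set G) →
      K ≤ ⁅K, D⁆ ⊔ (K ⊓ centralizer (D : Set G)) := fun a b c =>
    (coprime_sup_centralizer (hA.to_le b) (coprime_of_le a hY) c).ge
  have wl : ∀ i, X i ⊓ centralizer (B : Set G) ≤ W := fun i => le_iSup_of_le i le_rfl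
  have w1 : W ≤ Y ⊓ centralizer (B : Set G) :=
    iSup_le fun i => inf_le_inf_right _ ((x1 i).trans inf_le_left)
  have f1 : Y ≤ ⨆ i, X i := by
    have h3 : A ≤ normalizer ((⨆ i, X i : Subgroup G) : Set G) := CfsgH1.le_normalizer_iSup x3
    rw [← hYA]
    refine comm_le_of_sup_centralizer (A := ⨆ i, X i) (gen Y le_rfl hAY _ fun i =>
      (split inf_le_left le_rfl (aβ i)).trans (sup_le_sup (le_iSup X i)
        (inf_le_inf_right _ inf_le_left))) le_normalizer (CfsgH1.le_normalizer_iSup fun i =>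
          (inf_le_inf_left _ (cA i)).trans (x2 i)) (commutator_le_left_of h3)
  have f2 : ∀ N ≤ Y, N ≠ ⊥ → Y ≤ normalizer (N : Set G) → A ≤ normalizer (N : Set G) →
      N ⊓ centralizer (A : Set G) ≤ W → Y ⊓ centralizer (B : Set G) ≤ W := by
    intro N n1 n2 n3 n4 n5
    have n6 : N ⊓ centralizer (B : Set G) ≤ W := by
      have a := le_normalizer_inf n4 (aC hB)
      refine (split (inf_le_left.trans n1) le_rfl a).trans (sup_le (le_trans (le_inf ?_
        ((commutator_le_left_of a).trans inf_le_right)) (wl i₀))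
        ((inf_le_inf_right _ inf_le_left).trans n5))
      exact commutator_mono (hi₀ ▸ inf_le_inf_right _ n1) le_rfl
    set D := normalizer (N : Set G)
    have hN : N ≤ D := le_normalizer
    let f : D →* D ⧸ N.subgroupOf D := QuotientGroup.mk' _
    have hk : kr f = N := kr_mk'_subgroupOf hN
    have hc : ∀ K : Subgroup G, (Nat.card (kr f ⊓ K : Subgroup G)).Coprime p := fun K =>
      coprime_of_le (inf_le_left.trans (hk.le.trans n1)) hY
    have ic : ∀ {K E : Subgroup G}, K ≤ Y → E ≤ A → A ≤ normalizer (K : Set G) →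
        im f (K ⊓ centralizer (E : Set G)) = im f K ⊓ centralizer (im f E : Set _) := fun a b c =>
      im_inf_centralizer_p (hA.to_le b) (b.trans n4) (a.trans n3) (b.trans c) (hc _)
    have key := ih (im f A) (im f B) (im f Y) (fun i => im f (β i)) (by
        have := card_im_mul (f := f) n3
        rw [hk, inf_eq_left.2 n1] at this
        have h1 : 1 < Nat.card N := (one_lt_card_iff_ne_bot N).2 n2
        have h2 : 0 < Nat.card (im f Y) := Nat.card_pos
        nlinarith)
      (isPGroup_im hA) (by rw [← im_commutator n4 n4, hAA, im_bot]) (fun i => im_mono (hβ i))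
      (im_mono hB) ⟨i₀, by rw [hi₀]⟩ (isSolvable_im n3 hs) (coprime_im n3 hY) (im_le_normalizer hAY)
      (by rw [← im_commutator n3 n4, hYA]) (fun K k1 k2 T k3 => by
        rw [← im_pre_inf k1]
        refine im_le_of_le_pre (gen _ inf_le_right
          (le_normalizer_inf (le_normalizer_pre n4 k2) hAY) _ fun i => ?_)
        rw [le_pre_iff (inf_le_left.trans (inf_le_right.trans n3)), ic inf_le_right
          ((hβ i).trans hB) (le_normalizer_inf (le_normalizer_pre n4 k2) hAY), im_pre_inf k1]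
        exact k3 i)
    rw [← ic le_rfl hB hAY] at key
    have k2 : im f (Y ⊓ centralizer (B : Set G)) ≤ im f W := key.trans (iSup_le fun i => by
      rw [← ic le_rfl ((hβ i).trans hB) hAY, ← im_commutator (inf_le_left.trans n3) n4,
        ← ic ((x1 i).trans inf_le_left) hB (x3 i)]
      exact im_mono (wl i))
    rw [im_le_im_iff (inf_le_left.trans n3) (w1.trans (inf_le_left.trans n3)), hk] at k2
    refine (le_inf k2 inf_le_right).trans ?_
    rw [inf_sup_of_le_normalizer (w1.trans (inf_le_left.trans n3)) (w1.trans inf_le_right)]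
    exact sup_le le_rfl n6
  have f3 : ∀ M ≤ Y, ⁅M, M⁆ = ⊥ → Y ≤ normalizer (M : Set G) → A ≤ normalizer (M : Set G) →
      ⁅M, Y⁆ ⊓ centralizer (A : Set G) ≤ W := by
    intro M m1 m2 m3 m4
    have t1 : W ⊓ (M ⊓ centralizer (A : Set G)) ⊔ ⁅M, A⁆ ≤ M :=
      sup_le (inf_le_right.trans inf_le_left) (commutator_le_left_of m4)
    have t2 : ∀ {U : Subgroup G}, U ≤ M → U ≤ normalizer
        ((W ⊓ (M ⊓ centralizer (A : Set G)) ⊔ ⁅M, A⁆ : Subgroup G) : Set G) := fun h =>
      le_normalizer_of_commutator_eq_bot (comm_bot_mono m2 h t1)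
    have t3 : ∀ i, ⁅M, X i⁆ ≤ W ⊓ (M ⊓ centralizer (A : Set G)) ⊔ ⁅M, A⁆ := by
      intro i
      have b := (hβ i).trans hB
      have c := ((x1 i).trans inf_le_left).trans m3
      refine (commutator_mono (split m1 b (b.trans m4)) le_rfl).trans (commutator_sup_le
        (t2 (commutator_le_left_of (b.trans m4))) (t2 inf_le_left) ?_ ?_)
      · refine (commutator_le_left_of (le_normalizer_commutator c (((x1 i).trans inf_le_right).trans
          (centralizer_le_normalizer _)))).trans (le_sup_of_le_right (commutator_mono le_rfl b))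
      · have d : ⁅M ⊓ centralizer (β i : Set G), X i⁆ ≤ X i ⊓ M :=
          le_inf (commutator_le_right_of ((inf_le_inf_right _ m1).trans (x2 i)))
            ((commutator_mono inf_le_left le_rfl).trans (commutator_le_left_of c))
        refine d.trans ((split (inf_le_right.trans m1) le_rfl (le_normalizer_inf (x3 i) m4)).trans
          (sup_le (le_sup_of_le_right (commutator_mono inf_le_right le_rfl)) (le_sup_of_le_left
            (le_inf (le_trans (inf_le_inf inf_le_left (centralizer_anti hB)) (wl i))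
              (inf_le_inf_right _ inf_le_right)))))
    have t4 : ⁅M, Y⁆ ≤ W ⊓ (M ⊓ centralizer (A : Set G)) ⊔ ⁅M, A⁆ := by
      refine (commutator_mono le_rfl f1).trans ?_
      rw [commutator_comm]
      exact CfsgH1.commutator_iSup_le (fun i => le_normalizer_iff_commutator_le_left.2
        ((commutator_mono t1 le_rfl).trans (t3 i))) fun i => by rw [commutator_comm]; exact t3 i
    refine (inf_le_inf_right _ t4).trans ?_
    rw [inf_sup_of_le_normalizer (le_normalizer_of_commutator_eq_bot (comm_bot_mono m2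
      (inf_le_right.trans inf_le_left) (commutator_le_left_of m4))) (inf_le_right.trans inf_le_right),
      comm_inf_cent_p hA (coprime_of_le m1 hY) m2 m4]
    exact sup_le inf_le_left bot_le
  by_contra hcon
  have g3 : ∀ M ≤ Y, ⁅M, M⁆ = ⊥ → Y ≤ normalizer (M : Set G) → A ≤ normalizer (M : Set G) →
      ⁅M, Y⁆ = ⊥ := fun M m1 m2 m3 m4 => by_contra fun h => hcon (f2 _
        ((commutator_le_left_of m3).trans m1) h (le_normalizer_comm_right _ _)
        (le_normalizer_commutator m4 hAY) (f3 M m1 m2 m3 m4))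
  set Z := Y ⊓ centralizer (Y : Set G)
  have z1 : A ≤ normalizer (Z : Set G) := le_normalizer_inf hAY (le_normalizer_centralizer hAY)
  have z2 : ∀ {U : Subgroup G}, U ≤ Z → Y ≤ normalizer (U : Set G) := fun h =>
    le_normalizer_of_commutator_eq_bot (comm_bot_iff'.2 (h.trans inf_le_right))
  have z3 : ⁅Z, A⁆ = ⊥ := by_contra fun h => hcon (f2 _
    ((commutator_le_left_of z1).trans inf_le_left) h (z2 (commutator_le_left_of z1))
    (le_normalizer_comm_right _ _) (by
      rw [comm_inf_cent_p hA (coprime_of_le inf_le_left hY) (center_comm_self Y) z1]; exact bot_le))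
  have z4 : W ⊓ Z = ⊥ := by_contra fun h => hcon (f2 _ (inf_le_right.trans inf_le_left) h
    (z2 inf_le_right) (le_normalizer_of_commutator_eq_bot (comm_bot_symm
      (comm_bot_mono z3 inf_le_right le_rfl))) (inf_le_left.trans inf_le_left))
  have z5 : ∀ i, X i ⊓ Z = ⊥ := fun i => eq_bot_iff.2 (le_trans (le_inf (le_trans (inf_le_inf_left _
    ((comm_bot_iff.1 z3).trans (centralizer_anti hB))) (wl i)) inf_le_right) z4.le)
  have z6 : Z < Y := lt_of_le_of_ne inf_le_left fun e => hcon (by
    rw [e, hYA] at z3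
    exact (inf_le_left.trans z3.le).trans bot_le)
  obtain ⟨M, m1, ⟨m2, m3, m4⟩, m5⟩ := exists_min_subgroup (P := fun M => Z < M ∧
    Y ≤ normalizer (M : Set G) ∧ A ≤ normalizer (M : Set G)) ⟨z6, le_normalizer, hAY⟩
  have m6 : ⁅M, M⁆ ≤ Z := by
    by_contra h
    have e := m5 (⁅M, M⁆ ⊔ Z) (sup_le (commutator_le_self M) m2.le) ⟨right_lt_sup.2 h,
      le_normalizer_sup (le_normalizer_commutator m3 m3) (z2 le_rfl),
      le_normalizer_sup (le_normalizer_commutator m4 m4) z1⟩
    have := commutator_sup_central (N := ⁅M, M⁆) (Z := Z) (comm_bot_iff.2 (inf_le_right.trans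
      (centralizer_anti ((commutator_le_self M).trans m1)))) (center_comm_self Y)
    rw [e] at this
    exact h ((eq_bot_of_perfect_of_solvable (isSolvable_of_le ((commutator_le_self M).trans m1) hs)
      this.symm).le.trans bot_le)
  have m7 : M ⊓ centralizer (M : Set G) ≤ Z := le_inf (inf_le_left.trans m1) (comm_bot_iff.1
    (g3 _ (inf_le_left.trans m1) (center_comm_self M) (le_normalizer_inf m3
      (le_normalizer_centralizer m3)) (le_normalizer_inf m4 (le_normalizer_centralizer m4))))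
  have m8 : ⁅M, A⁆ = ⊥ := by
    refine comm_bot_iff.2 (gen M m1 m4 _ fun i => comm_bot_iff.1 (eq_bot_iff.2 ?_))
    have b := (hβ i).trans hB
    have d1 : ⁅X i ⊓ M, M⁆ = ⊥ := by
      refine comm_bot_mono (comm_bot_sup_right ?_ ?_) le_rfl (split m1 b (b.trans m4))
      · refine comm_bot_symm (three_bot ?_ (comm_bot_mono z3
          ((commutator_mono inf_le_right le_rfl).trans m6) b))
        rw [comm_bot_iff'.2 (inf_le_left.trans ((x1 i).trans inf_le_right)), commutator_bot_left]
      · rw [eq_bot_iff, ← z5 i]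
        exact le_inf ((commutator_mono inf_le_left le_rfl).trans (commutator_le_left_of
          ((inf_le_inf_right _ m1).trans (x2 i)))) ((commutator_mono inf_le_right inf_le_left).trans m6)
    have d2 : ⁅M ⊓ centralizer (β i : Set G), A⁆ ≤ X i ⊓ M := le_inf
      (commutator_mono (inf_le_inf_right _ m1) le_rfl)
      ((commutator_mono inf_le_left le_rfl).trans (commutator_le_left_of m4))
    rw [← z5 i]
    exact d2.trans (le_inf inf_le_left ((le_inf inf_le_right (comm_bot_iff.1 d1)).trans m7))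
  have m9 : ⁅⁅Y, A⁆, M⁆ = ⊥ := three_bot (by rw [comm_bot_symm m8, commutator_bot_left])
    (comm_bot_mono m8 (commutator_le_left_of m3) le_rfl)
  rw [hYA] at m9
  exact m2.not_ge (le_inf m1 (comm_bot_iff'.1 m9))

/-- Goldschmidt's lemma. -/
theorem gold {G : Type*} [Group G] [Finite G] {A B Y T : Subgroup G} (hA : IsPGroup p A)
    (hAA : ⁅A, A⁆ = ⊥) (hB : B ≤ A) (hs : Group.IsSolvable Y) (hY : (Nat.card Y).Coprime p)
    (hn : A ≤ normalizer (Y : Set G)) (h : ⁅Y, A⁆ = Y)
    (hT : ∀ D ≤ B, (∃ b ∈ B, B ≤ D ⊔ zpowers b) →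
      ⁅Y ⊓ centralizer (D : Set G), A⁆ ⊓ centralizer (B : Set G) ≤ T) :
    Y ⊓ centralizer (B : Set G) ≤ T :=
  (gold_aux (ι := {D : Subgroup G // D ≤ B ∧ ∃ b ∈ B, B ≤ D ⊔ zpowers b}) _ A B Y (fun D => D.1)
    (Nat.lt_succ_self _) hA hAA (fun D => D.2.1) hB ⟨⟨B, le_rfl, 1, B.one_mem, le_sup_left⟩, rfl⟩
    hs hY hn h fun K k1 k2 _ k3 => le_of_cocyclic (comm_bot_mono hAA hB hB) (hB.trans k2)
      (coprime_card_of_p (coprime_of_le k1 hY) (hA.to_le hB)).symm fun D d1 d2 => k3 ⟨D, d1, d2⟩).trans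
    (iSup_le fun D => hT D.1 D.2.1 D.2.2)

end CfsgH9
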