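import Mathlib
import Cfsg.Agent.H2.Gs2
import Cfsg.Prelude.Def_KGroupFacts

/-! A model of the extraspecial group `2^{1+2n}_+` and non-splitting of its automorphism group. -/

set_option autoImplicit false

namespace CfsgH9
namespace Griess

open Cfsg CfsgH2 Subgroup

/-- the model group -/
@[ext] structure Hs (k : ℕ) where
  a0 : ZMod 2
  a1 : ZMod 2
  a2 : ZMod 2
  b0 : ZMod 2
  b1 : ZMod 2
  b2 : ZMod 2
  c : ZMod 2
  x : Fin k → ZMod 2
  y : Fin k → ZMod 2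

variable {k : ℕ}

theorem two (t : ZMod 2) : t + t = 0 := by revert t; decide
theorem twov (t : Fin k → ZMod 2) : t + t = 0 := by ext i; exact two _

instance : Mul (Hs k) := ⟨fun u v => ⟨u.a0 + v.a0, u.a1 + v.a1, u.a2 + v.a2, u.b0 + v.b0,
  u.b1 + v.b1, u.b2 + v.b2,
  u.c + v.c + u.a0 * v.b0 + u.a1 * v.b1 + u.a2 * v.b2 + u.x ⬝ᵥ v.y, u.x + v.x, u.y + v.y⟩⟩
instance : One (Hs k) := ⟨⟨0, 0, 0, 0, 0, 0, 0, 0, 0⟩⟩
instance : Inv (Hs k) := ⟨fun u => ⟨u.a0, u.a1, u.a2, u.b0, u.b1, u.b2,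
  u.c + u.a0 * u.b0 + u.a1 * u.b1 + u.a2 * u.b2 + u.x ⬝ᵥ u.y, u.x, u.y⟩⟩

theorem mul_def (u v : Hs k) : u * v = ⟨u.a0 + v.a0, u.a1 + v.a1, u.a2 + v.a2, u.b0 + v.b0,
  u.b1 + v.b1, u.b2 + v.b2,
  u.c + v.c + u.a0 * v.b0 + u.a1 * v.b1 + u.a2 * v.b2 + u.x ⬝ᵥ v.y, u.x + v.x, u.y + v.y⟩ := rfl
theorem one_def : (1 : Hs k) = ⟨0, 0, 0, 0, 0, 0, 0, 0, 0⟩ := rfl
theorem inv_def (u : Hs k) : u⁻¹ = ⟨u.a0, u.a1, u.a2, u.b0, u.b1, u.b2,
  u.c + u.a0 * u.b0 + u.a1 * u.b1 + u.a2 * u.b2 + u.x ⬝ᵥ u.y, u.x, u.y⟩ := rfl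

theorem h2 : (2 : ZMod 2) = 0 := by decide

instance : Group (Hs k) := Group.ofLeftAxioms
  (fun u v w => by
    simp only [mul_def, Hs.mk.injEq, add_assoc, true_and, and_true, add_dotProduct,
      dotProduct_add]
    ring)
  (fun u => by simp [mul_def, one_def])
  (fun u => by
    simp only [mul_def, inv_def, one_def, Hs.mk.injEq, two, twov, true_and, and_true]
    linear_combination (u.c + u.a0 * u.b0 + u.a1 * u.b1 + u.a2 * u.b2 + u.x ⬝ᵥ u.y) * h2)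

/-- coordinates -/
def coords : Hs k ≃ (Fin 7 → ZMod 2) × (Fin k → ZMod 2) × (Fin k → ZMod 2) where
  toFun u := (![u.a0, u.a1, u.a2, u.b0, u.b1, u.b2, u.c], u.x, u.y)
  invFun t := ⟨t.1 0, t.1 1, t.1 2, t.1 3, t.1 4, t.1 5, t.1 6, t.2.1, t.2.2⟩
  left_inv u := rfl
  right_inv t := by
    ext i
    · fin_cases i <;> rfl
    · rfl
    · rfl

instance : Finite (Hs k) := Finite.of_equiv _ coords.symm

theorem card_Hs : Nat.card (Hs k) = 2 ^ (2 * (k + 3) + 1) := by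
  rw [Nat.card_congr coords]
  simp only [Nat.card_prod, Nat.card_fun, Nat.card_zmod, Nat.card_fin]
  ring

theorem conj_def (u v : Hs k) : u * v * u⁻¹ = ⟨v.a0, v.a1, v.a2, v.b0, v.b1, v.b2,
    v.c + u.a0 * v.b0 + u.a1 * v.b1 + u.a2 * v.b2 + u.x ⬝ᵥ v.y + v.a0 * u.b0 + v.a1 * u.b1 +
      v.a2 * u.b2 + v.x ⬝ᵥ u.y, v.x, v.y⟩ := by
  rw [mul_inv_eq_iff_eq_mul]
  simp only [mul_def, Hs.mk.injEq, add_comm, true_and, and_true]
  linear_combination (-(v.a0 * u.b0 + v.a1 * u.b1 + v.a2 * u.b2 + v.x ⬝ᵥ u.y)) * h2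

theorem mem_Z (u : Hs k) : u ∈ Z[(⊤ : Subgroup (Hs k))] ↔
    u = 1 ∨ u = ⟨0, 0, 0, 0, 0, 0, 1, 0, 0⟩ := by
  rw [mem_inf, mem_cent_iff]
  constructor
  · rintro ⟨-, h⟩
    have h' : ∀ v : Hs k, (v * u).c = (u * v).c := fun v => by rw [h v (mem_top v)]
    have e0 := h' ⟨1, 0, 0, 0, 0, 0, 0, 0, 0⟩
    have e1 := h' ⟨0, 1, 0, 0, 0, 0, 0, 0, 0⟩
    have e2 := h' ⟨0, 0, 1, 0, 0, 0, 0, 0, 0⟩
    have e3 := h' ⟨0, 0, 0, 1, 0, 0, 0, 0, 0⟩
    have e4 := h' ⟨0, 0, 0, 0, 1, 0, 0, 0, 0⟩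
    have e5 := h' ⟨0, 0, 0, 0, 0, 1, 0, 0, 0⟩
    have e6 : u.y = 0 := by
      ext i
      have := h' ⟨0, 0, 0, 0, 0, 0, 0, Pi.single i 1, 0⟩
      simpa [mul_def] using this
    have e7 : u.x = 0 := by
      ext i
      have := h' ⟨0, 0, 0, 0, 0, 0, 0, 0, Pi.single i 1⟩
      simpa [mul_def] using this
    simp [mul_def] at e0 e1 e2 e3 e4 e5
    have hc : ∀ t : ZMod 2, t = 0 ∨ t = 1 := by decide
    rcases hc u.c with h1 | h1
    · left; ext1 <;> simp [one_def, *]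
    · right; ext1 <;> simp [*]
  · rintro (rfl | rfl)
    · exact ⟨mem_top _, fun v _ => by simp⟩
    · exact ⟨mem_top _, fun v _ => by simp [mul_def, add_comm]⟩

theorem wx : Wx 2 (⊤ : Subgroup (Hs k)) := by
  refine ⟨IsPGroup.of_card (by rw [Subgroup.card_top, card_Hs]), ?_, ?_⟩
  · have : ((Z[(⊤ : Subgroup (Hs k))] : Subgroup (Hs k)) : Set (Hs k)) =
        {1, ⟨0, 0, 0, 0, 0, 0, 1, 0, 0⟩} := by
      ext u; exact mem_Z u
    change Nat.card ((Z[(⊤ : Subgroup (Hs k))] : Subgroup (Hs k)) : Set (Hs k)) = 2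
    rw [this, Nat.card_coe_set_eq, Set.ncard_pair]
    simp [one_def]
  · rw [commutator_le]
    intro u _ v _
    rw [mem_Z, commutatorElement_def, conj_def]
    have hc : ∀ t : ZMod 2, t = 0 ∨ t = 1 := by decide
    simp only [mul_def, inv_def, one_def, Hs.mk.injEq, two, twov, true_and, and_true]
    exact hc _

/-- the elementary abelian subgroup -/
def EE : Subgroup (Hs k) where
  carrier := {u | u.a0 = 0 ∧ u.a1 = 0 ∧ u.a2 = 0 ∧ u.x = 0}
  mul_mem' := by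
    rintro u v ⟨h0, h1, h2, h3⟩ ⟨g0, g1, g2, g3⟩
    simp [mul_def, *]
  one_mem' := by simp [one_def]
  inv_mem' := by
    rintro u ⟨h0, h1, h2, h3⟩
    simp [inv_def, *]

theorem el_EE : El 2 (k + 3 + 1) (EE : Subgroup (Hs k)) := by
  refine ⟨⟨⟨⟨?_⟩⟩, ?_⟩, ?_⟩
  · rintro ⟨u, h0, h1, h2, h3⟩ ⟨v, g0, g1, g2, g3⟩
    apply Subtype.ext
    simp [mul_def, add_comm, *]
  · rintro u ⟨h0, h1, h2, h3⟩
    simp [pow_two, mul_def, one_def, two, twov, *]
  · let e : (EE : Subgroup (Hs k)) ≃ (Fin 4 → ZMod 2) × (Fin k → ZMod 2) :=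
      { toFun := fun u => (![u.1.b0, u.1.b1, u.1.b2, u.1.c], u.1.y)
        invFun := fun t => ⟨⟨0, 0, 0, t.1 0, t.1 1, t.1 2, t.1 3, 0, t.2⟩, rfl, rfl, rfl, rfl⟩
        left_inv := by
          rintro ⟨u, h0, h1, h2, h3⟩
          apply Subtype.ext
          ext1 <;> simp [*]
        right_inv := by
          intro t
          ext i
          · fin_cases i <;> rfl
          · rfl }
    rw [Nat.card_congr e]
    simp only [Nat.card_prod, Nat.card_fun, Nat.card_zmod, Nat.card_fin]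
    ring

/-- an involutory automorphism from a function -/
def mkAut (f : Hs k → Hs k) (h1 : ∀ u, f (f u) = u) (h2 : ∀ u v, f (u * v) = f u * f v) :
    MulAut (Hs k) := ⟨⟨f, f, h1, h1⟩, h2⟩

theorem three (s t : ZMod 2) : s + t + t = s := by revert s t; decide

/-- first transvection pair -/
def αA : MulAut (Hs k) := mkAut
  (fun u => ⟨u.a0 + u.a1, u.a1, u.a2, u.b0, u.b1 + u.b0, u.b2, u.c, u.x, u.y⟩)
  (fun u => by simp only [three])
  (fun u v => by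
    simp only [mul_def, Hs.mk.injEq, true_and, and_true]
    exact ⟨by ring, by ring, by linear_combination (-(u.a1 * v.b0)) * h2⟩)

/-- second transvection pair -/
def αC : MulAut (Hs k) := mkAut
  (fun u => ⟨u.a0 + u.a2, u.a1, u.a2, u.b0, u.b1, u.b2 + u.b0, u.c, u.x, u.y⟩)
  (fun u => by simp only [three])
  (fun u v => by
    simp only [mul_def, Hs.mk.injEq, true_and, and_true]
    exact ⟨by ring, by ring, by linear_combination (-(u.a2 * v.b0)) * h2⟩)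

/-- the swap -/
def αW : MulAut (Hs k) := mkAut
  (fun u => ⟨u.a0, u.b1, u.a2, u.b0, u.a1, u.b2, u.c + u.a1 * u.b1, u.x, u.y⟩)
  (fun u => by simp only [mul_comm u.b1 u.a1, three])
  (fun u v => by
    simp only [mul_def, Hs.mk.injEq, true_and, and_true]
    linear_combination (u.a1 * v.b1) * h2)

theorem αA_apply (u : Hs k) :
    αA u = ⟨u.a0 + u.a1, u.a1, u.a2, u.b0, u.b1 + u.b0, u.b2, u.c, u.x, u.y⟩ := rfl
theorem αC_apply (u : Hs k) :
    αC u = ⟨u.a0 + u.a2, u.a1, u.a2, u.b0, u.b1, u.b2 + u.b0, u.c, u.x, u.y⟩ := rfl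
theorem αW_apply (u : Hs k) :
    αW u = ⟨u.a0, u.b1, u.a2, u.b0, u.a1, u.b2, u.c + u.a1 * u.b1, u.x, u.y⟩ := rfl

theorem relAC : (αA * αC * (αA * αC) : MulAut (Hs k)) = 1 := by
  ext1 ⟨a0, a1, a2, b0, b1, b2, c, x, y⟩
  simp only [MulAut.mul_apply, αA_apply, αC_apply, MulAut.one_apply, Hs.mk.injEq, true_and,
    and_true]
  revert a0 a1 a2 b0 b1 b2
  decide

theorem relWC : (αW * αC * (αW * αC) : MulAut (Hs k)) = 1 := by
  ext1 ⟨a0, a1, a2, b0, b1, b2, c, x, y⟩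
  simp only [MulAut.mul_apply, αW_apply, αC_apply, MulAut.one_apply, Hs.mk.injEq, true_and,
    and_true]
  revert a0 a1 a2 b0 b1 b2 c
  decide

theorem relWA : (αW * αA * (αW * αA) * (αW * αA * (αW * αA)) : MulAut (Hs k)) =
    MulAut.conj ⟨1, 0, 0, 0, 0, 0, 0, 0, 0⟩ := by
  ext1 ⟨a0, a1, a2, b0, b1, b2, c, x, y⟩
  simp only [MulAut.mul_apply, αW_apply, αA_apply, MulAut.conj_apply, conj_def, Hs.mk.injEq,
    true_and, and_true, zero_dotProduct, dotProduct_zero]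
  revert a0 a1 a2 b0 b1 b2 c
  decide

theorem inn_normal {Q : Type*} [Group Q] : (Inn Q).Normal := by
  constructor
  rintro _ ⟨u, rfl⟩ α
  exact ⟨α u, by ext v; simp⟩

theorem model (L : Subgroup (MulAut (Hs k))) (h1 : ∀ α, ∃ u, α * MulAut.conj u ∈ L)
    (h2 : ∀ β ∈ L, β ∈ Inn (Hs k) → β = 1) : False := by
  obtain ⟨uA, hA⟩ := h1 αA
  obtain ⟨uC, hC⟩ := h1 αC
  obtain ⟨uW, hW⟩ := h1 αW
  haveI := inn_normal (Q := Hs k)
  let π := QuotientGroup.mk' (Inn (Hs k))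
  have hπ : ∀ (α : MulAut (Hs k)) (u : Hs k), π (α * MulAut.conj u) = π α := by
    intro α u
    rw [map_mul, (QuotientGroup.eq_one_iff (N := Inn (Hs k)) _).2 ⟨u, rfl⟩ |> show
      ((MulAut.conj u : MulAut (Hs k)) : MulAut (Hs k) ⧸ Inn (Hs k)) = 1 →
        π (MulAut.conj u) = 1 from id, mul_one]
  have hk : ∀ β : MulAut (Hs k), π β = 1 ↔ β ∈ Inn (Hs k) := fun β => QuotientGroup.eq_one_iff β
  set lA := αA * MulAut.conj uA
  set lC := αC * MulAut.conj uC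
  set lW := αW * MulAut.conj uW
  have pA : π lA = π αA := hπ _ _
  have pC : π lC = π αC := hπ _ _
  have pW : π lW = π αW := hπ _ _
  have e1 := h2 (lA * lC * (lA * lC)) (L.mul_mem (L.mul_mem hA hC) (L.mul_mem hA hC))
    ((hk _).1 (by
      simp only [map_mul, pA, pC]; simp only [← map_mul]; rw [relAC, map_one]))
  have e2 := h2 (lW * lC * (lW * lC)) (L.mul_mem (L.mul_mem hW hC) (L.mul_mem hW hC))
    ((hk _).1 (by
      simp only [map_mul, pW, pC]; simp only [← map_mul]; rw [relWC, map_one]))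
  have hWA := L.mul_mem hW hA
  have e3 := h2 (lW * lA * (lW * lA) * (lW * lA * (lW * lA)))
    (L.mul_mem (L.mul_mem hWA hWA) (L.mul_mem hWA hWA))
    ((hk _).1 (by
      simp only [map_mul, pW, pA]; simp only [← map_mul]; rw [relWA]; exact (hk _).2 ⟨_, rfl⟩))
  have f1 := congrArg (fun β : MulAut (Hs k) => (β ⟨0, 1, 0, 0, 0, 0, 0, 0, 0⟩).c) e1
  have f2 := congrArg (fun β : MulAut (Hs k) => (β ⟨0, 0, 1, 0, 0, 0, 0, 0, 0⟩).c) e2
  have f3 := congrArg (fun β : MulAut (Hs k) => (β ⟨0, 0, 0, 1, 0, 0, 0, 0, 0⟩).c) e3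
  simp only [lA, lC, lW, MulAut.mul_apply, αW_apply, αA_apply, αC_apply, MulAut.conj_apply,
    conj_def, MulAut.one_apply, zero_dotProduct, dotProduct_zero, mul_zero, zero_mul, add_zero,
    zero_add, mul_one, one_mul, two] at f1 f2 f3
  have g1 : uA.b0 + uC.b0 = 0 := by
    revert f1
    generalize uA.b0 = t1; generalize uC.b0 = t2; generalize uA.b1 = t3; generalize uC.b1 = t4
    revert t1 t2 t3 t4; decide
  have g2 : uC.b0 + uW.b0 = 0 := by
    revert f2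
    generalize uW.b0 = t1; generalize uC.b0 = t2; generalize uW.b2 = t3; generalize uC.b2 = t4
    revert t1 t2 t3 t4; decide
  have g3 : uA.b0 + uW.b0 = 1 := by
    revert f3
    generalize uA.b0 = t1; generalize uW.b0 = t2; generalize uA.b1 = t3; generalize uW.b1 = t4
    generalize uA.a0 = t5; generalize uW.a0 = t6; generalize uA.a1 = t7; generalize uW.a1 = t8
    revert t1 t2 t3 t4 t5 t6 t7 t8; decide
  revert g1 g2 g3
  generalize uA.b0 = t1; generalize uW.b0 = t2; generalize uC.b0 = t3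
  revert t1 t2 t3; decide

end Griess
end CfsgH9
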