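import Mathlib
import Cfsg.Agent.H9.Pump2
import Cfsg.Agent.H2.PG2
import Cfsg.Agent.H2.MaxCl3

/-! Normal elementary abelian subgroups of rank four in odd `p`-groups. -/

set_option autoImplicit false
open Cfsg Subgroup
open scoped commutatorElement

namespace CfsgH9

variable {G : Type*} [Group G] [Finite G] {p : ℕ} [hp : Fact p.Prime] {N Z B M P : Subgroup G}

/-- `X` contains an elementary abelian subgroup of order `p ^ 4`. -/
def Mem4 (p : ℕ) (X : Subgroup G) : Prop :=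
  ∃ A ≤ X, IsElementaryAbelian p A ∧ Nat.card A = p ^ 4

omit [Finite G] hp in
theorem Mem4.mono (h : Mem4 p M) (hl : M ≤ N) : Mem4 p N :=
  let ⟨A, a, b⟩ := h; ⟨A, a.trans hl, b⟩

omit hp in
theorem card_le_cent_mul {y : G} (h : ∀ x ∈ N, ⁅x, y⁆ ∈ Z) :
    Nat.card N ≤ Nat.card (N ⊓ centralizer ({y} : Set G) : Subgroup G) * Nat.card Z := by
  rw [← card_inf_mul_relIndex (centralizer ({y} : Set G)) N, inf_comm]
  exact Nat.mul_le_mul_left _ (CfsgH2.relIndex_cent1_le h)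

theorem jk_grow (hN : ⁅N, N⁆ ≤ Z) (he : ∀ x ∈ N, x ^ p = 1) (k : ℕ) : ∀ B : Subgroup G,
    IsElementaryAbelian p B → B ≤ N → Nat.card B * p ^ (k + 1) = p ^ 4 →
    p ^ 4 * Nat.card Z ^ k ≤ Nat.card (N ⊓ centralizer (B : Set G) : Subgroup G) → Mem4 p N := by
  have key : ∀ (k : ℕ) (B : Subgroup G), IsElementaryAbelian p B → B ≤ N →
      Nat.card B * p ^ (k + 1) = p ^ 4 →
      p ^ 4 * Nat.card Z ^ k ≤ Nat.card (N ⊓ centralizer (B : Set G) : Subgroup G) →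
      ∃ B', IsElementaryAbelian p B' ∧ B' ≤ N ∧ Nat.card B' = Nat.card B * p ∧
        Nat.card (N ⊓ centralizer (B : Set G) : Subgroup G) ≤
          Nat.card (N ⊓ centralizer (B' : Set G) : Subgroup G) * Nat.card Z := by
    intro k B h1 h2 h3 h4
    obtain ⟨y, y1, y2⟩ := exists_not_mem_of_card_lt (A := N ⊓ centralizer (B : Set G)) (B := B) (by
      refine lt_of_lt_of_le ?_ ((Nat.le_mul_of_pos_right _ (pow_pos Nat.card_pos k)).trans h4)
      rw [← h3]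
      exact lt_mul_of_one_lt_right Nat.card_pos (Nat.one_lt_pow (by omega) hp.1.one_lt))
    have yo : orderOf y = p := orderOf_eq_prime (he y y1.1) fun e => y2 (e ▸ B.one_mem)
    refine ⟨B ⊔ zpowers y, ea_sup h1 (ea_zpowers (he y y1.1)) (comm_bot_symm (zpowers_comm_iff.2 y1.2)),
      sup_le h2 (zpowers_le.2 y1.1), card_sup_zpowers yo y2 (centralizer_le_normalizer _ y1.2), ?_⟩
    rw [centralizer_sup, centralizer_zpowers, ← inf_assoc]
    exact card_le_cent_mul fun x hx => hN (commutator_mem_commutator hx.1 y1.1)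
  induction k with
  | zero =>
    intro B h1 h2 h3 h4
    obtain ⟨B', a, b, c, -⟩ := key 0 B h1 h2 h3 h4
    exact ⟨B', b, a, by rw [c, ← h3, zero_add, pow_one]⟩
  | succ k ih =>
    intro B h1 h2 h3 h4
    obtain ⟨B', a, b, c, d⟩ := key _ B h1 h2 h3 h4
    refine ih B' a b (by rw [c, ← h3]; ring) (Nat.le_of_mul_le_mul_right ?_ (Nat.card_pos (α := Z)))
    rw [mul_assoc, ← pow_succ]
    exact h4.trans d

theorem jk_two (hN : ⁅N, N⁆ ≤ Z) (he : ∀ x ∈ N, x ^ p = 1) (hZ : Z ≤ N) (hc : ⁅Z, N⁆ = ⊥)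
    (c1 : Nat.card Z = p ^ 2) (c2 : Nat.card N = p ^ 5) : Mem4 p N := by
  have h1 := hp.1.one_lt
  have eZ : IsElementaryAbelian p Z := ea_iff.2 ⟨comm_bot_mono hc le_rfl hZ, fun a ha => he a (hZ ha)⟩
  have up : ∀ (X : Subgroup G) (k : ℕ), Z ≤ X → X ≤ N → Nat.card X = p ^ k → k < 5 →
      ∃ u ∈ N, Nat.card (X ⊔ zpowers u : Subgroup G) = p ^ (k + 1) := by
    intro X k a b c d
    obtain ⟨u, u1, u2⟩ := exists_not_mem_of_card_lt (A := N) (B := X)
      (by rw [c, c2]; exact Nat.pow_lt_pow_right h1 d)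
    refine ⟨u, u1, ?_⟩
    rw [card_sup_zpowers (orderOf_eq_prime (he u u1) fun e => u2 (e ▸ X.one_mem)) u2, c, pow_succ]
    refine zpowers_le.1 (le_normalizer_iff_forall.2 fun s hs x hx => ?_)
    have := X.mul_mem (a (hN (commutator_mem_commutator (zpowers_le.2 u1 hs) (b hx)))) hx
    simpa [commutatorElement_def] using this
  obtain ⟨u, u1, u2⟩ := up Z 2 le_rfl hZ c1 (by omega)
  have hu := zpowers_le.2 u1
  obtain ⟨v, v1, v2⟩ := up _ 3 le_sup_left (sup_le hZ hu) u2 (by omega)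
  have hv := zpowers_le.2 v1
  have hL : Z ⊔ zpowers u ⊔ zpowers v ≤ N := sup_le (sup_le hZ hu) hv
  obtain ⟨w, w1, w2⟩ := up _ 4 (le_sup_of_le_left le_sup_left) hL v2 (by omega)
  have hw := zpowers_le.2 w1
  have eN : Z ⊔ zpowers u ⊔ zpowers v ⊔ zpowers w = N :=
    eq_of_le_of_card_ge (sup_le hL hw) (by rw [c2, w2])
  have yZ : zpowers ⁅u, v⁆ ≤ Z := zpowers_le.2 (hN (commutator_mem_commutator u1 v1))
  have nY : ∀ {X : Subgroup G}, X ≤ N → X ≤ normalizer (zpowers ⁅u, v⁆ : Set G) := fun h =>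
    le_normalizer_of_commutator_eq_bot (comm_bot_symm (comm_bot_mono hc yZ h))
  have zz : ∀ {a b : G}, a ∈ N → b ∈ N → ⁅a, b⁆ ∈ zpowers ⁅u, v⁆ →
      ⁅zpowers a, zpowers b⁆ ≤ zpowers ⁅u, v⁆ := fun {a b} ha hb h =>
    CfsgH2.comm_zpowers_le (zpowers_le.1 (nY (zpowers_le.2 ha))) (zpowers_le.1 (nY (zpowers_le.2 hb))) h
  have zc : ∀ {X : Subgroup G}, X ≤ N → ⁅Z, X⁆ ≤ zpowers ⁅u, v⁆ := fun h =>
    (comm_bot_mono hc le_rfl h).le.trans bot_le
  have zc' : ∀ {X : Subgroup G}, X ≤ N → ⁅X, Z⁆ ≤ zpowers ⁅u, v⁆ := fun h => by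
    rw [commutator_comm]; exact zc h
  have LL : ⁅Z ⊔ zpowers u ⊔ zpowers v, Z ⊔ zpowers u ⊔ zpowers v⁆ ≤ zpowers ⁅u, v⁆ := by
    have s1 := sup_le hZ hu
    refine commutator_sup_le (nY s1) (nY hv) (commutator_sup_le (nY hZ) (nY hu) (zc hL) ?_) ?_ <;>
      refine commutator_sup_le' (nY s1) (nY hv) (commutator_sup_le' (nY hZ) (nY hu) (zc' ‹_›) ?_) ?_
    · exact (zpowers_comm u).le.trans bot_le
    · exact zz u1 v1 (mem_zpowers _)
    · rw [commutator_comm]; exact zz u1 v1 (mem_zpowers _)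
    · exact (zpowers_comm v).le.trans bot_le
  have cY : Nat.card (zpowers ⁅u, v⁆) ≤ p := by
    rw [Nat.card_zpowers]
    exact Nat.le_of_dvd hp.1.pos (orderOf_dvd_of_pow_eq_one (he _ (hZ (yZ (mem_zpowers _)))))
  by_cases y0 : ⁅u, v⁆ = 1
  · refine ⟨_, hL, ea_iff.2 ⟨?_, fun a ha => he a (hL ha)⟩, v2⟩
    rwa [y0, zpowers_one_eq_bot, le_bot_iff] at LL
  have cY' : Nat.card (zpowers ⁅u, v⁆) = p := by
    rw [Nat.card_zpowers]
    exact orderOf_eq_prime (he _ (hZ (yZ (mem_zpowers _)))) y0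
  generalize zpowers ⁅u, v⁆ = Y at *
  generalize hLL : Z ⊔ zpowers u ⊔ zpowers v = L at *
  have hm : ∀ x ∈ L, ⁅x, w⁆ ∈ Z := fun x hx => hN (commutator_mem_commutator (hL hx) w1)
  let f : L →* G := MonoidHom.mk' (fun x => ⁅(x : G), w⁆) fun a b => by
    have e1 := comm_bot_iff_forall.1 hc _ (hm b b.2) a (hL a.2)
    have e2 := comm_bot_iff_forall.1 hc _ (hm b b.2) _ (hZ (hm a a.2))
    rw [← e2]
    calc ⁅((a * b : L) : G), w⁆ = a * ⁅(b : G), w⁆ * (a : G)⁻¹ * ⁅(a : G), w⁆ := by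
          simp [commutatorElement_def, mul_assoc]
      _ = _ := by rw [← e1, mul_inv_cancel_right]
  have i1 : (Y.comap f).index ≤ p := by
    have : Y.relIndex Z = p := by
      have := card_mul_relIndex yZ
      rw [cY', c1, pow_two] at this
      exact Nat.eq_of_mul_eq_mul_left hp.1.pos this
    rw [index_comap, ← this]
    exact relIndex_le_of_le_right (by rintro _ ⟨x, rfl⟩; exact hm x x.2) (this ▸ hp.1.ne_zero)
  obtain ⟨_, ⟨l, l1, rfl⟩, l2⟩ := exists_not_mem_of_card_lt (A := (Y.comap f).map L.subtype)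
    (B := Z) (by
      rw [card_map_of_injective L.subtype_injective, c1]
      have := (Y.comap f).card_mul_index
      rw [v2] at this
      have h3 : p ^ 3 * p ≤ Nat.card (Y.comap f) * p :=
        (pow_succ p 3).ge.trans (this.ge.trans (Nat.mul_le_mul_left _ i1))
      exact (Nat.pow_lt_pow_right h1 (by omega)).trans_le (Nat.le_of_mul_le_mul_right h3 hp.1.pos))
  have l3 := hL l.2
  have l4 : ⁅N, zpowers (l : G)⁆ ≤ Y := by
    rw [← eN]
    refine commutator_sup_le (nY hL) (nY hw) ((commutator_mono le_rfl (zpowers_le.2 l.2)).trans LL) ?_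
    rw [commutator_comm]
    exact zz l3 w1 l1
  have l5 := card_le_cent_mul fun x hx => l4 (commutator_mem_commutator hx (mem_zpowers (l : G)))
  have l6 := comm_bot_mono hc le_rfl (zpowers_le.2 l3)
  refine jk_grow hN he 0 (Z ⊔ zpowers (l : G)) (ea_sup eZ (ea_zpowers (he _ l3)) l6)
    (sup_le hZ (zpowers_le.2 l3)) ?_ ?_
  · rw [card_sup_zpowers (orderOf_eq_prime (he _ l3) fun e => l2 (by
      change (l : G) ∈ Z; rw [e]; exact Z.one_mem)) l2
      (zpowers_le.1 (le_normalizer_of_commutator_eq_bot (comm_bot_symm l6))), c1]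
    ring
  · rw [centralizer_sup, centralizer_zpowers, ← inf_assoc, inf_eq_left.2 (comm_bot_iff'.1 hc),
      pow_zero, mul_one]
    rw [c2, cY', pow_succ] at l5
    exact Nat.le_of_mul_le_mul_right l5 hp.1.pos

theorem jk_pair (hp2 : p ≠ 2) {A C : Subgroup G} (a1 : IsElementaryAbelian p A)
    (a2 : Nat.card A = p ^ 4) (b1 : IsElementaryAbelian p C) (b2 : Nat.card C = p ^ 4)
    (n1 : A ≤ normalizer (C : Set G)) (n2 : C ≤ normalizer (A : Set G)) (h1 : A ⊓ C ≤ N)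
    (h2 : N ≤ A ⊔ C) (h3 : Nat.card (A ⊔ C : Subgroup G) ≤ Nat.card N * p) : Mem4 p N := by
  have zc : ⁅A ⊓ C, A ⊔ C⁆ = ⊥ := comm_bot_sup_right (comm_bot_mono (ea_comm a1) inf_le_left le_rfl)
    (comm_bot_mono (ea_comm b1) inf_le_right le_rfl)
  have nA := le_normalizer_inf le_normalizer n1
  have nC := le_normalizer_inf n2 le_normalizer
  have ac : ⁅A, C⁆ ≤ A ⊓ C := le_inf (commutator_le_left_of n2) (commutator_le_right_of n1)
  have hd : ⁅A ⊔ C, A ⊔ C⁆ ≤ A ⊓ C := commutator_sup_le nA nC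
    (commutator_sup_le' nA nC ((ea_comm a1).le.trans bot_le) ac)
    (commutator_sup_le' nA nC (by rwa [commutator_comm]) ((ea_comm b1).le.trans bot_le))
  have he : ∀ x ∈ N, x ^ p = 1 := fun x hx => by
    obtain ⟨a, ha, c, hc, rfl⟩ := (mem_sup_of_le_normalizer n1).1 (h2 hx)
    exact CfsgH2.SmallClass.mul_pow_eq_one (H := A ⊔ C) (Or.inl ⟨hp2, hd.trans (comm_bot_iff.1 zc)⟩)
      (mem_sup_left ha) (mem_sup_right hc) ((ea_iff.1 a1).2 a ha) ((ea_iff.1 b1).2 c hc)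
  have hN := (commutator_mono h2 h2).trans hd
  have hc := comm_bot_mono zc le_rfl h2
  have eZ := ea_of_le a1 (inf_le_left : A ⊓ C ≤ A)
  obtain ⟨s, hs, c1⟩ := (Nat.dvd_prime_pow hp.1).1 (a2 ▸ card_dvd_of_le (inf_le_left : A ⊓ C ≤ A))
  have c2 := card_sup_mul_card_inf n1
  rw [a2, b2, c1] at c2
  have c3 : p ^ (7 - s) ≤ Nat.card N := by
    refine Nat.le_of_mul_le_mul_right ?_ (Nat.mul_pos hp.1.pos (pow_pos hp.1.pos s))
    rw [← mul_assoc (Nat.card N)]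
    refine le_trans (le_of_eq ?_) (c2.ge.trans (Nat.mul_le_mul_right _ h3))
    rw [← pow_succ', ← pow_add, ← pow_add]; congr 1; omega
  have e0 : N ⊓ centralizer ((A ⊓ C : Subgroup G) : Set G) = N := inf_eq_left.2 (comm_bot_iff'.1 hc)
  have gr : ∀ k, s + (k + 1) = 4 → 4 + s * k ≤ 7 - s → Mem4 p N := fun k k1 k2 =>
    jk_grow hN he k _ eZ h1 (by rw [c1, ← pow_add, k1]) (by
      rw [e0, c1, ← pow_mul, ← pow_add]
      exact (Nat.pow_le_pow_right hp.1.pos k2).trans c3)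
  interval_cases s
  · exact gr 3 rfl (by omega)
  · exact gr 2 rfl (by omega)
  · obtain ⟨D, d1, d2, d3⟩ := exists_between_card_pow (k := 5)
      ((isPGroup_sup n1 (ea_isPGroup a1) (ea_isPGroup b1)).to_le h2) h1
      (c1.le.trans (Nat.pow_le_pow_right hp.1.pos (by omega))) c3
    exact (jk_two ((commutator_mono d2 d2).trans hN) (fun x hx => he x (d2 hx)) d1
      (comm_bot_mono hc le_rfl d2) c1 d3).mono d2
  · exact gr 0 rfl (by omega)
  · exact ⟨_, h1, eZ, c1⟩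

theorem Hyp.card_le (h : Hyp p M P) {X : Subgroup G} (hX : X ≤ P) :
    Nat.card X ≤ Nat.card (M ⊓ X : Subgroup G) * p := by
  rw [← card_inf_mul_relIndex M X]
  have := (hyp_iff.1 h).2
  exact Nat.mul_le_mul_left _ (this ▸ relIndex_le_of_le_right hX (this ▸ hp.1.ne_zero))

theorem Hyp.inf_hyp {M' : Subgroup G} (h : Hyp p M P) (h' : Hyp p M' P) (hP : IsPGroup p P)
    (hne : ¬ M' ≤ M) : Hyp p (M ⊓ M') M' := by
  refine hyp_iff.2 ⟨inf_le_right, ?_⟩
  rw [inf_relIndex_right, ← relIndex_sup_of_le_normalizer (h'.1.trans (h.le_normalizer hP)),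
    h.eq_of_lt (right_lt_sup.2 hne) (sup_le h'.1 h.1), (hyp_iff.1 h).2]

theorem jk_main (hp2 : p ≠ 2) (P : Subgroup G) : IsPGroup p P → ∀ S : Subgroup G, IsPGroup p S →
    S ≤ normalizer (P : Set G) → Mem4 p P → ∃ A ≤ P, S ≤ normalizer (A : Set G) ∧
      IsElementaryAbelian p A ∧ Nat.card A = p ^ 4 := by
  induction P using subgroup_induction with | h P ih =>
  intro hP S hS hn ⟨A, a1, a2, a3⟩
  rcases a1.eq_or_lt with rfl | a4
  · exact ⟨A, le_rfl, hn, a2, a3⟩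
  have line : ∀ M₁ M₂ M : Subgroup G, Hyp p M₁ P → Hyp p M₂ P → Hyp p M P → Mem4 p M₁ →
      Mem4 p M₂ → M₁ ⊓ M₂ ≤ M → Mem4 p M := by
    intro M₁ M₂ M h1 h2 h3 g1 g2 h4
    obtain ⟨A₁, b1, b2, b3, b4⟩ := ih M₁ h1.lt (hP.to_le h1.1) P hP (h1.le_normalizer hP) g1
    obtain ⟨A₂, c1, c2, c3, c4⟩ := ih M₂ h2.lt (hP.to_le h2.1) P hP (h2.le_normalizer hP) g2
    exact (jk_pair hp2 b3 b4 c3 c4 ((b1.trans h1.1).trans c2) ((c1.trans h2.1).trans b2)
      (le_inf ((inf_le_inf b1 c1).trans h4) (inf_le_left.trans le_sup_left)) inf_le_right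
      (h3.card_le (sup_le (b1.trans h1.1) (c1.trans h2.1)))).mono inf_le_left
  obtain ⟨M₀, m1, m2⟩ := exists_hyp_ge hP a4
  have g0 : Mem4 p M₀ := ⟨A, m1, a2, a3⟩
  obtain ⟨D, d1, d2, d3⟩ := exists_min_subgroup
    (P := fun D => ∀ M, Hyp p M P → D ≤ M → Mem4 p M) (A := M₀) fun M _ h => g0.mono h
  have d4 := d1.trans m2.1
  have key : ∀ M', Hyp p M' P → Mem4 p M' → D ≤ M' := by
    intro M' h1 g1
    refine inf_eq_left.1 (d3 _ inf_le_left fun M h2 h3 => ?_)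
    by_cases e1 : D ≤ M'
    · exact d2 M h2 ((le_inf le_rfl e1).trans h3)
    by_cases e2 : M' ≤ M
    · exact g1.mono e2
    have h4 := h2.inf_hyp h1 hP e2
    have h5 : (M ⊓ M') ⊔ D < P := by
      refine lt_of_le_of_ne (sup_le (inf_le_right.trans h1.1) d4) fun e => ?_
      have k1 := card_sup_mul_card_inf' (A := M ⊓ M') (B := D) (le_normalizer_inf
        (d4.trans (h2.le_normalizer hP)) (d4.trans (h1.le_normalizer hP)))
      have k2 : M ⊓ M' ⊓ D = M' ⊓ D := le_antisymm (inf_le_inf_right _ inf_le_right)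
        (le_inf (le_inf ((inf_comm _ _).le.trans h3) inf_le_left) inf_le_right)
      rw [e, k2, ← h1.2, ← h4.2, mul_assoc, mul_assoc] at k1
      have k3 := Nat.eq_of_mul_eq_mul_left Nat.card_pos k1
      have k4 := h1.card_le d4
      rw [← k3, mul_comm _ p] at k4
      have k5 := Nat.le_of_mul_le_mul_left k4 hp.1.pos
      have k6 : 0 < Nat.card (M' ⊓ D : Subgroup G) := Nat.card_pos
      have := hp.1.one_lt
      nlinarith
    obtain ⟨N, n1, n2⟩ := exists_hyp_ge hP h5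
    refine line N M' M n2 h1 h2 (d2 N n2 (le_sup_right.trans n1)) g1 ?_
    by_contra k
    have k1 : M ⊓ M' < N ⊓ M' := lt_of_le_of_ne (le_inf (le_sup_left.trans n1) inf_le_right)
      fun e => k (e.ge.trans inf_le_left)
    have k2 := inf_eq_right.1 (h4.eq_of_lt k1 inf_le_right)
    exact e1 ((le_sup_right.trans n1).trans (eq_of_le_of_card_ge k2 (by
      exact (Nat.eq_of_mul_eq_mul_right hp.1.pos (n2.2.trans h1.2.symm)).le)).ge)
  have hO : S ≤ normalizer ((sInf {M | Hyp p M P ∧ Mem4 p M} : Subgroup G) : Set G) := by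
    refine le_normalizer_iff_forall.2 fun s hs x hx => mem_sInf.2 fun M hM => ?_
    obtain ⟨⟨h1, h2⟩, B, h3, h4, h5⟩ := hM
    have := mem_sInf.1 hx (cj s⁻¹ M) ⟨⟨cj_le_of_mem_normalizer (inv_mem (hn hs)) h1, by
      rwa [card_cj]⟩, cj s⁻¹ B, cj_mono _ h3, ea_cj _ h4, by rwa [card_cj]⟩
    rwa [mem_cj, inv_inv] at this
  obtain ⟨L, l1, l2, -, l3, -, l4⟩ := CfsgH2.exists_step_down hS hP
    (lt_of_le_of_lt (sInf_le (s := {M | Hyp p M P ∧ Mem4 p M}) ⟨m2, g0⟩) m2.lt) hO hn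
  have l5 := hyp_iff.2 ⟨l2, l3⟩
  obtain ⟨B, b1, b2⟩ := ih L l5.lt (hP.to_le l2) S hS l4
    (d2 L l5 ((le_sInf fun M hM => key M hM.1 hM.2).trans l1))
  exact ⟨B, b1.trans l2, b2⟩

end CfsgH9
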