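import Cfsg.Agent.H9.SSF3
import Cfsg.Agent.H9.Tech2
import Cfsg.Agent.H9.Gl2
import Cfsg.Agent.H9.Bal3

/-! The signalizer functor method: closures are constant on commuting graphs; killing cores. -/

set_option autoImplicit false

namespace CfsgH9

open Subgroup Cfsg

variable {G : Type*} [Group G] {p : ℕ} {A B E H K M Q S T U V W X Y : Subgroup G}
  {θ : G → Subgroup G}

theorem le_sigCl {b : G} (h1 : b ∈ B) (h2 : b ≠ 1) : θ b ≤ signalizerClosure B θ :=
  le_iSup (fun a : {a : G // a ∈ B ∧ a ≠ 1} => θ a) ⟨b, h1, h2⟩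

theorem sigCl_le (h : ∀ b ∈ B, b ≠ 1 → θ b ≤ X) : signalizerClosure B θ ≤ X :=
  iSup_le fun b => h b b.2.1 b.2.2

theorem sigCl_mono (h : B ≤ A) : signalizerClosure B θ ≤ signalizerClosure A θ :=
  sigCl_le fun _ h1 h2 => le_sigCl (h h1) h2

theorem cj_sigCl {g : G} (h : ∀ b ∈ B, b ≠ 1 → θ (g * b * g⁻¹) = cj g (θ b)) :
    cj g (signalizerClosure B θ) = signalizerClosure (cj g B) θ := by
  refine le_antisymm (map_le_iff_le_comap.2 (sigCl_le fun b h1 h2 => map_le_iff_le_comap.1 ?_))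
    (sigCl_le ?_)
  · exact (h b h1 h2).ge.trans (le_sigCl (conj_mem_cj g h1) (by simpa using h2))
  · rintro _ ⟨b, h1, rfl⟩ h2
    have h3 : b ≠ 1 := fun e => h2 (by rw [e, map_one])
    exact (h b h1 h3).le.trans (cj_mono g (le_sigCl h1 h3))

/-- elementary abelian subgroups of rank at least two of `S`. -/
def V2 (p : ℕ) (S U : Subgroup G) : Prop := U ≤ S ∧ EAk p 2 U

/-- the commuting graph on such subgroups is connected. -/
def FC (p : ℕ) (S : Subgroup G) : Prop := ∀ U V, V2 p S U → V2 p S V → Conn (V2 p S) U V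

theorem fc_of (h : IsKConnected p 2 S) : FC p S := fun U V hU hV => by
  have key : ∀ U, V2 p S U → EAk p 2 (U.subgroupOf S) := fun U hU =>
    ⟨ea_subgroupOf hU.2.1 S, by rw [card_subgroupOf_of_le hU.1]; exact hU.2.2⟩
  have := (isKConnected_iff.1 h _ _ (key U hU) (key V hV)).map (V' := V2 p S) S.subtype
    fun A hA => ⟨map_subtype_le _, hA.map S.subtype_injective A⟩
  rwa [map_subgroupOf_eq_of_le hU.1, map_subgroupOf_eq_of_le hV.1] at this

theorem pRankLE_of_equiv {G' : Type*} [Group G'] {k : ℕ} (e : G ≃* G') (h : PRankLE p k G) :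
    PRankLE p k G' := by
  rw [← pRankLE_top_subgroup, ← map_top_of_surjective e.toMonoidHom e.surjective,
    pRankLE_map_iff e.injective, pRankLE_top_subgroup]
  exact h

theorem eq_of_mem_zpowers_two {x y : G} (hx : orderOf x = 2) (h : y ∈ zpowers x) (h1 : y ≠ 1) :
    y = x := by
  obtain ⟨n, rfl⟩ := h
  have h2 : x ^ (2 : ℤ) = 1 := by rw [zpow_ofNat, ← hx, pow_orderOf_eq_one]
  rcases Int.even_or_odd' n with ⟨k, rfl | rfl⟩
  · exact absurd (by simp only [zpow_mul, h2, one_zpow]) h1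
  · simp only [zpow_add, zpow_mul, h2, one_zpow, one_mul, zpow_one]

variable [Finite G]

theorem card_mulAut_dvd_six (h : Nat.card G ≤ 4) : Nat.card (MulAut G) ∣ 6 := by
  classical
  have := Fintype.ofFinite G
  have i : Function.Injective (MonoidHom.mk' (M := MulAut G) (fun φ => Equiv.Perm.subtypePerm
      φ.toEquiv (p := fun v => ¬ v = 1) fun _ => φ.map_eq_one_iff.not) fun _ _ => rfl) := by
    refine (injective_iff_map_eq_one _).2 fun φ e => MulEquiv.ext fun v => ?_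
    by_cases h1 : v = 1
    · rw [h1, map_one, map_one]
    · exact congrArg Subtype.val (DFunLike.congr_fun e ⟨v, h1⟩)
  refine (card_dvd_of_injective _ i).trans ?_
  rw [Nat.card_eq_fintype_card, Fintype.card_perm, Fintype.card_subtype_compl,
    Fintype.card_subtype_eq, ← Nat.card_eq_fintype_card]
  exact Nat.factorial_dvd_factorial (m := _) (n := 3) (by omega)

theorem fourConnected_iff : IsFourConnected G ↔ IsKConnected 2 2 G := by
  have sub : ∀ U : Subgroup G, EAk 2 2 U → ∃ V ≤ U, IsKleinFour V := fun U hU =>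
    let ⟨V, h1, h2⟩ := exists_le_card_pow (ea_isPGroup hU.1) hU.2
    ⟨V, h1, kleinFour_iff.2 ⟨ea_of_le hU.1 h1, h2⟩⟩
  have k : ∀ V : Subgroup G, IsKleinFour V → EAk 2 2 V := fun V h =>
    ⟨(kleinFour_iff.1 h).1, (kleinFour_iff.1 h).2.ge⟩
  rw [isKConnected_iff]
  constructor
  · intro h U V hU hV
    obtain ⟨U', a1, a2⟩ := sub U hU
    obtain ⟨V', b1, b2⟩ := sub V hV
    exact ((Conn.single hU (k _ a2) (comm_bot_mono (ea_comm hU.1) le_rfl a1)).trans
      (((conn_iff_of (V := fun X => IsKleinFour X) fun _ _ => Iff.rfl).1 (h _ _ a2 b2)).mono k)).trans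
      (Conn.single (k _ b2) hV (comm_bot_mono (ea_comm hV.1) b1 le_rfl))
  · intro h U V hU hV
    refine (conn_iff_of (V := fun X => IsKleinFour X) fun _ _ => Iff.rfl).2
      ((h _ _ (k _ hU) (k _ hV)).induct (P := fun X => ∀ Y ≤ X, IsKleinFour Y →
        Conn (fun X => IsKleinFour X) U Y) (fun Y h1 h2 => Conn.single hU h2
          (comm_bot_mono (ea_comm (k _ hU).1) le_rfl h1)) (fun X Y hX _ hc ih Z h1 h2 => ?_) V le_rfl hV)
    obtain ⟨X', a1, a2⟩ := sub X hX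
    exact (ih X' a1 a2).trans (Conn.single a2 h2 (comm_bot_mono hc a1 h1))

theorem v2_sup_zpowers {x z : G} (hx : orderOf x = 2) (hz : orderOf z = 2) (h : x ∉ zpowers z)
    (hc : S ≤ centralizer ({z} : Set G)) (h1 : x ∈ S) (h2 : z ∈ S) :
    V2 2 S (zpowers z ⊔ zpowers x) := by
  have c := comm_bot_symm (comm_zpowers_iff.2 ((zpowers_le.2 h1).trans hc))
  refine ⟨sup_le (zpowers_le.2 h2) (zpowers_le.2 h1), ea_sup (ea_zpowers_of_orderOf hz)
    (ea_zpowers_of_orderOf hx) c, ?_⟩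
  rw [card_sup_zpowers hx h (le_normalizer_of_commutator_eq_bot (comm_bot_symm c) (mem_zpowers x)),
    Nat.card_zpowers, hz]
  norm_num

theorem conn_of_normal (hS : IsPGroup 2 S) (h1 : E ≤ S) (h2 : S ≤ normalizer (E : Set G))
    (hE : IsElementaryAbelian 2 E) (h8 : 2 ^ 3 ≤ Nat.card E) (hU : V2 2 S U) : Conn (V2 2 S) E U := by
  obtain ⟨z, z1, z2, z3⟩ := exists_central_prime hS h1 h2 (ne_bot_of_pow_le (by norm_num) h8)
  obtain ⟨v, v1, v2⟩ := exists_not_mem_of_card_lt (A := U) (B := zpowers z)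
    (by rw [Nat.card_zpowers, z2]; exact lt_of_lt_of_le (by norm_num) hU.2.2)
  have v3 := ea_orderOf hU.2.1 v1 fun e => v2 (e ▸ one_mem _)
  have a := v2_sup_zpowers v3 z2 v2 z3 (hU.1 v1) (h1 z1)
  have b : V2 2 S (E ⊓ centralizer ({v} : Set G)) := by
    refine ⟨inf_le_left.trans h1, ea_of_le hE inf_le_left, ?_⟩
    have := h8.trans (card_le_sq_of_invol hE (h2 (hU.1 v1))
      (by rw [← v3, pow_orderOf_eq_one]; exact one_mem _))
    obtain ⟨n, hn⟩ := IsPGroup.iff_card.1 ((ea_isPGroup hE).to_le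
      (inf_le_left : E ⊓ centralizer ({v} : Set G) ≤ E))
    rw [hn, ← pow_mul, Nat.pow_le_pow_iff_right (by norm_num)] at this
    rw [hn, Nat.pow_le_pow_iff_right (by norm_num)]
    omega
  exact ((Conn.single ⟨h1, hE, le_trans (by norm_num) h8⟩ b (comm_bot_mono (ea_comm hE)
    le_rfl inf_le_left)).trans (Conn.single b a (comm_bot_sup_right (comm_zpowers_iff.2 (b.1.trans z3))
      (comm_zpowers_iff.2 inf_le_right)))).trans (Conn.single a hU (comm_bot_symm
      (comm_bot_sup_right (comm_zpowers_iff.2 (hU.1.trans z3))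
        (comm_zpowers_iff.2 (ea_le_centralizer_singleton hU.2.1 v1)))))

theorem fc_of_normal (hS : IsPGroup 2 S) (h1 : E ≤ S) (h2 : S ≤ normalizer (E : Set G))
    (hE : IsElementaryAbelian 2 E) (h8 : 2 ^ 3 ≤ Nat.card E) : FC 2 S := fun _ _ hU hV =>
  (conn_of_normal hS h1 h2 hE h8 hU).symm.trans (conn_of_normal hS h1 h2 hE h8 hV)

theorem exists_normal_ea (h1 : S ≤ normalizer (A : Set G)) (hc : ⁅A, A⁆ = ⊥) [Fact p.Prime] {k : ℕ}
    (h : ¬ PRankLE p k A) : ∃ E ≤ A, S ≤ normalizer (E : Set G) ∧ IsElementaryAbelian p E ∧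
      p ^ (k + 1) ≤ Nat.card E :=
  let ⟨_, a, b, c⟩ := not_pRankLE_iff.1 h
  ⟨_, om_le A, le_normalizer_om h1, ea_om_of_comm hc, c.trans (card_le_of_le (ea_le_om a b))⟩

/-- a group of characteristic 2 and 2-rank at least 3 has `O_2` of rank at least 2. -/
theorem ChP.not_rank_one (h : ChP 2 H) (hA : A ≤ H) (e : IsElementaryAbelian 2 A)
    (h8 : 2 ^ 3 ≤ Nat.card A) : ¬ PRankLE 2 1 (Op 2 H) := by
  intro hr
  obtain ⟨Q, hQ⟩ : ∃ Q, Q = Op 2 H := ⟨_, rfl⟩
  have pQ : IsPGroup 2 Q := hQ ▸ Op_isPGroup 2 H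
  have nQ : H ≤ normalizer (Q : Set G) := hQ ▸ le_normalizer_Op le_normalizer
  rw [← hQ] at hr
  obtain ⟨x, hx, y, hy, g⟩ : ∃ x ∈ Q, ∃ y ∈ Q, Q ≤ zpowers x ⊔ zpowers y := by
    rcases cyc_or_quat_of_rank_one pQ hr with c | ⟨-, n, -, ⟨f⟩⟩
    · obtain ⟨x, h1, h2⟩ := exists_zpowers_of_isCyclic c
      exact ⟨x, h1, x, h1, h2.ge.trans le_sup_left⟩
    · refine ⟨_, (f.symm (.a 1)).2, _, (f.symm (.xa 0)).2, fun w hw => ?_⟩
      have k : ∀ i, ((f.symm (.a i) : Q) : G) ∈ zpowers ((f.symm (.a 1) : Q) : G) := fun i =>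
        ⟨(i.val : ℕ), by
          simp only [zpow_natCast]
          rw [← coe_pow, ← map_pow, QuaternionGroup.a_one_pow, ZMod.natCast_zmod_val]⟩
      obtain ⟨u, hu⟩ := f.symm.surjective ⟨w, hw⟩
      rw [show w = f.symm u from congrArg Subtype.val hu.symm]
      rcases u with i | i
      · exact mem_sup_left (k i)
      · rw [show QuaternionGroup.xa i = .xa 0 * .a i by simp, map_mul, coe_mul]
        exact mul_mem (mem_sup_right (mem_zpowers _)) (mem_sup_left (k i))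
  have nF := CfsgH1.normalizer_le_normalizer_frattiniOf Q
  have q1 := le_normalizer.trans nF
  obtain ⟨V, hV⟩ : ∃ V, V = im (qn (CfsgH1.frattiniOf Q)) Q := ⟨_, rfl⟩
  have c4 : Nat.card V ≤ 4 := by
    have o : ∀ x (hx : x ∈ Q), Nat.card (im (qn (CfsgH1.frattiniOf Q)) (zpowers x)) ≤ 2 := fun x hx => by
      rw [im_zpowers (q1 hx), Nat.card_zpowers]
      refine orderOf_le_of_pow_eq_one two_pos ?_
      rw [← map_pow]
      exact (mem_kr' _).1 ((kr_qn _).ge (CfsgH1.pow_mem_frattiniOf pQ hx))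
    have := card_le_of_le (im_mono (f := qn (CfsgH1.frattiniOf Q)) g)
    rw [im_sup (zpowers_le.2 (q1 hx)) (zpowers_le.2 (q1 hy))] at this
    have := pQ.isNilpotent
    refine hV ▸ ‹_ ≤ _›.trans ((Nat.le_of_dvd (Nat.mul_pos Nat.card_pos Nat.card_pos) (card_sup_dvd
      (le_normalizer_of_commutator_eq_bot ((im_qn_comm_iff (zpowers_le.2 (q1 hx)) (zpowers_le.2
        (q1 hy))).2 ((commutator_mono (zpowers_le.2 hx) (zpowers_le.2 hy)).trans
          (CfsgH1.commutator_le_frattiniOf Q)))))).trans (Nat.mul_le_mul (o x hx) (o y hy)))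
  have d6 := card_mulAut_dvd_six c4
  have aN := hA.trans (nQ.trans nF)
  have aV : im (qn (CfsgH1.frattiniOf Q)) A ≤ normalizer (V : Set _) :=
    hV ▸ im_le_normalizer (hA.trans nQ)
  have k1 : A ⊓ pre (qn (CfsgH1.frattiniOf Q)) (centralizer (V : Set _)) ≤ Q := by
    rw [hV]
    exact (h.le_Op_of_comm_le_frattini (inf_le_left.trans hA)
      (hQ ▸ commutator_le_of_le_Cmod q1 inf_le_right)).trans hQ.ge
  have k2 := (pRankLE_iff.1 hr) _ k1 (ea_of_le e inf_le_left)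
  let F := V.normalizerMonoidHom.comp (((qn (CfsgH1.frattiniOf Q)).comp (inclusion aN)).codRestrict _
    fun a => aV (mem_im_of_mem _ a.2))
  have k3 : Nat.card F.ker ≤ 2 := by
    rw [← card_map_of_injective A.subtype_injective]
    refine (card_le_of_le ?_).trans k2
    rintro _ ⟨a, ha, rfl⟩
    exact ⟨a.2, (mem_pre' (aN a.2)).2 ((kr_normalizerMonoidHom V).le ((mem_kr' _).2 ha))⟩
  have k4 := F.ker.card_mul_index
  rw [index_ker] at k4
  obtain ⟨n, hn⟩ := IsPGroup.iff_card.1 ((ea_isPGroup e).of_surjective F.rangeRestrict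
    F.rangeRestrict_surjective)
  have k5 := (card_subgroup_dvd_card F.range).trans d6
  rw [hn] at k4 k5
  have : n ≤ 1 := by
    by_contra hc
    exact absurd ((pow_dvd_pow 2 (by omega : 2 ≤ n)).trans k5) (by norm_num)
  have := Nat.mul_le_mul k3 (Nat.pow_le_pow_right two_pos this)
  omega

variable [hp : Fact p.Prime]

theorem Cpl.mem_sigCl (c : Cpl p A θ) (h : SF p A θ) : Mem p A θ (signalizerClosure A θ) :=
  let ⟨_, h1, h2⟩ := c
  h1.of_le (sigCl_le h2) fun g hg => cj_eq_iff.1 (by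
    rw [cj_sigCl fun b h1 h2 => by
      rw [cj_eq_of_mem_normalizer (h.inv b h1 h2 hg), ea_mul_comm h.ea hg h1, mul_inv_cancel_right],
      cj_eq_of_mem hg])

theorem Cpl.sigCl_eq (c : Cpl p A θ) (h : SF p A θ) (hB : B ≤ A) (h2 : p ^ 2 ≤ Nat.card B) :
    signalizerClosure B θ = signalizerClosure A θ :=
  have m := c.mem_sigCl h
  le_antisymm (sigCl_mono hB) (ea_le_of_centralizers (ea_of_le h.ea hB) h2 (hB.trans m.inv) m.cop
    fun b h1 h2 => (m.le b (hB h1) h2).trans (le_sigCl h1 h2))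

theorem sigCl_eq_of_comm (hU : EAk p 2 U) (hV : EAk p 2 V) (hc : ⁅U, V⁆ = ⊥)
    (h : p ^ 3 ≤ Nat.card (U ⊔ V : Subgroup G) → SF p (U ⊔ V) θ ∧ Cpl p (U ⊔ V) θ) :
    signalizerClosure U θ = signalizerClosure V θ := by
  by_cases h3 : p ^ 3 ≤ Nat.card (U ⊔ V : Subgroup G)
  · rw [(h h3).2.sigCl_eq (h h3).1 le_sup_left hU.2, (h h3).2.sigCl_eq (h h3).1 le_sup_right hV.2]
  obtain ⟨n, hn⟩ := IsPGroup.iff_card.1 (ea_isPGroup (ea_sup hU.1 hV.1 hc))
  have : Nat.card (U ⊔ V : Subgroup G) ≤ p ^ 2 := by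
    rw [hn, Nat.pow_le_pow_iff_right hp.out.one_lt] at h3 ⊢
    omega
  rw [(eq_of_le_of_card_ge le_sup_left (this.trans hU.2)).trans
    (eq_of_le_of_card_ge (K := U ⊔ V) le_sup_right (this.trans hV.2)).symm]

omit hp in
theorem cj_core (g a : G) : Opp p (centralizer ({g * a * g⁻¹} : Set G)) =
    cj g (Opp p (centralizer ({a} : Set G))) := by rw [cj_Opp, cj_centralizer_singleton]

theorem sf_core (hA : IsElementaryAbelian p A)
    (h : ∀ a ∈ A, a ≠ 1 → PLay p (centralizer ({a} : Set G)) = ⊥ ∧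
      Group.IsSolvable (Opp p (centralizer ({a} : Set G)))) :
    SF p A fun a => Opp p (centralizer ({a} : Set G)) :=
  ⟨hA, fun _ _ _ => Opp_le p _, fun _ _ _ => Opp_coprime p _,
    fun _ h1 _ => le_normalizer_Opp ((ea_le_centralizer_singleton hA h1).trans le_normalizer),
    fun _ h1 h2 b h3 h4 => Opp_centralizer_inf_le (ea_orderOf hA h1 h2)
      (ea_le_centralizer_singleton hA h3 h1) (h b h3 h4).1, fun a h1 h2 => (h a h1 h2).2⟩

omit hp in
/-- the closure of the core functor on a connected Sylow 2-subgroup. -/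
theorem exists_core_W (hA : A ≤ S) (e : IsElementaryAbelian 2 A) (h8 : 2 ^ 3 ≤ Nat.card A)
    (hc : FC 2 S) (hL : ∀ t : G, orderOf t = 2 → PLay 2 (centralizer ({t} : Set G)) = ⊥) :
    ∃ W : Subgroup G, (Nat.card W).Coprime 2 ∧ ∀ V, V2 2 S V →
      signalizerClosure V (fun a => Opp 2 (centralizer ({a} : Set G))) = W := by
  have key : ∀ A : Subgroup G, IsElementaryAbelian 2 A → 2 ^ 3 ≤ Nat.card A →
      SF 2 A (fun a => Opp 2 (centralizer ({a} : Set G))) ∧
        Cpl 2 A fun a => Opp 2 (centralizer ({a} : Set G)) := fun A e h8 =>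
    have s := sf_core e fun a h1 h2 => ⟨hL a (ea_orderOf e h1 h2), Opp_two_solvable _⟩
    ⟨s, s.cpl_of_lt h8 (by norm_num)⟩
  exact ⟨_, ((key A e h8).2.mem_sigCl (key A e h8).1).cop, fun V hV =>
    (hc A V ⟨hA, e, le_trans (by norm_num) h8⟩ hV).induct (P := fun V => signalizerClosure V _ = _) rfl
      fun X Y hX hY c ih => (sigCl_eq_of_comm hX.2 hY.2 c (key _ (ea_sup hX.2.1 hY.2.1 c))).symm.trans ih⟩

omit hp in
theorem exists_v2_mem (hS : IsPGroup 2 S) (hU : V2 2 S U) {t : G} (h1 : t ∈ S) (h2 : orderOf t = 2) :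
    ∃ V, V2 2 S V ∧ t ∈ V := by
  obtain ⟨z, z1, z2, z3⟩ := exists_central_prime hS le_rfl le_normalizer
    (ne_bot_of_le_ne_bot (ne_bot_of_pow_le (by norm_num) hU.2.2) hU.1)
  by_cases h : t ∈ zpowers z
  · exact ⟨U ⊔ zpowers t, ⟨sup_le hU.1 (zpowers_le.2 h1), ea_sup hU.2.1 (ea_zpowers_of_orderOf h2)
      (comm_bot_mono (comm_zpowers_iff.2 (hU.1.trans z3)) le_rfl (zpowers_le.2 h)),
      hU.2.2.trans (card_le_of_le le_sup_left)⟩, mem_sup_right (mem_zpowers t)⟩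
  · exact ⟨_, v2_sup_zpowers h2 z2 h z3 h1 z1, mem_sup_right (mem_zpowers t)⟩

omit hp in
theorem core_kill (hB : ∀ M : Subgroup G, SPE 2 M ⊤ → Opp 2 M ≤ Opp 2 ⊤)
    (hO : Opp 2 (⊤ : Subgroup G) = ⊥) (hS : Syl 2 S ⊤) (hA : A ≤ S) (e : IsElementaryAbelian 2 A)
    (h8 : 2 ^ 3 ≤ Nat.card A) (hc : FC 2 S)
    (hL : ∀ t : G, orderOf t = 2 → PLay 2 (centralizer ({t} : Set G)) = ⊥) {t : G}
    (ht : orderOf t = 2) : Opp 2 (centralizer ({t} : Set G)) = ⊥ := by
  obtain ⟨W, w1, w2⟩ := exists_core_W hA e h8 hc hL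
  have vA : V2 2 S A := ⟨hA, e, le_trans (by norm_num) h8⟩
  have n1 : ∀ V g, V2 2 S V → cj g V ≤ S → g ∈ normalizer (W : Set G) := fun V g h1 h2 => by
    rw [← cj_eq_iff, ← w2 V h1, cj_sigCl fun b _ _ => cj_core g b, w2 _ ⟨h2, h1.2.cj g V⟩, w2 V h1]
  have n2 : ∀ x ∈ S, orderOf x = 2 → Opp 2 (centralizer ({x} : Set G)) ≤ W := fun x h1 h2 =>
    let ⟨V, a, b⟩ := exists_v2_mem hS.pg vA h1 h2
    w2 V a ▸ le_sigCl (θ := fun a => Opp 2 (centralizer ({a} : Set G))) b (ne_one_of_orderOf_prime h2)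
  have n3 : ∀ Q ≤ S, ¬ PRankLE 2 1 Q → normalizer (Q : Set G) ≤ normalizer (W : Set G) := by
    intro Q h1 h2 g hg
    obtain ⟨V, a, b, c⟩ := not_pRankLE_iff.1 h2
    exact n1 V g ⟨a.trans h1, b, c⟩ ((cj_le_of_mem_normalizer hg a).trans h1)
  have n4 : ∀ x ∈ S, orderOf x = 2 → Syl 2 (S ⊓ centralizer ({x} : Set G)) (centralizer ({x} : Set G)) →
      centralizer ({x} : Set G) ≤ normalizer (W : Set G) := by
    intro x h1 h2 h3
    obtain ⟨H, hH⟩ : ∃ H, H = centralizer ({x} : Set G) := ⟨_, rfl⟩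
    have l := hH ▸ hL x h2
    rw [← hH] at h3 ⊢
    have q := h3.inf_normal (Oppp_le (p := 2) H) (le_normalizer_Oppp le_normalizer)
    have f := q.frattini_sup (Oppp_le H) (le_normalizer_Oppp le_normalizer)
    have qS : S ⊓ H ⊓ Oppp 2 H ≤ S := inf_le_left.trans inf_le_left
    suffices r : ¬ PRankLE 2 1 (S ⊓ H ⊓ Oppp 2 H : Subgroup G) by
      refine f.ge.trans (sup_le ((syl_Oppp_sup q).ge.trans (sup_le (le_normalizer.trans (n3 _ qS r))
        ((hH ▸ n2 x h1 h2 : Opp 2 H ≤ W).trans le_normalizer))) (inf_le_left.trans (n3 _ qS r)))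
    intro r
    have xH : x ∈ H := hH ▸ mem_centralizer_singleton_iff.2 rfl
    have sub : ∀ y ∈ S ⊓ H, y ∈ centralizer ((S ⊓ H : Subgroup G) : Set G) → y ∈ S ⊓ H ⊓ Oppp 2 H :=
      fun y a b => ⟨a, (centralizer_le_Oppp_iff q).2 l ⟨a.2, centralizer_anti inf_le_left b⟩⟩
    have xc : x ∈ centralizer ((S ⊓ H : Subgroup G) : Set G) :=
      mem_centralizer_iff_le.2 (inf_le_right.trans hH.le)
    have e1 : S ⊓ H = S := by
      by_contra hne
      refine (lt_normalizer_inf hS.pg (lt_of_le_of_ne inf_le_left hne)).not_ge fun g hg =>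
        mem_inf.2 ⟨hg.2, ?_⟩
      have y1 := (mem_normalizer_iff.1 hg.1 x).1 ⟨h1, xH⟩
      have y2 := (mem_normalizer_iff.1 (normalizer_le_normalizer_centralizer _ hg.1) x).1 xc
      have y3 : orderOf (g * x * g⁻¹) = 2 := by rw [orderOf_conj, h2]
      rw [hH, mem_centralizer_singleton_iff, ← mul_inv_eq_iff_eq_mul]
      exact eq_of_mem_zpowers_two h2 (mem_zpowers_of_rank_one r (sub _ y1 y2) (sub _ ⟨h1, xH⟩ xc)
        (by rw [← y3, pow_orderOf_eq_one]) h2 (xc _ y1)) (ne_one_of_orderOf_prime y3)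
    have aH : A ≤ H := hA.trans (e1.ge.trans inf_le_right)
    refine (PLay_eq_bot_iff_chP.1 l).not_rank_one le_top (ea_im (qpp 2 H) e)
      (by rwa [card_im_qpp (ea_isPGroup e) aH]) ?_
    rw [← syl_Oppp_im q]
    exact pRankLE_of_equiv (imEquiv _ (q.le.trans (Oppp_le H)) (by
      rw [kr_qpp, inf_comm]; exact inf_eq_bot_of_p_pp q.pg (Opp_coprime 2 H))) r
  have n5 : ∀ x ∈ S, orderOf x = 2 → centralizer ({x} : Set G) ≤ normalizer (W : Set G) := by
    intro x h1 h2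
    obtain ⟨T, t1, t2⟩ := exists_syl_ge (hS.pg.to_le inf_le_left)
      (inf_le_right : S ⊓ centralizer ({x} : Set G) ≤ _)
    obtain ⟨g, -, t3⟩ := hS.exists_cj_le t1.pg le_top
    obtain ⟨V, v1, v2⟩ := exists_v2_mem hS.pg vA h1 h2
    have g1 := n1 V g v1 ((cj_mono g ((le_inf v1.1 (ea_le_centralizer_singleton v1.2.1 v2)).trans
      t2)).trans t3)
    have t4 := t1.cj g
    rw [cj_centralizer_singleton] at t4
    have := cj_mono g⁻¹ (n4 _ (t3 (conj_mem_cj g (t2 ⟨h1, mem_centralizer_singleton_iff.2 rfl⟩)))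
      (by rw [orderOf_conj, h2]) (by rwa [t4.eq_of_le (hS.pg.to_le inf_le_left) (le_inf t3 t4.le)
        inf_le_right]))
    rwa [← cj_centralizer_singleton, cj_inv_cj, cj_eq_of_mem (inv_mem g1)] at this
  have n6 := n3 S le_rfl (not_pRankLE_iff.2 ⟨A, hA, e, vA.2.2⟩)
  have w0 : W = ⊥ := by
    by_cases hM : normalizer (W : Set G) = ⊤
    · exact le_bot_iff.1 (hO ▸ le_Opp (Sn.of_normal le_top hM.ge) w1)
    · exact le_bot_iff.1 (hO ▸ (le_Opp (Sn.of_normal le_normalizer le_rfl) w1).trans (hB _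
        (spe_of_centralizer (lt_top_iff_ne_top.2 hM) (hS.of_le (le_normalizer.trans n6) le_top)
          (inf_le_right.trans n6) fun x a b => inf_le_right.trans (n5 x a b))))
  obtain ⟨g, -, h1⟩ := hS.exists_cj_le (isPGroup_zpowers_of_prime ht) le_top
  have := n2 _ (h1 (conj_mem_cj g (mem_zpowers t))) (by rw [orderOf_conj, ht])
  rwa [w0, le_bot_iff, cj_core, cj_eq_bot] at this

end CfsgH9
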