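import Mathlib

/-! Kreknin's and Kostrikin's theorems for graded Leibniz rings with trivial zero component. -/

set_option autoImplicit false
open Submodule Function Pointwise

namespace CfsgKK

variable {A L : Type*} [CommRing A] [AddCommGroup L] [Module A L] {ι : Type*} [AddCommGroup ι]
  (b : L →ₗ[A] L →ₗ[A] L) {M N U V W : ι → Submodule A L}

def Leib : Prop := ∀ x y z, b (b x y) z = b (b x z) y + b x (b y z)

def Br (U V W : ι → Submodule A L) : Prop := ∀ i j, ∀ x ∈ U i, ∀ y ∈ V j, b x y ∈ W (i + j)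

def st (U V : ι → Submodule A L) (k : ι) : Submodule A L := ⨆ i, map₂ b (U i) (V (k - i))

def D (M : ι → Submodule A L) : ι → Submodule A L := st b M M

def R (M U : ι → Submodule A L) : ι → Submodule A L := st b U M

variable {b}

theorem br_st : Br b U V (st b U V) := fun i j x hx y hy =>
  mem_iSup_of_mem i (apply_mem_map₂ b hx (by simpa using hy))

theorem st_le' {k : ι} {P : Submodule A L} (h : ∀ i j, i + j = k → ∀ x ∈ U i, ∀ y ∈ V j, b x y ∈ P) :
    st b U V k ≤ P := iSup_le fun i => map₂_le.2 (h i _ (by simp))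

theorem st_le (h : Br b U V W) : st b U V ≤ W := fun _ => st_le' fun i j e => e ▸ h i j

theorem Br.mono {U' V' W' : ι → Submodule A L} (h : Br b U V W) (h1 : U' ≤ U) (h2 : V' ≤ V) (h3 : W ≤ W') :
    Br b U' V' W' := fun i j x hx y hy => h3 _ (h i j x (h1 i hx) y (h2 j hy))

theorem der_le (h : Br b M M M) (k : ℕ) : (D b)^[k] M ≤ M ∧ Br b ((D b)^[k] M) ((D b)^[k] M) ((D b)^[k] M) := by
  induction k with
  | zero => exact ⟨le_rfl, h⟩
  | succ k ih =>
    rw [iterate_succ_apply']
    exact ⟨(st_le ih.2).trans ih.1, br_st.mono (st_le ih.2) (st_le ih.2) le_rfl⟩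

theorem eq_bot_of_le (h : U ≤ M) (h0 : M 0 = ⊥) : U 0 = ⊥ := eq_bot_iff.2 (h0 ▸ h 0)

theorem kreknin (hb : Leib b) {n : ℕ} [NeZero n] (s : ℕ) : ∀ M N : ZMod n → Submodule A L, Br b M M M → M 0 = ⊥ →
    Br b N N N → (∀ i, s < i.val → M i ≤ N i) → (D b)^[2 ^ s - 1] M ≤ N := by
  induction s with
  | zero =>
    intro M N _ h0 _ h i
    by_cases e : i = 0
    · rw [e]; exact h0.le.trans bot_le
    · exact h i (ZMod.val_pos.2 e)
  | succ s ih =>
    intro M N hM h0 hN h
    have e : 2 ^ (s + 1) - 1 = 2 ^ s - 1 + (2 ^ s - 1 + 1) := by have := Nat.one_le_two_pow (n := s); omega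
    obtain ⟨l, c⟩ := der_le hM (2 ^ s - 1 + 1)
    rw [e, iterate_add_apply]
    refine ih _ N c (eq_bot_of_le l h0) hN fun i hi => ?_
    rcases (Nat.succ_le_of_lt hi).lt_or_eq with hi' | hi'
    · exact (l i).trans (h i hi')
    let T := st b M fun j => if s < j.val then M j else ⊥
    let Y : ZMod n → Submodule A L := fun j => M j ⊓ ⨅ i, ⨅ x ∈ M i, (T (i + j)).comap (b x)
    have mY : ∀ j y, y ∈ Y j ↔ y ∈ M j ∧ ∀ i, ∀ x ∈ M i, b x y ∈ T (i + j) := fun j y => by simp [Y]
    have kY := ih M Y hM h0 (fun j k y hy z hz => (mY _ _).2 ⟨hM _ _ _ hy.1 _ hz.1, fun i x hx => by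
        rw [eq_sub_of_add_eq' (hb x y z).symm]
        exact sub_mem (add_assoc i j k ▸ ((mY _ _).1 hz).2 _ _ (hM _ _ _ hx _ hy.1))
          ((by ring : i + k + j = i + (j + k)) ▸ ((mY _ _).1 hy).2 _ _ (hM _ _ _ hx _ hz.1))⟩)
      fun j hj y hy => (mY _ _).2 ⟨hy, fun i x hx => br_st _ _ _ hx _ (by simpa [hj] using hy)⟩
    rw [iterate_succ_apply']
    refine (st_le (W := T) (fun i j x hx y hy => ((mY _ _).1 (kY j hy)).2 i x ((der_le hM _).1 i hx)) i).trans
      (st_le' fun j k e x hx y hy => ?_)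
    split_ifs at hy with hk
    swap
    · rw [(mem_bot A).1 hy, map_zero]; exact zero_mem _
    by_cases j0 : j = 0
    · rw [j0, h0] at hx
      rw [(mem_bot A).1 hx, map_zero]; exact zero_mem _
    have v := ZMod.val_add j k
    have := ZMod.val_pos.2 j0
    have := ZMod.val_lt j
    have := ZMod.val_lt k
    rw [e] at v
    have : n ≤ j.val + k.val := by
      by_contra z
      rw [Nat.mod_eq_of_lt (by omega)] at v
      omega
    rw [Nat.mod_eq_sub_mod this, Nat.mod_eq_of_lt (by omega)] at v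
    exact e ▸ hN _ _ _ (h j (by omega) hx) _ (h k (by omega) hy)

variable (b) in
def T : List (ι × L) → L →ₗ[A] L
  | [] => LinearMap.id
  | y :: l => T l ∘ₗ b.flip y.2

def dg (l : List (ι × L)) : ι := (l.map Prod.fst).sum

theorem T_mem (h : Br b W M W) (l : List (ι × L)) (hl : ∀ y ∈ l, y.2 ∈ M y.1) :
    ∀ d, ∀ a ∈ W d, T b l a ∈ W (d + dg l) := by
  induction l with
  | nil => intro d a ha; simpa [dg, T] using ha
  | cons y l ih =>
    intro d a ha
    have := ih (fun z hz => hl z (List.mem_cons_of_mem _ hz)) _ _ (h _ _ a ha _ (hl y List.mem_cons_self))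
    simpa [dg, T, add_assoc] using this

theorem T_zero (h0 : M 0 = ⊥) (l : List (ι × L)) (hl : ∀ y ∈ l, y.2 ∈ M y.1) (h : 0 ∈ l.map Prod.fst) :
    ∀ a, T b l a = 0 := by
  induction l with
  | nil => simp at h
  | cons y l ih =>
    intro a
    rcases List.mem_cons.1 h with e | e
    · have := hl y List.mem_cons_self
      rw [← show 0 = y.1 from e, h0] at this
      simp [T, (mem_bot A).1 this]
    · exact ih (fun z hz => hl z (List.mem_cons_of_mem _ hz)) e _

theorem iter_le (k : ℕ) : ∀ U : ι → Submodule A L, (∀ l : List (ι × L), (∀ y ∈ l, y.2 ∈ M y.1) → l.length = k →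
    ∀ d, ∀ a ∈ U d, T b l a ∈ W (d + dg l)) → (R b M)^[k] U ≤ W := by
  induction k with
  | zero => intro U h d a ha; simpa [dg, T] using h [] (by simp) rfl d a ha
  | succ k ih =>
    intro U h
    rw [iterate_succ_apply]
    refine ih _ fun l hl e d => st_le' (P := (W (d + dg l)).comap (T b l)) fun i j e' x hx y hy => ?_
    have := h ((j, y) :: l) (by simpa using ⟨hy, fun a c z => hl (a, c) z⟩) (by simpa using e) i x hx
    simpa [dg, T, ← add_assoc, e'] using this

theorem T_move (hb : Leib b) (hU : Br b U M U) (hW : Br b W M W) (h : Br b U (D b M) W) {e : ι} {y : L}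
    (hy : y ∈ M e) (l : List (ι × L)) (hl : ∀ y ∈ l, y.2 ∈ M y.1) :
    ∀ d, ∀ a ∈ U d, T b l (b a y) - b (T b l a) y ∈ W (d + e + dg l) := by
  induction l with
  | nil => intro d a _; simp [T]
  | cons z l ih =>
    intro d a ha
    have hl' := fun z hz => hl z (List.mem_cons_of_mem _ hz)
    have hz := hl z List.mem_cons_self
    have h1 := ih hl' _ _ (hU _ _ a ha _ hz)
    have h2 := T_mem hW l hl' _ _ (h _ _ a ha _ (br_st _ _ y hy _ hz))
    have e1 : d + e + dg (z :: l) = d + z.1 + e + dg l := by simp [dg]; abel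
    have e2 : d + (e + z.1) + dg l = d + z.1 + e + dg l := by abel
    rw [e2] at h2
    rw [e1]
    convert add_mem h1 h2 using 1
    simp only [T, LinearMap.comp_apply, LinearMap.flip_apply]
    rw [hb a y, map_add]; abel

def SS [DecidableEq ι] : List ι → Finset ι
  | [] => {0}
  | e :: l => SS l + {0, e}

theorem T_ss [DecidableEq ι] (hb : Leib b) (hU : Br b U M U) (h0 : U 0 = ⊥) (hW : Br b W M W)
    (h : Br b U (D b M) W) (l : List (ι × L)) (hl : ∀ y ∈ l, y.2 ∈ M y.1) :
    ∀ d, ∀ a ∈ U d, -d ∈ SS (l.map Prod.fst) → T b l a ∈ W (d + dg l) := by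
  induction l with
  | nil =>
    intro d a ha e
    rw [show d = 0 by simpa [SS] using e, h0] at ha
    simp [(mem_bot A).1 ha]
  | cons y l ih =>
    intro d a ha e
    have hl' := fun z hz => hl z (List.mem_cons_of_mem _ hz)
    have hy := hl y List.mem_cons_self
    have e1 : d + dg (y :: l) = d + y.1 + dg l := by simp [dg, add_assoc]
    obtain ⟨u, hu, v, hv, e⟩ := Finset.mem_add.1 e
    rw [e1]
    change T b l (b a y.2) ∈ _
    rcases Finset.mem_insert.1 hv with rfl | hv
    · have := add_mem (T_move hb hU hW h hy l hl' d a ha) ((by abel : d + dg l + y.1 = d + y.1 + dg l) ▸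
        hW _ _ _ (ih hl' d a ha (by rwa [← e, add_zero])) _ hy)
      simpa using this
    · rw [Finset.mem_singleton.1 hv] at e
      exact ih hl' _ _ (hU _ _ a ha _ hy) (by rwa [neg_add, ← e, add_neg_cancel_right])

theorem card_SS {p : ℕ} (hp : p.Prime) (l : List (ZMod p)) (h : 0 ∉ l) :
    (SS l).Nonempty ∧ min p (l.length + 1) ≤ (SS l).card := by
  induction l with
  | nil => simp [SS]
  | cons e l ih =>
    obtain ⟨h1, h2⟩ := ih fun z => h (List.mem_cons_of_mem _ z)
    have := ZMod.cauchy_davenport hp h1 (Finset.insert_nonempty 0 {e})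
    rw [Finset.card_pair (a := 0) (b := e) fun z => h (z ▸ List.mem_cons_self)] at this
    exact ⟨h1.add (Finset.insert_nonempty _ _), by simp only [SS, List.length_cons]; omega⟩

theorem key (hb : Leib b) {p : ℕ} [hp : Fact p.Prime] {M U W : ZMod p → Submodule A L} (hM : M 0 = ⊥)
    (hU : Br b U M U) (h0 : U 0 = ⊥) (hW : Br b W M W) (h : Br b U (D b M) W) : (R b M)^[p - 1] U ≤ W :=
  iter_le _ _ fun l hl e d a ha => by
    by_cases z : 0 ∈ l.map Prod.fst
    · rw [T_zero hM l hl z]; exact zero_mem _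
    refine T_ss hb hU h0 hW h l hl d a ha ?_
    have c := (card_SS hp.out _ z).2
    have := hp.out.pos
    rw [List.length_map, e] at c
    rw [Finset.eq_univ_of_card (SS (l.map Prod.fst)) (le_antisymm (Finset.card_le_univ _) (by rw [ZMod.card]; omega))]
    exact Finset.mem_univ _

theorem R_mono (k : ℕ) (h : U ≤ V) : (R b M)^[k] U ≤ (R b M)^[k] V :=
  Monotone.iterate (f := R b M) (fun _ _ h => st_le (br_st.mono h le_rfl le_rfl)) k h

theorem br_D : Br b M M (D b M) := br_st

theorem br_R : Br b U M (R b M U) := br_st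

theorem Br.step (hb : Leib b) (h1 : Br b U M U) (h2 : Br b V M V) : Br b (st b U V) M (st b U V) :=
  fun i j x hx z hz => st_le' (P := Submodule.comap (b.flip z) (st b U V (i + j))) (fun u v e x hx y hy => by
    rw [mem_comap, LinearMap.flip_apply, hb, ← e]
    refine add_mem ?_ ?_
    · rw [add_right_comm]; exact br_st _ _ _ (h1 _ _ x hx z hz) y hy
    · rw [add_assoc]; exact br_st _ _ x hx _ (h2 _ _ y hy z hz)) hx

theorem R_le (hM : Br b M M M) (h1 : U ≤ M) (h2 : V ≤ M) (k : ℕ) : (R b V)^[k] U ≤ M := by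
  induction k with
  | zero => exact h1
  | succ k ih => rw [iterate_succ_apply']; exact st_le (hM.mono ih h2 le_rfl)

theorem R_br (hb : Leib b) (h1 : Br b U M U) (h2 : Br b V M V) (k : ℕ) :
    Br b ((R b V)^[k] U) M ((R b V)^[k] U) := by
  induction k with
  | zero => exact h1
  | succ k ih => rw [iterate_succ_apply']; exact ih.step hb h2

theorem R_mul (hb : Leib b) {p : ℕ} [hp : Fact p.Prime] {M : ZMod p → Submodule A L} (hM : Br b M M M)
    (h0 : M 0 = ⊥) (k : ℕ) : (R b M)^[k * (p - 1)] (D b M) ≤ (R b (D b M))^[k] (D b M) := by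
  have l : D b M ≤ M := st_le hM
  have c : Br b (D b M) M (D b M) := br_D.mono l le_rfl le_rfl
  induction k with
  | zero => rw [zero_mul, iterate_zero_apply, iterate_zero_apply]
  | succ k ih =>
    rw [add_mul, one_mul, add_comm, iterate_add_apply]
    refine (R_mono _ ih).trans (key hb h0 (R_br hb c c k) (eq_bot_of_le (R_le hM l l k) h0) (R_br hb c c _) ?_)
    rw [iterate_succ_apply']; exact br_R

theorem kostrikin (hb : Leib b) {p : ℕ} [hp : Fact p.Prime] (s : ℕ) : ∀ M : ZMod p → Submodule A L,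
    Br b M M M → M 0 = ⊥ → (D b)^[s] M ≤ ⊥ → (R b M)^[∑ i ∈ Finset.range s, (p - 1) ^ i] M ≤ ⊥ := by
  induction s with
  | zero => intro M _ _ h; rw [Finset.sum_range_zero, iterate_zero_apply]; rwa [iterate_zero_apply] at h
  | succ s ih =>
    intro M hM h0 h
    have l : D b M ≤ M := st_le hM
    rw [iterate_succ_apply] at h
    have h1 := ih (D b M) (br_D.mono l l le_rfl) (eq_bot_of_le l h0) h
    have e : ∑ i ∈ Finset.range (s + 1), (p - 1) ^ i = (∑ i ∈ Finset.range s, (p - 1) ^ i) * (p - 1) + 1 := by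
      rw [Finset.sum_range_succ', pow_zero, Finset.sum_mul]; simp only [pow_succ]
    rw [e, iterate_add_apply, iterate_one]
    exact (R_mul hb hM h0 _).trans h1

theorem hkk (hb : Leib b) {p : ℕ} [hp : Fact p.Prime] {M : ZMod p → Submodule A L} (hM : Br b M M M)
    (h0 : M 0 = ⊥) : (R b M)^[∑ i ∈ Finset.range (2 ^ (p - 1) - 1), (p - 1) ^ i] M ≤ ⊥ :=
  kostrikin hb _ M hM h0 (kreknin hb _ M ⊥ hM h0 (fun _ _ x hx y _ => by simp [(mem_bot A).1 hx])
    fun i hi => by have := ZMod.val_lt i; omega)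

theorem neumann (hb : Leib b) {M : ZMod 3 → Submodule A L} (hM : Br b M M M) (h0 : M 0 = ⊥) :
    (R b M)^[2] M ≤ ⊥ := by
  refine fun k => st_le' fun i l _ x hx z hz => st_le' (P := Submodule.comap (b.flip z) ⊥)
    (fun u v _ x hx y hy => ?_) hx
  have z0 : ∀ i, i = 0 → ∀ w ∈ M i, w = 0 := fun i e w h => by rwa [e, h0] at h
  have : ∀ u v l : ZMod 3, u + v + l = 0 ∨ u + v = 0 ∨ u = 0 ∨ v = 0 ∨ l = 0 ∨ (u + l = 0 ∧ v + l = 0) := by decide
  change b (b x y) z = 0
  rcases this u v l with e | e | e | e | e | e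
  · exact z0 _ e _ (hM _ _ _ (hM _ _ x hx y hy) z hz)
  · simp [z0 _ e _ (hM _ _ x hx y hy)]
  · simp [z0 _ e _ hx]
  · simp [z0 _ e _ hy]
  · simp [z0 _ e _ hz]
  · rw [hb]; simp [z0 _ e.1 _ (hM _ _ x hx z hz), z0 _ e.2 _ (hM _ _ y hy z hz)]

/-- total lower central series -/
theorem tot (h : ⨆ i, M i = ⊤) (k : ℕ) : (fun P => map₂ b P ⊤)^[k] ⊤ ≤ ⨆ i, (R b M)^[k] M i := by
  induction k with
  | zero => exact h.ge
  | succ k ih =>
    rw [iterate_succ_apply', iterate_succ_apply', ← h]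
    refine (map₂_le_map₂_left (h ▸ ih)).trans ?_
    rw [map₂_iSup_left]
    refine iSup_le fun i => ?_
    rw [map₂_iSup_right]
    exact iSup_le fun j => map₂_le.2 fun x hx y hy => mem_iSup_of_mem _ (br_st _ _ x hx y hy)

end CfsgKK
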