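import Cfsg.Agent.H9.Lie1
import Cfsg.Agent.L0.HP

/-! The graded ring of the lower central series, with coefficients, and the class bound for
fixed point free automorphisms of prime order. -/

set_option autoImplicit false
open Submodule Function Finsupp
open scoped commutatorElement IsMulCommutative

namespace CfsgKK

section eig
variable {A L : Type*} [CommRing A] [AddCommGroup L] [Module A L] {b : L →ₗ[A] L →ₗ[A] L}

theorem exists_eig [IsDomain A] {p N : ℕ} [hp : Fact p.Prime] {ω : A} (hω : IsPrimitiveRoot ω p)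
    (α : Module.End A L) (h1 : ∀ x y, α (b x y) = b (α x) (α y)) (h2 : α ^ p = 1)
    (h3 : ∀ x, ∑ k ∈ Finset.range p, (α ^ k) x = 0) (hc : p.Coprime N) (hN : ∀ x : L, N • x = 0) :
    ∃ M : ZMod p → Submodule A L, Br b M M M ∧ M 0 = ⊥ ∧ ⨆ i, M i = ⊤ := by
  let ψ := AddChar.zmodChar p ((IsPrimitiveRoot.iff_def ω p).mp hω).left
  have hψ : ψ.IsPrimitive := AddChar.zmodChar_primitive_of_primitive_root p hω
  have dv : ∀ (P : Submodule A L) (x : L), p • x ∈ P → x ∈ P := fun P x h => by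
    obtain ⟨u, v, e⟩ := Nat.isCoprime_iff_coprime.2 hc
    have : x = u • p • x := calc
      x = (u * p + v * N) • x := by rw [e, one_zsmul]
      _ = _ := by rw [add_zsmul, mul_zsmul, mul_zsmul, natCast_zsmul, natCast_zsmul, hN, zsmul_zero, add_zero]
    exact this ▸ zsmul_mem h u
  refine ⟨fun i => LinearMap.eqLocus α (ψ i • LinearMap.id), fun i j x hx y hy => ?_, eq_bot_iff.2 fun x hx => ?_,
    eq_top_iff.2 fun x _ => dv _ x ?_⟩
  · have hx : α x = ψ i • x := hx
    have hy : α y = ψ j • y := hy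
    change α (b x y) = ψ (i + j) • b x y
    simp [h1, hx, hy, AddChar.map_add_eq_mul, smul_smul, mul_comm]
  · have hx : α x = x := (show α x = ψ 0 • x from hx).trans (by simp)
    have : ∀ k, (α ^ k) x = x := fun k => by
      induction k with
      | zero => rfl
      | succ k ih => rw [pow_succ, Module.End.mul_apply, hx, ih]
    exact dv _ x (by simpa [this] using h3 x)
  · have e : p • x = ∑ i : ZMod p, ∑ j : ZMod p, ψ (i * -j) • (α ^ j.val) x := by
      rw [Finset.sum_comm]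
      simp only [← Finset.sum_smul, AddChar.sum_mulShift _ hψ, neg_eq_zero]
      rw [Finset.sum_eq_single 0 (fun j _ h => by simp [h]) (by simp)]
      simp [Nat.cast_smul_eq_nsmul]
    rw [e]
    refine sum_mem fun i _ => mem_iSup_of_mem i ?_
    change α _ = ψ i • _
    rw [map_sum, LinearMap.id_apply, Finset.smul_sum, ← Equiv.sum_comp (Equiv.addRight (1 : ZMod p)) fun j => ψ i • _]
    refine Finset.sum_congr rfl fun j _ => ?_
    haveI := Fact.mk hp.out.one_lt
    rw [map_smul, smul_smul, ← AddChar.map_add_eq_mul, Equiv.coe_addRight, ZMod.val_add, ZMod.val_one,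
      ← pow_eq_pow_mod _ h2, pow_succ', Module.End.mul_apply]
    congr 2; ring

end eig

variable (A : Type*) [CommRing A] (G : Type*) [Group G]

abbrev γ (i : ℕ) : Subgroup G := (⊤ : Subgroup G).lowerCentralSeries i

abbrev X := {x : ℕ × G // x.2 ∈ γ G x.1}

variable {G}

theorem cm {i j : ℕ} {g h : G} (hg : g ∈ γ G i) (hh : h ∈ γ G j) : ⁅g, h⁆ ∈ γ G (i + j + 1) :=
  CfsgL0.lcs_comm_le ⊤ j i (Subgroup.commutator_mem_commutator hg hh)

theorem dn {i : ℕ} {g : G} (hg : g ∈ γ G (i + 1)) : g ∈ γ G i :=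
  (⊤ : Subgroup G).lowerCentralSeries_antitone (Nat.le_succ i) hg

open Classical in
noncomputable def s0 (i : ℕ) (g : G) : X G →₀ A := if h : g ∈ γ G i then single ⟨(i, g), h⟩ 1 else 0

variable (G) in
noncomputable def Rel : Submodule A (X G →₀ A) := span A ({f | ∃ i g h, g ∈ γ G i ∧ h ∈ γ G i ∧
  f = s0 A i (g * h) - s0 A i g - s0 A i h} ∪ {f | ∃ i g, g ∈ γ G (i + 1) ∧ f = s0 A i g})

variable (G) in
abbrev LL := (X G →₀ A) ⧸ Rel A G

noncomputable def s (i : ℕ) (g : G) : LL A G := (Rel A G).mkQ (s0 A i g)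

variable {A} {i j k : ℕ} {g h : G}

theorem s0_eq (x : X G) : s0 A x.1.1 x.1.2 = single x 1 := dif_pos x.2

theorem s_mul (hg : g ∈ γ G i) (hh : h ∈ γ G i) : s A i (g * h) = s A i g + s A i h := by
  rw [← sub_eq_zero, ← sub_sub, s, s, s, ← map_sub, ← map_sub]
  exact (Quotient.mk_eq_zero _).2 (subset_span (Or.inl ⟨i, g, h, hg, hh, rfl⟩))

theorem s_zero (hg : g ∈ γ G (i + 1)) : s A i g = 0 :=
  (Quotient.mk_eq_zero _).2 (subset_span (Or.inr ⟨i, g, hg, rfl⟩))

theorem s_one : s A i (1 : G) = 0 := s_zero (one_mem _)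

theorem s_inv (hg : g ∈ γ G i) : s A i g⁻¹ = -s A i g :=
  eq_neg_of_add_eq_zero_left (by rw [← s_mul (inv_mem hg) hg, inv_mul_cancel, s_one])

theorem s_conj (hg : g ∈ γ G i) (h : G) : s A i (h * g * h⁻¹) = s A i g := by
  have c : ⁅g, h⁆ ∈ γ G (i + 1) := cm (j := 0) hg trivial
  rw [show h * g * h⁻¹ = ⁅g, h⁆⁻¹ * g by group, s_mul (inv_mem (dn c)) hg, s_zero (inv_mem c), zero_add]

theorem s_pow (hg : g ∈ γ G i) (n : ℕ) : s A i (g ^ n) = n • s A i g := by
  induction n with
  | zero => simp [s_one]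
  | succ n ih => rw [pow_succ, s_mul (pow_mem hg n) hg, ih, succ_nsmul]

theorem s_prod (f : ℕ → G) (hf : ∀ n, f n ∈ γ G i) (n : ℕ) : ((List.range n).map f).prod ∈ γ G i ∧
    s A i ((List.range n).map f).prod = ∑ k ∈ Finset.range n, s A i (f k) := by
  induction n with
  | zero => simp [s_one]
  | succ n ih =>
    rw [List.range_succ, List.map_append, List.prod_append, List.map_singleton, List.prod_singleton,
      s_mul ih.1 (hf n), ih.2, Finset.sum_range_succ]
    exact ⟨mul_mem ih.1 (hf n), rfl⟩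

theorem ext0 {P : Type*} [AddCommGroup P] [Module A P] {f f' : (X G →₀ A) →ₗ[A] P}
    (h : ∀ i g, g ∈ γ G i → f (s0 A i g) = f' (s0 A i g)) : f = f' :=
  lhom_ext' fun x => LinearMap.ext_ring (by simpa [s0_eq] using h _ _ x.2)

theorem ext1 {P : Type*} [AddCommGroup P] [Module A P] {f f' : LL A G →ₗ[A] P}
    (h : ∀ i g, g ∈ γ G i → f (s A i g) = f' (s A i g)) : f = f' :=
  linearMap_qext _ (ext0 h)

theorem rel_le {P : Submodule A (X G →₀ A)} (h1 : ∀ i g h, g ∈ γ G i → h ∈ γ G i →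
    s0 A i (g * h) - s0 A i g - s0 A i h ∈ P) (h2 : ∀ i g, g ∈ γ G (i + 1) → s0 A i g ∈ P) : Rel A G ≤ P := by
  rw [Rel, span_le]
  rintro _ (⟨i, g, h, a, c, rfl⟩ | ⟨i, g, a, rfl⟩)
  exacts [h1 i g h a c, h2 i g a]

variable (A G) in
noncomputable def b0 : (X G →₀ A) →ₗ[A] (X G →₀ A) →ₗ[A] LL A G :=
  linearCombination A fun x => linearCombination A fun y => s A (x.1.1 + y.1.1 + 1) ⁅x.1.2, y.1.2⁆

theorem b0_s (hg : g ∈ γ G i) (hh : h ∈ γ G j) : b0 A G (s0 A i g) (s0 A j h) = s A (i + j + 1) ⁅g, h⁆ := by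
  simp [b0, s0, hg, hh]

theorem s_anti (hg : g ∈ γ G i) (hh : h ∈ γ G j) : s A (j + i + 1) ⁅h, g⁆ = -s A (i + j + 1) ⁅g, h⁆ := by
  rw [← s_inv (cm hg hh), commutatorElement_inv, add_comm j i]

theorem b0_flip : (b0 A G).flip = -b0 A G := ext0 fun i g hg => ext0 fun j h hh => by
  simp only [LinearMap.flip_apply, LinearMap.neg_apply, b0_s hg hh, b0_s hh hg, s_anti hg hh]

theorem b0_ker : Rel A G ≤ LinearMap.ker (b0 A G) := rel_le (fun i g h hg hh => ext0 fun j y hy => by
    simp only [map_sub, LinearMap.sub_apply, b0_s hg hy, b0_s hh hy, b0_s (mul_mem hg hh) hy, LinearMap.zero_apply]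
    rw [show ⁅g * h, y⁆ = g * ⁅h, y⁆ * g⁻¹ * ⁅g, y⁆ by group, s_mul (Subgroup.Normal.conj_mem inferInstance _
      (cm hh hy) g) (cm hg hy), s_conj (cm hh hy)]
    abel) fun i g hg => ext0 fun j y hy => by
  rw [b0_s (dn hg) hy, LinearMap.zero_apply]
  exact s_zero ((by ring : i + 1 + j + 1 = i + j + 1 + 1) ▸ cm hg hy)

variable (A G) in
noncomputable def bb : LL A G →ₗ[A] LL A G →ₗ[A] LL A G :=
  (b0 A G).liftQ₂ _ _ b0_ker (by rw [b0_flip, LinearMap.ker_neg]; exact b0_ker)

theorem bb_s (hg : g ∈ γ G i) (hh : h ∈ γ G j) : bb A G (s A i g) (s A j h) = s A (i + j + 1) ⁅g, h⁆ :=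
  b0_s hg hh

theorem bb_anti (x y : LL A G) : bb A G x y = -bb A G y x := by
  have : (bb A G).flip = -bb A G := ext1 fun i g hg => ext1 fun j h hh => by
    simp only [LinearMap.flip_apply, LinearMap.neg_apply, bb_s hg hh, bb_s hh hg, s_anti hg hh]
  exact congrArg (fun f => f y x) this

theorem ind {P : LL A G → Prop} (h0 : ∀ x y, P x → P y → P (x + y)) (h1 : ∀ (a : A) x, P x → P (a • x))
    (h2 : ∀ i g, g ∈ γ G i → P (s A i g)) (x : LL A G) : P x := by
  obtain ⟨f, rfl⟩ := (Rel A G).mkQ_surjective x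
  induction f using Finsupp.induction_linear with
  | zero => simpa [s_one] using h2 0 1 trivial
  | add f g a c => rw [map_add]; exact h0 _ _ a c
  | single x a => simpa [s, s0_eq, ← Quotient.mk_smul] using h1 a _ (h2 _ _ x.2)

theorem leib : Leib (bb A G) := fun x y z => by
  induction x using ind with
  | h0 x x' a c => simp only [map_add, LinearMap.add_apply, a, c]; abel
  | h1 r x a => simp only [map_smul, LinearMap.smul_apply, a, smul_add]
  | h2 i x hx =>
  induction y using ind with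
  | h0 y y' a c => simp only [map_add, LinearMap.add_apply, a, c]; abel
  | h1 r y a => simp only [map_smul, LinearMap.smul_apply, a, smul_add]
  | h2 j y hy =>
  induction z using ind with
  | h0 z z' a c => simp only [map_add, LinearMap.add_apply, a, c]; abel
  | h1 r z a => simp only [map_smul, LinearMap.smul_apply, a, smul_add]
  | h2 k z hz =>
  have cj : ∀ {i} {g : G}, g ∈ γ G i → ∀ h, h * g * h⁻¹ ∈ γ G i := fun a h =>
    Subgroup.Normal.conj_mem inferInstance _ a h
  have m1 := cm (cm hx hy) (cj hz y)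
  have m2 := cm (cm hy hz) (cj hx z)
  have m3 := cm (cm hz hx) (cj hy x)
  have e1 := bb_s (A := A) (cm hx hy) (cj hz y)
  have e2 := bb_s (A := A) (cm hy hz) (cj hx z)
  have e3 := bb_s (A := A) (cm hz hx) (cj hy x)
  rw [show j + k + 1 + i + 1 = i + j + 1 + k + 1 by ring] at m2 e2
  rw [show k + i + 1 + j + 1 = i + j + 1 + k + 1 by ring] at m3 e3
  have hw := s_mul (A := A) (mul_mem m1 m2) m3
  rw [s_mul m1 m2, show ⁅⁅x, y⁆, y * z * y⁻¹⁆ * ⁅⁅y, z⁆, z * x * z⁻¹⁆ * ⁅⁅z, x⁆, x * y * x⁻¹⁆ = 1 by group, s_one,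
    ← e1, ← e2, ← e3, s_conj hx, s_conj hy, s_conj hz, ← bb_s hx hy, ← bb_s hy hz, ← bb_s hz hx,
    bb_anti (bb A G (s A j y) _), bb_anti (s A k z), map_neg, LinearMap.neg_apply] at hw
  rw [← sub_eq_zero, hw]; abel

theorem s_inj0 {V : Type*} [AddCommGroup V] (c : ℕ → G → V)
    (c1 : ∀ j g h, g ∈ γ G j → h ∈ γ G j → c j (g * h) = c j g + c j h) (c2 : ∀ j g, g ∈ γ G (j + 1) → c j g = 0)
    (lam : A →+ ℤ) (h1 : lam 1 = 1) (hg : g ∈ γ G i) (h0 : s A i g = 0) : c i g = 0 := by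
  let Φ : (X G →₀ A) →+ V := liftAddHom fun x => (zmultiplesHom _ (c x.1.1 x.1.2)).comp lam
  have hΦ : ∀ j g (a : A), g ∈ γ G j → Φ (a • s0 A j g) = lam a • c j g := fun j g a h => by simp [Φ, s0, h]
  let P : Submodule A (X G →₀ A) :=
    { carrier := {f | ∀ a : A, Φ (a • f) = 0}
      add_mem' := fun u v a => by rw [smul_add, map_add, u a, v a, add_zero]
      zero_mem' := fun a => by simp
      smul_mem' := fun r f u a => by rw [smul_smul]; exact u _ }
  have : Rel A G ≤ P := rel_le (fun j g h u v a => by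
      rw [smul_sub, smul_sub, map_sub, map_sub, hΦ _ _ _ u, hΦ _ _ _ v, hΦ _ _ _ (mul_mem u v), c1 j g h u v, smul_add]
      abel) fun j g u a => by rw [hΦ _ _ _ (dn u), c2 j g u, smul_zero]
  have z := this ((Quotient.mk_eq_zero _).1 h0) 1
  rwa [hΦ _ _ _ hg, h1, one_zsmul] at z

theorem s_inj (lam : A →+ ℤ) (h1 : lam 1 = 1) (hg : g ∈ γ G i) (h0 : s A i g = 0) : g ∈ γ G (i + 1) := by
  classical
  have ce : ∀ g ∈ γ G i, QuotientGroup.mk' (γ G (i + 1)) g ∈ Subgroup.center (G ⧸ γ G (i + 1)) := fun g hg =>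
    Subgroup.mem_center_iff.2 fun y => by
      obtain ⟨y, rfl⟩ := QuotientGroup.mk'_surjective _ y
      rw [eq_comm, ← commutatorElement_eq_one_iff_mul_comm, ← map_commutatorElement]
      exact (QuotientGroup.eq_one_iff _).2 (cm (j := 0) hg trivial)
  have z := s_inj0 (V := Additive (Subgroup.center (G ⧸ γ G (i + 1))))
    (fun j g => if h : j = i ∧ g ∈ γ G i then Additive.ofMul ⟨_, ce g h.2⟩ else 0) (fun j g h u v => by
      by_cases e : j = i
      · subst e
        rw [dif_pos ⟨rfl, mul_mem u v⟩, dif_pos ⟨rfl, u⟩, dif_pos ⟨rfl, v⟩]; rfl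
      · rw [dif_neg fun a => e a.1, dif_neg fun a => e a.1, dif_neg fun a => e a.1, add_zero]) (fun j g u => by
      by_cases e : j = i
      · subst e
        rw [dif_pos ⟨rfl, dn u⟩]
        exact congrArg Additive.ofMul (Subtype.ext ((QuotientGroup.eq_one_iff _).2 u))
      · exact dif_neg fun a => e a.1) lam h1 hg h0
  rw [dif_pos ⟨rfl, hg⟩] at z
  exact (QuotientGroup.eq_one_iff _).1 (congrArg Subtype.val (Additive.ofMul.injective z))

theorem aut_mem (σ : MulAut G) (hg : g ∈ γ G i) : σ g ∈ γ G i :=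
  ((inferInstance : (γ G i).Characteristic).fixed σ).ge hg

variable (A) in
noncomputable def a0 (σ : MulAut G) : (X G →₀ A) →ₗ[A] LL A G :=
  linearCombination A fun x => s A x.1.1 (σ x.1.2)

theorem a0_s (σ : MulAut G) (hg : g ∈ γ G i) : a0 A σ (s0 A i g) = s A i (σ g) := by simp [a0, s0, hg]

variable (A) in
noncomputable def aa (σ : MulAut G) : Module.End A (LL A G) := (Rel A G).liftQ (a0 A σ) (rel_le
  (fun i g h u v => by
    rw [LinearMap.mem_ker, map_sub, map_sub, a0_s σ u, a0_s σ v, a0_s σ (mul_mem u v), map_mul,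
      s_mul (aut_mem σ u) (aut_mem σ v)]
    abel) fun i g u => by rw [LinearMap.mem_ker, a0_s σ (dn u), s_zero (aut_mem σ u)])

theorem aa_s (σ : MulAut G) (hg : g ∈ γ G i) : aa A σ (s A i g) = s A i (σ g) := a0_s σ hg

theorem aa_pow (σ : MulAut G) (hg : g ∈ γ G i) (n : ℕ) : (aa A σ ^ n) (s A i g) = s A i ((σ ^ n) g) := by
  induction n with
  | zero => rfl
  | succ n ih => rw [pow_succ', Module.End.mul_apply, ih, aa_s σ (aut_mem _ hg), pow_succ']; rfl

theorem s_mem (n : ℕ) : ∀ g ∈ γ G n, s A n g ∈ (fun P => map₂ (bb A G) P ⊤)^[n] ⊤ := by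
  induction n with
  | zero => intro g _; trivial
  | succ n ih =>
    intro g hg
    rw [iterate_succ_apply']
    induction hg using Subgroup.closure_induction with
    | mem x hx =>
      obtain ⟨u, hu, v, hv, rfl⟩ := hx
      exact bb_s (A := A) (j := 0) hu hv ▸ apply_mem_map₂ _ (ih u hu) trivial
    | one => rw [s_one]; exact zero_mem _
    | mul x y hx hy a c => rw [s_mul hx hy]; exact add_mem a c
    | inv x hx a => rw [s_inv hx]; exact neg_mem a

theorem lcs_le [Finite G] {p : ℕ} [hp : Fact p.Prime] (σ : MulAut G) (h1 : σ ^ p = 1) (h2 : ∀ g, σ g = g → g = 1)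
    (hc : p.Coprime (Nat.card G)) (n : ℕ)
    (H : ∀ M : ZMod p → Submodule (AdjoinRoot (Polynomial.cyclotomic p ℤ)) (LL (AdjoinRoot (Polynomial.cyclotomic p ℤ)) G),
      Br (bb _ G) M M M → M 0 = ⊥ → (R (bb _ G) M)^[n] M ≤ ⊥) : γ G n ≤ γ G (n + 1) := by
  set f := Polynomial.cyclotomic p ℤ
  have ir : Irreducible f := Polynomial.cyclotomic.irreducible hp.out.pos
  haveI := AdjoinRoot.isDomain_of_prime ir.prime
  haveI : CharZero (AdjoinRoot f) := charZero_of_injective_ringHom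
    (AdjoinRoot.of.injective_of_degree_ne_zero (Polynomial.degree_cyclotomic_pos p ℤ hp.out.pos).ne')
  have hω : IsPrimitiveRoot (AdjoinRoot.root f) p := (Polynomial.isRoot_cyclotomic_iff_charZero hp.out.pos).1 (by
    have := AdjoinRoot.isRoot_root f
    rwa [Polynomial.map_cyclotomic] at this)
  let B := AdjoinRoot.powerBasis' (Polynomial.cyclotomic.monic p ℤ)
  have d0 : 0 < B.dim := B.dim_pos
  have pw : ∀ k g, σ^[k] g = (σ ^ k) g := fun k g => by
    induction k with
    | zero => rfl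
    | succ k ih => rw [iterate_succ_apply', ih, pow_succ']; rfl
  have q1 : (bb _ G).compr₂ (aa _ σ) = (bb (AdjoinRoot f) G).compl₁₂ (aa _ σ) (aa _ σ) :=
    ext1 fun i g hg => ext1 fun j h hh => by
      simp only [LinearMap.compr₂_apply, LinearMap.compl₁₂_apply, bb_s hg hh, aa_s σ hg, aa_s σ hh,
        aa_s σ (cm hg hh), bb_s (aut_mem σ hg) (aut_mem σ hh), map_commutatorElement]
  have q2 : ∑ k ∈ Finset.range p, aa (AdjoinRoot f) σ ^ k = 0 := ext1 fun i g hg => by
    have e := MonoidHom.FixedPointFree.prod_pow_eq_one (φ := σ) h2 (n := p) (funext fun g => by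
      rw [pw, h1]; rfl) g
    have := (s_prod (A := AdjoinRoot f) (fun k => σ^[k] g) (fun k => by rw [pw]; exact aut_mem _ hg) p).2
    rw [e, s_one] at this
    simp only [LinearMap.coe_sum, Finset.sum_apply, aa_pow σ hg, LinearMap.zero_apply, this, pw]
  obtain ⟨M, m1, m2, m3⟩ := exists_eig (b := bb _ G) hω (aa _ σ) (fun x y => congrArg (fun f => f x y) q1)
    (ext1 fun i g hg => by rw [aa_pow σ hg, h1]; rfl) (fun x => by simpa using congrArg (fun f => f x) q2) hc
    (ind (fun x y a c => by rw [smul_add, a, c, add_zero]) (fun r x a => by rw [smul_comm, a, smul_zero])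
      fun i g hg => by rw [← s_pow hg, pow_card_eq_one', s_one])
  refine fun g hg => s_inj (B.basis.coord ⟨0, d0⟩).toAddMonoidHom ?_ hg
    ((mem_bot _).1 (((tot m3 n).trans (iSup_le (H M m1 m2))) (s_mem n g hg)))
  have := B.basis_eq_pow ⟨0, d0⟩
  rw [pow_zero] at this
  change B.basis.repr 1 ⟨0, d0⟩ = 1
  rw [← this, B.basis.repr_self, single_eq_same]

end CfsgKK
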