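import Cfsg.Agent.H9.Lie2

/-! Exponent bound for lower central factors of a `p`-group with an almost regular automorphism of order `p`. -/

set_option autoImplicit false
open Submodule Function Finsupp
open scoped commutatorElement IsMulCommutative

namespace CfsgKK

section eig
variable {A L : Type*} [CommRing A] [AddCommGroup L] [Module A L] {b : L →ₗ[A] L →ₗ[A] L}

theorem exists_eig' [IsDomain A] {p : ℕ} [hp : Fact p.Prime] {ω : A} (hω : IsPrimitiveRoot ω p)
    (α : Module.End A L) (h1 : ∀ x y, α (b x y) = b (α x) (α y)) (h2 : α ^ p = 1) :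
    ∃ M : ZMod p → Submodule A L, Br b M M M ∧ (∀ x ∈ M 0, α x = x) ∧ ∀ x, p • x ∈ ⨆ i, M i := by
  let ψ := AddChar.zmodChar p ((IsPrimitiveRoot.iff_def ω p).mp hω).left
  have hψ : ψ.IsPrimitive := AddChar.zmodChar_primitive_of_primitive_root p hω
  refine ⟨fun i => LinearMap.eqLocus α (ψ i • LinearMap.id), fun i j x hx y hy => ?_,
    fun x hx => ?_, fun x => ?_⟩
  · have hx : α x = ψ i • x := hx
    have hy : α y = ψ j • y := hy
    change α (b x y) = ψ (i + j) • b x y
    simp [h1, hx, hy, AddChar.map_add_eq_mul, smul_smul, mul_comm]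
  · have hx : α x = ψ 0 • x := hx
    simpa using hx
  · have e : p • x = ∑ i : ZMod p, ∑ j : ZMod p, ψ (i * -j) • (α ^ j.val) x := by
      rw [Finset.sum_comm]
      simp only [← Finset.sum_smul, AddChar.sum_mulShift _ hψ, neg_eq_zero]
      rw [Finset.sum_eq_single 0 (fun j _ h => by simp [h]) (by simp)]
      simp [Nat.cast_smul_eq_nsmul]
    rw [e]
    refine sum_mem fun i _ => mem_iSup_of_mem i ?_
    change α _ = ψ i • _
    rw [map_sum, LinearMap.id_apply, Finset.smul_sum, ← Equiv.sum_comp (Equiv.addRight (1 : ZMod p)) fun j => ψ i • _]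
    refine Finset.sum_congr rfl fun j _ => ?_
    haveI := Fact.mk hp.out.one_lt
    rw [map_smul, smul_smul, ← AddChar.map_add_eq_mul, Equiv.coe_addRight, ZMod.val_add, ZMod.val_one,
      ← pow_eq_pow_mod _ h2, pow_succ', Module.End.mul_apply]
    congr 2; ring

/-- the Higman–Kreknin–Kostrikin bound -/
def hc (p : ℕ) : ℕ := ∑ i ∈ Finset.range (2 ^ (p - 1) - 1), (p - 1) ^ i

theorem hkk' (hb : Leib b) {p : ℕ} [hp : Fact p.Prime] {M : ZMod p → Submodule A L} (hM : Br b M M M) {N : ℕ}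
    (h0 : ∀ x ∈ M 0, N • x = 0) (i : ZMod p) : ∀ x ∈ (R b M)^[hc p] M i, N • x = 0 := by
  let K : Submodule A L := LinearMap.ker (N • LinearMap.id)
  have mK : ∀ x, K.mkQ x = 0 ↔ N • x = 0 := fun x => by simp [K]
  let b' : L ⧸ K →ₗ[A] L ⧸ K →ₗ[A] L ⧸ K := (b.compr₂ K.mkQ).liftQ₂ K K
    (fun x hx => LinearMap.ext fun y => (mK _).2 (by
      rw [← LinearMap.smul_apply, ← map_nsmul, (mK x).1 ((Quotient.mk_eq_zero _).2 hx)]; simp))
    fun x hx => LinearMap.ext fun y => (mK _).2 (by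
      rw [← map_nsmul, (mK x).1 ((Quotient.mk_eq_zero _).2 hx)]; simp)
  have e : ∀ x y, b' (K.mkQ x) (K.mkQ y) = K.mkQ (b x y) := fun _ _ => rfl
  have hb' : Leib b' := fun x y z => by
    obtain ⟨x, rfl⟩ := K.mkQ_surjective x
    obtain ⟨y, rfl⟩ := K.mkQ_surjective y
    obtain ⟨z, rfl⟩ := K.mkQ_surjective z
    simp only [e, hb x y z, map_add]
  let M' : ZMod p → Submodule A (L ⧸ K) := fun i => (M i).map K.mkQ
  have k : ∀ n i, ∀ x ∈ (R b M)^[n] M i, K.mkQ x ∈ (R b' M')^[n] M' i := fun n => by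
    induction n with
    | zero => exact fun i x hx => mem_map_of_mem hx
    | succ n ih =>
      rw [iterate_succ_apply', iterate_succ_apply']
      exact fun i => st_le' (P := Submodule.comap K.mkQ (R b' M' ((R b' M')^[n] M') i)) fun u v h x hx y hy => by
        rw [mem_comap, ← e, ← h]; exact br_R _ _ _ (ih u x hx) _ (mem_map_of_mem hy)
  refine fun x hx => (mK x).1 (hkk hb' (M := M') ?_ (eq_bot_iff.2 ?_) i (k _ i x hx))
  · rintro i j _ ⟨x, hx, rfl⟩ _ ⟨y, hy, rfl⟩
    exact e x y ▸ mem_map_of_mem (hM i j x hx y hy)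
  · rintro _ ⟨x, hx, rfl⟩
    exact (mK x).2 (h0 x hx)

theorem tot' {ι : Type*} [AddCommGroup ι] {M : ι → Submodule A L} {p : ℕ} (h : ∀ x, p • x ∈ ⨆ i, M i) (k : ℕ) :
    ∀ x ∈ (fun P => map₂ b P ⊤)^[k] ⊤, p ^ (k + 1) • x ∈ ⨆ i, (R b M)^[k] M i := by
  induction k with
  | zero => intro x _; simpa using h x
  | succ k ih =>
    rw [iterate_succ_apply', iterate_succ_apply']
    have l : map₂ b (⨆ i, (R b M)^[k] M i) (⨆ i, M i) ≤ ⨆ i, R b M ((R b M)^[k] M) i := by
      rw [map₂_iSup_left]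
      refine iSup_le fun i => ?_
      rw [map₂_iSup_right]
      exact iSup_le fun j => map₂_le.2 fun x hx y hy => mem_iSup_of_mem _ (br_R _ _ x hx y hy)
    refine (map₂_le (r := Submodule.comap (p ^ (k + 1 + 1) • (LinearMap.id : L →ₗ[A] L))
      (⨆ i, R b M ((R b M)^[k] M) i))).2 fun x hx y _ => ?_
    have := l (apply_mem_map₂ b (ih x hx) (h y))
    rw [map_nsmul, map_nsmul, LinearMap.smul_apply, smul_smul, ← pow_succ'] at this
    exact this

end eig

theorem exists_ring (p : ℕ) [hp : Fact p.Prime] : ∃ (A : Type) (_ : CommRing A) (_ : IsDomain A) (ω : A) (lam : A →+ ℤ),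
    IsPrimitiveRoot ω p ∧ lam 1 = 1 := by
  set f := Polynomial.cyclotomic p ℤ
  have ir : Irreducible f := Polynomial.cyclotomic.irreducible hp.out.pos
  haveI := AdjoinRoot.isDomain_of_prime ir.prime
  haveI : CharZero (AdjoinRoot f) := charZero_of_injective_ringHom
    (AdjoinRoot.of.injective_of_degree_ne_zero (Polynomial.degree_cyclotomic_pos p ℤ hp.out.pos).ne')
  let B := AdjoinRoot.powerBasis' (Polynomial.cyclotomic.monic p ℤ)
  have d0 : 0 < B.dim := B.dim_pos
  refine ⟨AdjoinRoot f, inferInstance, inferInstance, AdjoinRoot.root f, (B.basis.coord ⟨0, d0⟩).toAddMonoidHom,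
    (Polynomial.isRoot_cyclotomic_iff_charZero hp.out.pos).1 (by
      have := AdjoinRoot.isRoot_root f
      rwa [Polynomial.map_cyclotomic] at this), ?_⟩
  have := B.basis_eq_pow ⟨0, d0⟩
  rw [pow_zero] at this
  change B.basis.repr 1 ⟨0, d0⟩ = 1
  rw [← this, B.basis.repr_self, single_eq_same]

theorem pow_mem_succ {G : Type*} [Group G] {p N : ℕ} [hp : Fact p.Prime] (σ : MulAut G) (h1 : σ ^ p = 1)
    (h2 : ∀ i g, g⁻¹ * σ g ∈ γ G i → g ^ N ∈ γ G i) {g : G} (hg : g ∈ γ G (hc p)) :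
    g ^ (N * p * p ^ (hc p + 1)) ∈ γ G (hc p + 1) := by
  obtain ⟨A, _, _, ω, lam, hω, hl⟩ := exists_ring p
  have q1 : (bb A G).compr₂ (aa A σ) = (bb A G).compl₁₂ (aa A σ) (aa A σ) :=
    ext1 fun i g hg => ext1 fun j h hh => by
      simp only [LinearMap.compr₂_apply, LinearMap.compl₁₂_apply, bb_s hg hh, aa_s σ hg, aa_s σ hh,
        aa_s σ (cm hg hh), bb_s (aut_mem σ hg) (aut_mem σ hh), map_commutatorElement]
  have q0 : aa A σ ^ p = 1 := ext1 fun i g hg => by rw [aa_pow σ hg, h1]; rfl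
  have q3 : aa A σ * ∑ k ∈ Finset.range p, aa A σ ^ k = ∑ k ∈ Finset.range p, aa A σ ^ k := by
    have := mul_geom_sum (aa A σ) p
    rwa [q0, sub_self, sub_mul, one_mul, sub_eq_zero] at this
  have q2 : N • ∑ k ∈ Finset.range p, aa A σ ^ k = 0 := ext1 fun i g hg => by
    obtain ⟨m, e⟩ := s_prod (A := A) (fun k => (σ ^ k) g) (fun k => aut_mem _ hg) p
    have e' : (∑ k ∈ Finset.range p, aa A σ ^ k) (s A i g) =
        s A i ((List.range p).map fun k => (σ ^ k) g).prod := by
      simp only [LinearMap.coe_sum, Finset.sum_apply, aa_pow σ hg]; exact e.symm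
    rw [LinearMap.smul_apply, e', ← s_pow m]
    refine s_zero (h2 _ _ (s_inj lam hl (mul_mem (inv_mem m) (aut_mem σ m)) ?_))
    rw [s_mul (inv_mem m) (aut_mem σ m), s_inv m, ← aa_s σ m, ← e', ← Module.End.mul_apply, q3, neg_add_cancel]
  obtain ⟨M, m1, m2, m3⟩ := exists_eig' (b := bb A G) hω (aa A σ) (fun x y => congrArg (fun f => f x y) q1) q0
  have k := hkk' leib m1 (N := N * p) fun x hx => by
    have : ∀ k, (aa A σ ^ k) x = x := fun k => by
      induction k with
      | zero => rfl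
      | succ k ih => rw [pow_succ, Module.End.mul_apply, m2 x hx, ih]
    rw [mul_comm]
    simpa [this, mul_smul] using congrArg (fun f => f x) q2
  refine s_inj lam hl (pow_mem hg _) ?_
  rw [s_pow hg, mul_smul]
  exact iSup_le (f := fun i => (R (bb A G) M)^[hc p] M i) (a := LinearMap.ker ((N * p) • LinearMap.id)) k
    (tot' m3 _ _ (s_mem _ g hg))

end CfsgKK
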