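import Cfsg.Agent.H9.Lie3
import Cfsg.Agent.H2.BG0
import Cfsg.Agent.S0033

/-! Alperin's bound on the derived length. -/

set_option autoImplicit false
open Subgroup Cfsg CfsgH2 Function
open scoped commutatorElement IsMulCommutative

namespace CfsgKK

variable {G : Type*} [Group G] {G' : Type*} [Group G'] {p B : ℕ}

def Fx (σ : MulAut G) : Subgroup G := σ.toMonoidHom.eqLocus (MonoidHom.id G)

theorem mem_Fx {σ : MulAut G} {g : G} : g ∈ Fx σ ↔ σ g = g := Iff.rfl

def qa (N : Subgroup G) [N.Characteristic] : MulAut G →* MulAut (G ⧸ N) where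
  toFun σ := QuotientGroup.congr N N σ (characteristic_iff_map_eq.1 inferInstance σ)
  map_one' := MulEquiv.ext fun x => QuotientGroup.induction_on x fun _ => rfl
  map_mul' _ _ := MulEquiv.ext fun x => QuotientGroup.induction_on x fun _ => rfl

theorem fx_inj [Finite G'] {σ : MulAut G} {τ : MulAut G'} {f : G →* G'} (hf : Injective f)
    (h : ∀ g, f (σ g) = τ (f g)) : o[Fx σ] ≤ o[Fx τ] :=
  Nat.card_le_card_of_injective (fun x => ⟨f x, by rw [mem_Fx, ← h, mem_Fx.1 x.2]⟩)
    fun _ _ e => Subtype.ext (hf (congrArg Subtype.val e))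

theorem fx_surj [Finite G] {σ : MulAut G} {τ : MulAut G'} {f : G →* G'} (hf : Surjective f)
    (h : ∀ g, f (σ g) = τ (f g)) : o[Fx τ] ≤ o[Fx σ] := by
  set F := (Fx τ).comap f
  have a := card_map_mul_card_inf_ker f F
  rw [map_comap_eq_self_of_surjective hf, inf_eq_right.2 (ker_le_comap f _), ← card_inf_mul_relIndex (Fx σ) F] at a
  have b : (Fx σ).relIndex F ≤ o[f.ker] := Nat.card_le_card_of_injective (β := f.ker)
    (fun q => ⟨σ q.out * (q.out : G)⁻¹, by
      rw [MonoidHom.mem_ker, map_mul, h, mem_Fx.1 q.out.2, map_inv, mul_inv_cancel]⟩) fun q r e => by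
      rw [← q.out_eq', ← r.out_eq', QuotientGroup.eq]
      have e : σ q.out * (q.out : G)⁻¹ = σ r.out * (r.out : G)⁻¹ := congrArg Subtype.val e
      change σ ((q.out : G)⁻¹ * r.out) = (q.out : G)⁻¹ * r.out
      rw [map_mul, map_inv, mul_inv_eq_iff_eq_mul.1 e]; group
  exact Nat.le_of_mul_le_mul_right (a.le.trans (Nat.mul_le_mul (card_le_of_le inf_le_left) b)) (card_pos' _)

variable (p B G) in
def AP : Prop := ∃ σ : MulAut G, σ ^ p = 1 ∧ o[Fx σ] ≤ B

variable [Finite G]

theorem AP.sub (h : AP G p B) (H : Subgroup G) [H.Characteristic] : AP H p B :=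
  h.elim fun σ h => ⟨MulAut.characteristic H σ, by rw [← map_pow, h.1, map_one],
    (fx_inj H.subtype_injective fun _ => rfl).trans h.2⟩

theorem AP.quot (h : AP G p B) (N : Subgroup G) [N.Characteristic] : AP (G ⧸ N) p B :=
  h.elim fun σ h => ⟨qa N σ, by rw [← map_pow, h.1, map_one],
    (fx_surj (QuotientGroup.mk'_surjective N) fun _ => rfl).trans h.2⟩

theorem card_le_ker {W : Type*} [AddCommGroup W] [Finite W] (δ : W →+ W) (k : ℕ) :
    ∀ U : AddSubgroup W, (∀ x ∈ U, δ^[k] x = 0) → Nat.card U ≤ Nat.card δ.ker ^ k := by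
  induction k with
  | zero => intro U h; rw [(AddSubgroup.eq_bot_iff_forall U).2 h]; simp
  | succ k ih =>
    intro U h
    rw [pow_succ', ← (δ.ker.addSubgroupOf U).card_mul_index]
    refine Nat.mul_le_mul (Nat.card_le_card_of_injective (fun x => ⟨x.1.1, x.2⟩)
      fun _ _ e => Subtype.ext (Subtype.ext (Subtype.mk.inj e)))
      ((AddSubgroup.relIndex_ker U δ).le.trans (ih _ ?_))
    rintro _ ⟨x, hx, rfl⟩
    exact h x hx

theorem AP.card_ab [hp : Fact p.Prime] (h : AP G p B) [IsMulCommutative G] {e : ℕ} (he : ∀ g : G, g ^ p ^ e = 1) :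
    Nat.card G ≤ B ^ (p * e) := by
  obtain ⟨σ, h1, h2⟩ := h
  let α : AddMonoid.End (Additive G) := MonoidHom.toAdditive σ.toMonoidHom
  have a : ∀ k g, (α ^ k) (Additive.ofMul g) = Additive.ofMul ((σ ^ k) g) := fun k g => by
    induction k with
    | zero => rfl
    | succ k ih => rw [pow_succ', AddMonoid.End.coe_mul, comp_apply, ih, pow_succ']; rfl
  have a1 : α ^ p = 1 := AddMonoidHom.ext fun g => (a p g.toMul).trans (by rw [h1]; rfl)
  obtain ⟨r, hr⟩ := (Commute.one_right (α - 1)).exists_add_pow_prime_eq hp.out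
  rw [sub_add_cancel, a1, one_pow, add_right_comm, eq_comm, add_eq_right, add_eq_zero_iff_eq_neg, mul_one, mul_assoc,
    ← mul_neg (p : AddMonoid.End (Additive G))] at hr
  have z : (α - 1) ^ (p * e) = 0 := by
    rw [pow_mul, hr, (Nat.cast_commute p _).mul_pow, ← Nat.cast_pow]
    exact AddMonoidHom.ext fun g => congrArg Additive.ofMul (he _)
  have := card_le_ker (α - 1 : AddMonoid.End (Additive G)) (p * e) ⊤ fun x _ =>
    congrArg (fun f : AddMonoid.End (Additive G) => f x) z
  rw [AddSubgroup.card_top] at this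
  refine this.trans (Nat.pow_le_pow_left (le_trans ?_ h2) _)
  exact Nat.card_le_card_of_injective (β := Fx σ)
    (fun x => ⟨x.1.toMul, congrArg Additive.toMul (sub_eq_zero.1 x.2)⟩)
    fun _ _ e => Subtype.ext (Additive.toMul.injective (congrArg (fun y : Fx σ => (y : G)) e))

theorem AP.idx [hp : Fact p.Prime] {n : ℕ} (h : AP G p (p ^ n)) (hG : IsPGroup p G) :
    (γ G (hc p + 1)).relIndex (γ G (hc p)) ≤ (p ^ n) ^ (p * (n + 1 + (hc p + 1))) := by
  have k : ∀ g ∈ γ G (hc p), g ^ p ^ (n + 1 + (hc p + 1)) ∈ γ G (hc p + 1) := fun g hg => by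
    obtain ⟨σ, h1, h2⟩ := h
    rw [pow_add, pow_succ]
    refine pow_mem_succ σ h1 (fun i g a => (QuotientGroup.eq_one_iff _).1 ?_) hg
    have b := (fx_surj (τ := qa (γ G i) σ) (QuotientGroup.mk'_surjective _) fun _ => rfl).trans h2
    obtain ⟨k, hk⟩ := ((hG.to_quotient (γ G i)).to_subgroup (Fx (qa (γ G i) σ))).exists_card_eq
    rw [hk, Nat.pow_le_pow_iff_right hp.out.one_lt] at b
    exact orderOf_dvd_iff_pow_eq_one.1 ((hk ▸ orderOf_dvd_of_mem (H := Fx (qa (γ G i) σ)) (x := g)
      (QuotientGroup.eq.2 a).symm).trans (pow_dvd_pow p b))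
  set f := QuotientGroup.mk' (γ G (hc p + 1))
  have e : ∀ i, (γ G i).map f = γ _ i := fun i => by
    rw [map_lowerCentralSeries, map_top_of_surjective _ (QuotientGroup.mk'_surjective _)]
  haveI : IsMulCommutative (γ (G ⧸ γ G (hc p + 1)) (hc p)) := commutator_self_eq_bot_iff.1 (eq_bot_iff.2
    ((commutator_mono le_rfl le_top).trans ((e (hc p + 1)).ge.trans (QuotientGroup.map_mk'_self _).le)))
  have := ((h.quot (γ G (hc p + 1))).sub (γ _ (hc p))).card_ab (e := n + 1 + (hc p + 1)) fun ⟨g, hg⟩ => by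
    obtain ⟨g, a, rfl⟩ := (e _).ge hg
    exact Subtype.ext ((QuotientGroup.eq_one_iff _).2 (k g a))
  rwa [← e, ← relIndex_ker, QuotientGroup.ker_mk'] at this

omit [Finite G] in
theorem comm_gam (k : ℕ) : ∀ (X : Subgroup G) [X.Normal], ⁅X, γ G k⁆ ≤ (fun Y => ⁅Y, (⊤ : Subgroup G)⁆)^[k + 1] X := by
  induction k with
  | zero => exact fun X _ => le_rfl
  | succ k ih =>
    intro X _
    have n : ∀ j, ((fun Y => ⁅Y, (⊤ : Subgroup G)⁆)^[j] X).Normal := fun j => by
      induction j with
      | zero => assumption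
      | succ j ih => rw [iterate_succ_apply']; infer_instance
    haveI := n (k + 1 + 1)
    rw [commutator_comm]
    refine three_subgroup_le le_normalizer_of_normal le_normalizer_of_normal le_normalizer_of_normal ?_ ?_
    · rw [commutator_comm ⊤]; exact ih _
    · rw [iterate_succ_apply']; exact commutator_mono (ih X) le_rfl

theorem chain (hG : Group.IsNilpotent G) (X : Subgroup G) [X.Normal] (k : ℕ) :
    (fun Y => ⁅Y, (⊤ : Subgroup G)⁆)^[k] X = ⊥ ∨ (((fun Y => ⁅Y, (⊤ : Subgroup G)⁆)^[k] X).Normal ∧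
      o[(fun Y => ⁅Y, (⊤ : Subgroup G)⁆)^[k] X] * 2 ^ k ≤ o[X]) := by
  induction k with
  | zero => exact Or.inr ⟨‹_›, by simp⟩
  | succ k ih =>
    rw [iterate_succ_apply']
    set Y := (fun Y => ⁅Y, (⊤ : Subgroup G)⁆)^[k] X
    by_cases e : Y = ⊥
    · left; rw [e, commutator_bot_left]
    obtain ⟨n, ih⟩ := ih.resolve_left e
    refine Or.inr ⟨inferInstance, le_trans ?_ ih⟩
    have l := commutator_lt_of_nilpotent (Group.isNilpotent_top.2 hG) le_top le_normalizer_of_normal e
    rw [pow_succ', ← mul_assoc, ← card_mul_relIndex l.le]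
    refine Nat.mul_le_mul_right _ (Nat.mul_le_mul_left _ ?_)
    have := relIndex_pos ⁅Y, ⊤⁆ Y
    have := mt relIndex_eq_one.1 l.2
    omega

omit [Finite G] in
theorem der_add (a b : ℕ) : derivedSeries G (a + b) ≤ (derivedSeries G a).lowerCentralSeries b := by
  induction b with
  | zero => exact le_rfl
  | succ b ih => exact commutator_mono ih (derivedSeries_antitone G (Nat.le_add_right a b))

theorem AP.der [hp : Fact p.Prime] {n : ℕ} (h : AP G p (p ^ n)) (hG : IsPGroup p G) :
    derivedSeries G ((p ^ n) ^ (p * (n + 1 + (hc p + 1))) + (hc p + 1)) = ⊥ := by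
  set t := (p ^ n) ^ (p * (n + 1 + (hc p + 1)))
  have i := (h.sub (γ G t)).idx (hG.to_subgroup _)
  rw [← relIndex_map_map_of_injective _ _ (γ G t).subtype_injective, top_subtype_lowerCentralSeries,
    top_subtype_lowerCentralSeries] at i
  have l := comm_gam t ((γ G t).lowerCentralSeries (hc p))
  refine eq_bot_iff.2 ((der_add _ _).trans ((lowerCentralSeries_mono _ (Subgroup.derived_le_lower_central t)).trans
    (l.trans (le_of_eq ((chain hG.isNilpotent _ _).resolve_right fun ⟨_, c⟩ => ?_)))))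
  rw [← card_mul_relIndex ((γ G t).lowerCentralSeries_antitone (Nat.le_succ (hc p)))] at c
  have := Nat.le_of_mul_le_mul_left ((Nat.mul_le_mul_right _ (card_le_of_le l)).trans
    (c.trans (Nat.mul_le_mul_left _ i))) (card_pos' _)
  have := Nat.lt_two_pow_self (n := t + 1)
  omega

theorem der_card (hG : Group.IsSolvable G) (k : ℕ) : derivedSeries G k = ⊥ ∨ o[derivedSeries G k] + k ≤ Nat.card G := by
  induction k with
  | zero => right; simp
  | succ k ih =>
    by_cases e : derivedSeries G k = ⊥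
    · left; rw [derivedSeries_succ, e, commutator_bot_left]
    · have := card_lt_of_lt (Group.IsSolvable.commutator_lt_of_ne_bot e)
      have := ih.resolve_left e
      right; rw [derivedSeries_succ]; omega

omit [Finite G] in
theorem der_trans {N : Subgroup G} {a b : ℕ} (h1 : derivedSeries G a ≤ N) (h2 : derivedSeries N b = ⊥) :
    derivedSeries G (a + b) = ⊥ := by
  have : ∀ b, derivedSeries G (a + b) ≤ (derivedSeries N b).map N.subtype := fun b => by
    induction b with
    | zero => rwa [derivedSeries_zero, ← MonoidHom.range_eq_map, range_subtype]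
    | succ b ih => rw [derivedSeries_succ N, map_commutator]; exact commutator_mono ih ih
  exact eq_bot_iff.2 ((this b).trans (by rw [h2, Subgroup.map_bot]))

theorem AP.der_le [hp : Fact p.Prime] (h : AP G p B) (hG : Group.IsSolvable G) (h0 : pPrimeCore p G = ⊥) :
    derivedSeries G (B ^ (p * 1)).factorial ≤ pCore p G := by
  set P := pCore p G
  have pP : PG[p, P] := isPGroup_pCore
  haveI := pP.isNilpotent
  haveI : IsMulCommutative (P ⧸ frattini P) := ⟨⟨fun x y => by
    obtain ⟨x, rfl⟩ := QuotientGroup.mk'_surjective _ x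
    obtain ⟨y, rfl⟩ := QuotientGroup.mk'_surjective _ y
    rw [← commutatorElement_eq_one_iff_mul_comm, ← map_commutatorElement]
    exact (QuotientGroup.eq_one_iff _).2 (CfsgH1.commutator_le_frattini
      (commutator_mem_commutator (mem_top x) (mem_top y)))⟩⟩
  have c := ((h.sub P).quot (frattini P)).card_ab (e := 1) fun x => by
    obtain ⟨x, rfl⟩ := QuotientGroup.mk'_surjective _ x
    rw [pow_one, ← map_pow]
    exact (QuotientGroup.eq_one_iff _).2 (CfsgH1.pow_mem_frattini pP x)
  let φ : G →* MulAut (P ⧸ frattini P) := (qa (frattini P)).comp MulAut.conjNormal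
  have c2 : o[φ.range] ≤ (B ^ (p * 1)).factorial := by
    refine le_trans (Nat.card_le_card_of_injective (β := Equiv.Perm (P ⧸ frattini P)) (fun x => x.1.toEquiv)
      fun _ _ e => Subtype.ext (MulEquiv.toEquiv_injective e)) ?_
    rw [Nat.card_perm]
    exact Nat.factorial_le c
  set D := derivedSeries G (B ^ (p * 1)).factorial
  have k : D ≤ φ.ker := by
    rw [← MonoidHom.ker_rangeRestrict, ← Subgroup.map_eq_bot_iff, map_derivedSeries_eq φ.rangeRestrict_surjective]
    refine (der_card (Group.isSolvable_of_surjective φ.rangeRestrict_surjective) _).resolve_right fun a => ?_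
    have := card_pos' (derivedSeries φ.range (B ^ (p * 1)).factorial)
    omega
  refine le_pCore (isPGroup_iff_piN.2 fun q hq d => by_contra fun e => ?_)
  obtain ⟨x, x1, x2⟩ := exists_prime_order_mem hq d
  have cq : (orderOf x).Coprime p := x2 ▸ (Nat.coprime_primes hq hp.out).2 e
  have : zpowers x ≤ C[P] := CfsgH1.coprime_le_centralizer_of_frattini le_normalizer_of_normal
    (coprime_of_pgroup (pP.to_subgroup _) (by rw [Nat.card_zpowers]; exact (coprime_iff_not_dvd hp.out).1 cq)).symm
    (commutator_le.2 fun u hu y hy => by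
      have a : φ y ((⟨u, hu⟩ : P) : P ⧸ frattini P) = ((⟨u, hu⟩ : P) : P ⧸ frattini P) := by
        rw [MonoidHom.mem_ker.1 (k (zpowers_le.2 x1 hy))]; rfl
      have b := (inferInstance : (frattini P).Normal).mem_comm (QuotientGroup.eq.1 a)
      exact ⟨_, b, by simp [commutatorElement_def, mul_assoc]⟩)
  have := eq_one_of_coprime_order pP (CfsgH1.centralizer_pCore_le (CfsgH1.isPSolvable_of_isSolvable hp.out) h0
    (this (mem_zpowers x))) cq
  rw [this, orderOf_one] at x2
  exact hq.one_lt.ne x2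

theorem fpf_der [hp : Fact p.Prime] (σ : MulAut G) (h1 : σ ^ p = 1) (h2 : ∀ g, σ g = g → g = 1)
    (h3 : ¬ p ∣ Nat.card G) : derivedSeries G (hc p) = ⊥ := by
  by_cases e : σ = 1
  · exact eq_bot_iff.2 fun g _ => h2 g (by rw [e]; rfl)
  obtain ⟨c, hc'⟩ := Subgroup.nilpotent_iff_lowerCentralSeries.1
    (Cfsg.Agent.S0033.result σ h2 p hp.out (orderOf_eq_prime h1 e))
  have h := lcs_le σ h1 h2 ((hp.out.coprime_iff_not_dvd).2 h3) (hc p) fun M => hkk leib
  have : ∀ j, γ G (hc p) ≤ γ G (hc p + j) := fun j => by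
    induction j with
    | zero => exact le_rfl
    | succ j ih => exact h.trans (commutator_mono ih le_rfl)
  exact eq_bot_iff.2 ((Subgroup.derived_le_lower_central _).trans ((this c).trans
    (hc' ▸ (⊤ : Subgroup G).lowerCentralSeries_antitone (Nat.le_add_left c _))))

theorem alperin [hp : Fact p.Prime] {n : ℕ} (hG : Group.IsSolvable G) (σ : MulAut G) (h1 : σ ^ p = 1)
    (h2 : o[Fx σ] = p ^ n) : derivedSeries G (((p ^ n) ^ (p * 1)).factorial +
      ((p ^ n) ^ (p * (n + 1 + (hc p + 1))) + (hc p + 1)) + hc p) = ⊥ := by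
  have a : AP (G ⧸ pPrimeCore p G) p (p ^ n) := AP.quot ⟨σ, h1, h2.le⟩ _
  have b := der_trans (a.der_le inferInstance (CfsgH1.pPrimeCore_quotient_pPrimeCore p))
    ((a.sub _).der isPGroup_pCore)
  rw [← map_derivedSeries_eq (QuotientGroup.mk'_surjective _), Subgroup.map_eq_bot_iff, QuotientGroup.ker_mk'] at b
  refine der_trans b (fpf_der (MulAut.characteristic _ σ) (by rw [← map_pow, h1, map_one]) (fun g e => ?_)
    not_dvd_pPrimeCore)
  exact Subtype.ext (mem_bot.1 ((eq_bot_of_pgroup_of_not_dvd ((IsPGroup.of_card h2).to_le inf_le_left) fun d =>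
    not_dvd_pPrimeCore (d.trans (card_dvd_of_le inf_le_right))).le (mem_inf.2 ⟨congrArg Subtype.val e, g.2⟩)))

end CfsgKK
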