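import Mathlib
import Cfsg.Prelude.Def_AxialAlgebras

/-! Majorana axes: decomposition, fusion rules, transport and Sakuma's bound. -/

set_option autoImplicit false
namespace CfsgH9.Maj
open Cfsg.Axial

variable {V : Type*} [AddCommGroup V] [Module ℝ V] {mul : V →ₗ[ℝ] V →ₗ[ℝ] V}
  {B : LinearMap.BilinForm ℝ V} {μ ν g : V ≃ₗ[ℝ] V} {a b u v : V}

theorem mem_eigen {c : ℝ} : v ∈ eigen mul a c ↔ mul a v = c • v := Module.End.mem_eigenspace_iff

theorem eigen_map (hg : ∀ u v, g (mul u v) = mul (g u) (g v)) (c : ℝ) :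
    eigen mul (g a) c = (eigen mul a c).map (g : V →ₗ[ℝ] V) := by
  ext v
  obtain ⟨w, rfl⟩ := g.surjective v
  rw [mem_eigen, ← hg, ← map_smul, g.injective.eq_iff, ← mem_eigen]
  exact ⟨fun h => ⟨w, h, rfl⟩, fun ⟨x, h, e⟩ => g.injective e ▸ h⟩

theorem eigenSum_map (hg : ∀ u v, g (mul u v) = mul (g u) (g v)) (S : Set ℝ) :
    eigenSum mul (g a) S = (eigenSum mul a S).map (g : V →ₗ[ℝ] V) := by
  simp only [eigenSum, Submodule.map_iSup, eigen_map hg]

theorem pair_map (hg : ∀ u v, g (mul u v) = mul (g u) (g v)) (hB : ∀ u v, B (g u) (g v) = B u v)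
    (h : IsMajoranaPair mul B μ a) : IsMajoranaPair mul B (g * μ * g⁻¹) (g a) := by
  obtain ⟨h1, h2, ⟨⟨h3, h4, h5, h6⟩, h7⟩, h8, h9⟩ := h
  have e : ∀ v, (g * μ * g⁻¹) (g v) = g (μ v) := fun v => by simp
  refine ⟨fun u v => ?_, fun u v => ?_, ⟨⟨by simpa using h3, by rw [← hg, h4], ?_,
    fun c hc d hd u hu v hv => ?_⟩, ?_⟩, fun v hv => ?_, fun v hv => ?_⟩
  · obtain ⟨u, rfl⟩ := g.surjective u
    obtain ⟨v, rfl⟩ := g.surjective v
    rw [← hg, e, e, e, h1, hg]
  · obtain ⟨u, rfl⟩ := g.surjective u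
    obtain ⟨v, rfl⟩ := g.surjective v
    rw [e, e, hB, hB, h2]
  · rw [eigenSum_map hg, h5, Submodule.map_top, LinearEquiv.range]
  · rw [eigen_map hg] at hu hv
    obtain ⟨u, hu, rfl⟩ := hu
    obtain ⟨v, hv, rfl⟩ := hv
    rw [eigenSum_map hg]
    exact ⟨_, h6 c hc d hd u hu v hv, hg u v⟩
  · rw [eigen_map hg, h7, Submodule.map_span, Set.image_singleton]; rfl
  · rw [eigenSum_map hg] at hv
    obtain ⟨v, hv, rfl⟩ := hv
    exact (e v).trans (congrArg g (h8 v hv))
  · rw [eigen_map hg] at hv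
    obtain ⟨v, hv, rfl⟩ := hv
    exact (e v).trans ((congrArg g (h9 v hv)).trans (map_neg _ _))

theorem fix_of (h : IsMajoranaPair mul B μ a) {c : ℝ} (hc : c ∈ ({1, 0, 1 / 4} : Set ℝ))
    (e : mul a v = c • v) : μ v = v :=
  h.2.2.2.1 v (Submodule.mem_iSup_of_mem c (Submodule.mem_iSup_of_mem hc (mem_eigen.2 e)))

theorem fix_self (h : IsMajoranaPair mul B μ a) : μ a = a :=
  fix_of h (c := 1) (by simp) (by rw [h.2.2.1.1.2.1, one_smul])

theorem dec0 (h : IsMajoranaPair mul B μ a) (v : V) : ∃ (c : ℝ) (x y z : V), v = c • a + x + y + z ∧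
    mul a x = 0 ∧ mul a y = (1 / 4 : ℝ) • y ∧ mul a z = (1 / 32 : ℝ) • z ∧
      μ v = c • a + x + y - z := by
  have := h.2.2.1.1.2.2.1.ge (Submodule.mem_top (x := v))
  rw [eigenSum, majoranaSpectrum, iSup_insert, iSup_insert, iSup_insert, iSup_singleton, h.2.2.1.2] at this
  obtain ⟨w, hw, w', hw', rfl⟩ := Submodule.mem_sup.1 this
  obtain ⟨x, hx, w2, hw2, rfl⟩ := Submodule.mem_sup.1 hw'
  obtain ⟨y, hy, z, hz, rfl⟩ := Submodule.mem_sup.1 hw2
  obtain ⟨c, rfl⟩ := Submodule.mem_span_singleton.1 hw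
  have k := h.2.2.2.2 z hz
  rw [mem_eigen] at hx hy hz
  refine ⟨c, x, y, z, by abel, by rw [hx, zero_smul], hy, hz, ?_⟩
  rw [map_add, map_add, map_add, map_smul, fix_self h, fix_of h (by simp) hx, fix_of h (by simp) hy]
  erw [k]; abel

theorem inv_uniq (h : IsMajoranaPair mul B μ a) (h' : IsMajoranaPair mul B ν a) : μ = ν := by
  ext v
  obtain ⟨c, x, y, z, rfl, hx, hy, hz, e⟩ := dec0 h v
  rw [e, map_add, map_add, map_add, map_smul, fix_self h', fix_of h' (c := 0) (by simp) (by simp [hx]),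
    fix_of h' (by simp) hy]
  erw [h'.2.2.2.2 z (mem_eigen.2 hz)]; abel

theorem inv_sq (h : IsMajoranaPair mul B μ a) : μ * μ = 1 := by
  ext v
  obtain ⟨c, x, y, z, rfl, hx, hy, hz, e⟩ := dec0 h v
  change μ (μ _) = _
  rw [e, map_sub, map_add, map_add, map_smul, fix_self h, fix_of h (c := 0) (by simp) (by simp [hx]),
    fix_of h (by simp) hy]
  erw [h.2.2.2.2 z (mem_eigen.2 hz)]; simp

theorem f00 (h : IsMajoranaPair mul B μ a) (hu : mul a u = 0) (hv : mul a v = 0) :
    mul a (mul u v) = 0 := by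
  have := h.2.2.1.1.2.2.2 0 (by simp [majoranaSpectrum]) 0 (by simp [majoranaSpectrum]) u
    (mem_eigen.2 (by simp [hu])) v (mem_eigen.2 (by simp [hv]))
  rw [show monsterLaw (1 / 4 : ℝ) (1 / 32) 0 0 = {0} by norm_num [monsterLaw], eigenSum,
    iSup_singleton, mem_eigen] at this
  simpa using this

theorem f04 (h : IsMajoranaPair mul B μ a) (hu : mul a u = 0) (hv : mul a v = (1 / 4 : ℝ) • v) :
    mul a (mul u v) = (1 / 4 : ℝ) • mul u v := by
  have := h.2.2.1.1.2.2.2 0 (by simp [majoranaSpectrum]) (1 / 4) (by simp [majoranaSpectrum]) u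
    (mem_eigen.2 (by simp [hu])) v (mem_eigen.2 hv)
  rwa [show monsterLaw (1 / 4 : ℝ) (1 / 32) 0 (1 / 4) = {1 / 4} by norm_num [monsterLaw], eigenSum,
    iSup_singleton, mem_eigen] at this

theorem f44 (h : IsMajoranaPair mul B μ a) (hu : mul a u = (1 / 4 : ℝ) • u)
    (hv : mul a v = (1 / 4 : ℝ) • v) : ∃ c : ℝ, mul a (mul u v) = c • a := by
  have := h.2.2.1.1.2.2.2 (1 / 4) (by simp [majoranaSpectrum]) (1 / 4) (by simp [majoranaSpectrum]) u
    (mem_eigen.2 hu) v (mem_eigen.2 hv)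
  rw [show monsterLaw (1 / 4 : ℝ) (1 / 32) (1 / 4) (1 / 4) = {1, 0} by norm_num [monsterLaw], eigenSum,
    iSup_insert, iSup_singleton, h.2.2.1.2] at this
  obtain ⟨w, hw, x, hx, e⟩ := Submodule.mem_sup.1 this
  obtain ⟨c, rfl⟩ := Submodule.mem_span_singleton.1 hw
  rw [mem_eigen, zero_smul] at hx
  exact ⟨c, by rw [← e, map_add, map_smul, h.2.2.1.1.2.1, hx, add_zero]⟩

variable (hV : IsMajoranaAmbient mul B)
include hV

theorem orth {c d : ℝ} (hu : mul a u = c • u) (hv : mul a v = d • v) (n : c ≠ d) : B u v = 0 := by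
  have := hV.2.2.2.1 u a v
  rw [hv, hV.1 u a, hu, map_smul, map_smul, LinearMap.smul_apply, smul_eq_mul, smul_eq_mul] at this
  by_contra e
  exact n (mul_right_cancel₀ e this).symm

theorem nonneg (u : V) : 0 ≤ B u u := by
  by_cases e : u = 0
  · simp [e]
  · exact (hV.2.2.1 u e).le

theorem dec (h : IsMajoranaPair mul B μ a) (n : B a a = 1) (v : V) : ∃ x y z : V,
    v = B a v • a + x + y + z ∧ mul a x = 0 ∧ mul a y = (1 / 4 : ℝ) • y ∧
      mul a z = (1 / 32 : ℝ) • z ∧ μ v = B a v • a + x + y - z := by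
  obtain ⟨c, x, y, z, e, hx, hy, hz, e2⟩ := dec0 h v
  have ha : mul a a = (1 : ℝ) • a := by rw [h.2.2.1.1.2.1, one_smul]
  have : B a v = c := by
    rw [e, map_add, map_add, map_add, map_smul, n, orth hV ha (d := 0) (by simp [hx]) one_ne_zero,
      orth hV ha hy (by norm_num), orth hV ha hz (by norm_num)]; simp
  exact ⟨x, y, z, this ▸ e, hx, hy, hz, this ▸ e2⟩

theorem bound (h : IsMajoranaPair mul B μ a) (n : B a a = 1) (hv : mul v v = v) (nv : B v v = 1)
    (ne : a ≠ v) : 0 ≤ B a v ∧ B a v ≤ 1 / 3 := by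
  obtain ⟨x, y, z, e, hx, hy, hz, -⟩ := dec hV h n v
  have ha : mul a a = (1 : ℝ) • a := by rw [h.2.2.1.1.2.1, one_smul]
  have hx' : mul a x = (0 : ℝ) • x := by simp [hx]
  have s := hV.2.1
  have e1 := hV.2.2.2.1 a v v
  have e2 := hV.2.2.1 (a - v) (sub_ne_zero.2 ne)
  simp only [map_sub, LinearMap.sub_apply, n, nv, s v a] at e2
  rw [hv] at e1
  generalize B a v = l at *
  rw [e] at nv
  rw [e] at e1
  simp only [map_add, map_smul, LinearMap.add_apply, LinearMap.smul_apply, smul_eq_mul, ha, hx, hy, hz,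
    n, s x a, s y a, s z a, s y x, s z x, s z y, orth hV ha hx' one_ne_zero,
    orth hV ha hy (by norm_num), orth hV ha hz (by norm_num), orth hV hx' hy (by norm_num),
    orth hV hx' hz (by norm_num), orth hV hy hz (by norm_num), map_zero, LinearMap.zero_apply] at nv e1
  have := nonneg hV x
  have := nonneg hV y
  have := nonneg hV z
  constructor <;> nlinarith

/-- the basic relations for an axis `a` and a vector `v` -/
theorem sig (h : IsMajoranaPair mul B μ a) (n : B a a = 1) (v s : V)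
    (hs : mul a v = s + (1 / 32 : ℝ) • (a + v)) : mul a (μ v) = s + (1 / 32 : ℝ) • (a + μ v) ∧ μ s = s ∧
    mul a s = (7 / 32 : ℝ) • s + (3 / 4 * B a v - 25 / 1024) • a + (7 / 2048 : ℝ) • (v + μ v) := by
  obtain ⟨x, y, z, e, hx, hy, hz, e2⟩ := dec hV h n v
  have ha := h.2.2.1.1.2.1
  have k1 := fix_self h
  have k2 := fix_of h (c := 0) (v := x) (by simp) (by simp [hx])
  have k3 := fix_of h (by simp) hy
  generalize B a v = l at *
  have es : s = (l - (1 + l) / 32) • a - (1 / 32 : ℝ) • x + (7 / 32 : ℝ) • y := by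
    rw [eq_sub_of_add_eq hs.symm, e]
    simp only [map_add, map_smul, ha, hx, hy, hz]
    module
  rw [e2, es]
  simp only [map_add, map_sub, map_smul, ha, hx, hy, hz, k1, k2, k3]
  refine ⟨by module, trivial, ?_⟩
  rw [e]
  module

theorem f44' (h : IsMajoranaPair mul B μ a) (n : B a a = 1) (hu : mul a u = (1 / 4 : ℝ) • u)
    (hv : mul a v = (1 / 4 : ℝ) • v) : mul a (mul u v) = (B u v / 4) • a := by
  obtain ⟨c, e⟩ := f44 h hu hv
  have k := hV.2.2.2.1 a a (mul u v)
  rw [e, h.2.2.1.1.2.1, hV.2.2.2.1, hu, map_smul, map_smul, n, LinearMap.smul_apply] at k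
  rw [e, show c = B u v / 4 by simp only [smul_eq_mul] at k; linarith]

/-- the square of `σ₁` -/
theorem sq_sig (h : IsMajoranaPair mul B μ a) (n : B a a = 1) (h' : IsMajoranaPair mul B ν b)
    (n' : B b b = 1) {s s0 s1 : V} (hs : mul a b = s + (1 / 32 : ℝ) • (a + b))
    (h0 : mul a (ν a) = s0 + (1 / 32 : ℝ) • (a + ν a))
    (h1 : mul b (μ b) = s1 + (1 / 32 : ℝ) • (b + μ b)) :
    ∃ y z : ℝ, mul s s = y • a + (49 / 196608 * (256 * B a b - 5)) • (b + μ b) +
      (49 / 196608 : ℝ) • (ν a + μ (ν a)) + z • s - (7 / 1536 : ℝ) • s0 + (7 / 2048 : ℝ) • s1 := by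
  have cm := hV.1
  obtain ⟨p1, p2, p3⟩ := sig hV h n b s hs
  obtain ⟨-, -, q3⟩ := sig hV h' n' a s (by rw [cm, hs, add_comm a])
  obtain ⟨r1, -, -⟩ := sig hV h n _ s0 h0
  have t3 := congrArg μ q3
  rw [hV.2.1 b a] at q3 t3
  simp only [h.1, map_add, map_smul, p2, fix_self h] at t3
  have aa := h.2.2.1.1.2.1
  have bb := h'.2.2.1.1.2.1
  have cc := congrArg μ bb
  rw [h.1] at cc
  generalize B a b = l at *
  generalize μ (ν a) = e at *
  generalize ν a = d at *
  generalize μ b = c at *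
  have ha : mul a ((-4 : ℝ) • s + (3 * l - 1 / 8) • a + (7 / 16 : ℝ) • (b + c)) = 0 := by
    simp only [map_add, map_smul, aa, hs, p1, p3]; module
  have hg : mul a ((4 : ℝ) • s + (1 / 8 - 4 * l) • a + (1 / 16 : ℝ) • (b + c)) =
      (1 / 4 : ℝ) • ((4 : ℝ) • s + (1 / 8 - 4 * l) • a + (1 / 16 : ℝ) • (b + c)) := by
    simp only [map_add, map_smul, aa, hs, p1, p3]; module
  have E1 := f00 h ha ha
  have E2 := f04 h ha hg
  obtain ⟨t, E3⟩ := f44 h hg hg
  simp only [map_add, map_smul, LinearMap.add_apply, LinearMap.smul_apply, cm s a, cm s b, cm s c,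
    cm b a, cm c a, cm c b, aa, bb, cc, hs, p1, p3, q3, t3, h1, h0, r1] at E1 E2 E3
  refine ⟨147 / 32768 + 35 / 24 * l ^ 2 - 119 / 384 * l + 7 / 24 * t, -13 / 1536 - 5 / 12 * l, ?_⟩
  linear_combination (norm := module) (-1 / 24 : ℝ) • E1 + (1 / 4 : ℝ) • E2 + (7 / 24 : ℝ) • E3

theorem six {p1 p2 p3 n1 n2 n3 : V} {X Y : ℝ} (hX : 0 ≤ X) (hY : 0 ≤ Y)
    (e : p1 + X • p2 + Y • p3 = n1 + X • n2 + Y • n3) (u1 : B p1 p1 = 1) (u2 : B p2 p2 = 1)
    (u3 : B p3 p3 = 1) (a12 : 0 ≤ B p1 p2) (a13 : 0 ≤ B p1 p3) (a23 : 0 ≤ B p2 p3)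
    (b11 : B p1 n1 ≤ 1 / 3) (b12 : B p1 n2 ≤ 1 / 3) (b13 : B p1 n3 ≤ 1 / 3) (b21 : B p2 n1 ≤ 1 / 3)
    (b22 : B p2 n2 ≤ 1 / 3) (b23 : B p2 n3 ≤ 1 / 3) (b31 : B p3 n1 ≤ 1 / 3) (b32 : B p3 n2 ≤ 1 / 3)
    (b33 : B p3 n3 ≤ 1 / 3) : X = 1 ∧ B p1 p2 = 0 ∧ B p1 n2 = 1 / 3 := by
  have k := congrArg (B (p1 + X • p2 + Y • p3)) e
  simp only [map_add, map_smul, LinearMap.add_apply, LinearMap.smul_apply, smul_eq_mul, u1, u2, u3,
    hV.2.1 p2 p1, hV.2.1 p3 p1, hV.2.1 p3 p2] at k
  have XX := mul_nonneg hX hX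
  have XY := mul_nonneg hX hY
  have YY := mul_nonneg hY hY
  have c1 := mul_nonneg hX a12
  have c2 := mul_nonneg hY a13
  have c3 := mul_nonneg XY a23
  have d12 := mul_nonneg hX (sub_nonneg.2 b12)
  have d13 := mul_nonneg hY (sub_nonneg.2 b13)
  have d21 := mul_nonneg hX (sub_nonneg.2 b21)
  have d22 := mul_nonneg XX (sub_nonneg.2 b22)
  have d23 := mul_nonneg XY (sub_nonneg.2 b23)
  have d31 := mul_nonneg hY (sub_nonneg.2 b31)
  have d32 := mul_nonneg XY (sub_nonneg.2 b32)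
  have d33 := mul_nonneg YY (sub_nonneg.2 b33)
  have s1 := sq_nonneg (1 - X)
  have s2 := sq_nonneg (1 - Y)
  have s3 := sq_nonneg (X - Y)
  have f1 : (1 - X) ^ 2 = 0 := by linarith
  have f2 : X * B p1 p2 = 0 := by linarith
  have f3 : X * (1 / 3 - B p1 n2) = 0 := by linarith
  have x1 : X = 1 := by linarith [pow_eq_zero_iff two_ne_zero |>.1 f1]
  rw [x1] at f2 f3
  exact ⟨x1, by linarith, by linarith⟩

theorem sakuma (h : IsMajoranaPair mul B μ a) (n : B a a = 1) (h' : IsMajoranaPair mul B ν b)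
    (n' : B b b = 1) : ∃ n : ℕ, 1 ≤ n ∧ n ≤ 6 ∧ (μ * ν) ^ n = 1 := by
  by_contra! hc
  let K : V → ℕ → Prop := fun v i => IsMajoranaPair mul B ((μ * ν) ^ i * (ν * μ) ^ 4 * μ) v ∧ B v v = 1
  have R : ∀ {u v : V} {i j : ℕ}, K u i → K v j → i ≠ j → i ≤ 6 → j ≤ 6 → 0 ≤ B u v ∧ B u v ≤ 1 / 3 :=
    fun {u v i j} k1 k2 ne l1 l2 => bound hV k1.1 k1.2 k2.1.2.2.1.1.2.1 k2.2 fun e => by
      have := mul_right_cancel (mul_right_cancel (inv_uniq k1.1 (e ▸ k2.1)))
      rcases lt_or_gt_of_ne ne with l | l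
      · exact hc (j - i) (by omega) (by omega) (by rw [pow_sub _ l.le, this, mul_inv_cancel])
      · exact hc (i - j) (by omega) (by omega) (by rw [pow_sub _ l.le, this, mul_inv_cancel])
  have m2 := inv_sq h
  have n2 := inv_sq h'
  have mi : μ⁻¹ = μ := inv_eq_of_mul_eq_one_right m2
  have ni : ν⁻¹ = ν := inv_eq_of_mul_eq_one_right n2
  have m3 : ∀ x, μ * (μ * x) = x := fun x => by rw [← mul_assoc, m2, one_mul]
  have n3 : ∀ x, ν * (ν * x) = x := fun x => by rw [← mul_assoc, n2, one_mul]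
  have hc' := pair_map h.1 h.2.1 h'
  have hd := pair_map h'.1 h'.2.1 h
  have he := pair_map h.1 h.2.1 hd
  have hg := pair_map h'.1 h'.2.1 hc'
  have hf := pair_map h'.1 h'.2.1 he
  have ka : K a 4 := ⟨by convert h using 1; simp [pow_succ, mul_assoc, m3, n3, m2, n2], n⟩
  have kc : K (μ b) 5 := ⟨by convert hc' using 1; simp [pow_succ, mul_assoc, m3, n3, m2, n2, mi, ni],
    by rw [h.2.1, n']⟩
  have kd : K (ν a) 2 := ⟨by convert hd using 1; simp [pow_succ, mul_assoc, m3, n3, m2, n2, mi, ni],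
    by rw [h'.2.1, n]⟩
  have ke : K (μ (ν a)) 6 := ⟨by convert he using 1; simp [pow_succ, mul_assoc, m3, n3, m2, n2, mi, ni],
    by rw [h.2.1, h'.2.1, n]⟩
  have kg : K (ν (μ b)) 1 := ⟨by convert hg using 1; simp [pow_succ, mul_assoc, m3, n3, m2, n2, mi, ni],
    by rw [h'.2.1, h.2.1, n']⟩
  have kf : K (ν (μ (ν a))) 0 := ⟨by
    convert hf using 1; simp [pow_succ, mul_assoc, m3, n3, m2, n2, mi, ni],
    by rw [h'.2.1, h.2.1, h'.2.1, n]⟩
  have nn : ∀ v, ν (ν v) = v := fun v => LinearEquiv.congr_fun n2 v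
  obtain ⟨s, hs⟩ : ∃ s, mul a b = s + (1 / 32 : ℝ) • (a + b) := ⟨_, (sub_add_cancel _ _).symm⟩
  obtain ⟨s0, h0⟩ : ∃ s, mul a (ν a) = s + (1 / 32 : ℝ) • (a + ν a) := ⟨_, (sub_add_cancel _ _).symm⟩
  obtain ⟨s1, h1⟩ : ∃ s, mul b (μ b) = s + (1 / 32 : ℝ) • (b + μ b) := ⟨_, (sub_add_cancel _ _).symm⟩
  obtain ⟨y, z, E⟩ := sq_sig hV h n h' n' hs h0 h1
  have i1 := (sig hV h' n' a s (by rw [hV.1, hs, add_comm a])).2.1
  have i2 := (sig hV h' n' _ s1 h1).2.1
  have i0 : ν s0 = s0 := by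
    have := congrArg ν h0
    rw [h'.1, nn, hV.1, h0, map_add, map_smul, map_add, nn, add_comm (ν a)] at this
    exact (add_right_cancel this).symm
  have E' := congrArg ν E
  simp only [h'.1, map_add, map_sub, map_smul, i0, i1, i2, nn, fix_self h'] at E'
  have l1 : B (μ (ν a)) (μ b) = B a b := by rw [h.2.1, ← h'.2.1, nn, fix_self h']
  set x := 256 * B a b - 5 with hx
  have E2 : μ (ν a) - ν (μ (ν a)) + x • (μ b - ν (μ b)) + (196608 / 49 * y - 1) • (a - ν a) = 0 := by
    linear_combination (norm := module) (196608 / 49 : ℝ) • (E' - E)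
  generalize 196608 / 49 * y - 1 = w at E2
  rcases le_total 0 x with hx0 | hx0 <;> rcases le_total 0 w with hw | hw
  · have := six hV hx0 hw (p1 := μ (ν a)) (p2 := μ b) (p3 := a) (n1 := ν (μ (ν a))) (n2 := ν (μ b))
      (n3 := ν a) (by linear_combination (norm := module) E2) ke.2 kc.2 ka.2
      (R ke kc (by decide) le_rfl (by decide)).1 (R ke ka (by decide) le_rfl (by decide)).1
      (R kc ka (by decide) (by decide) (by decide)).1 (R ke kf (by decide) le_rfl (by decide)).2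
      (R ke kg (by decide) le_rfl (by decide)).2 (R ke kd (by decide) le_rfl (by decide)).2
      (R kc kf (by decide) (by decide) (by decide)).2 (R kc kg (by decide) (by decide) (by decide)).2
      (R kc kd (by decide) (by decide) (by decide)).2 (R ka kf (by decide) (by decide) (by decide)).2
      (R ka kg (by decide) (by decide) (by decide)).2 (R ka kd (by decide) (by decide) (by decide)).2
    linarith [this.1, this.2.1]
  · have := six hV hx0 (neg_nonneg.2 hw) (p1 := μ (ν a)) (p2 := μ b) (n3 := a) (n1 := ν (μ (ν a)))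
      (n2 := ν (μ b)) (p3 := ν a) (by linear_combination (norm := module) E2) ke.2 kc.2 kd.2
      (R ke kc (by decide) le_rfl (by decide)).1 (R ke kd (by decide) le_rfl (by decide)).1
      (R kc kd (by decide) (by decide) (by decide)).1 (R ke kf (by decide) le_rfl (by decide)).2
      (R ke kg (by decide) le_rfl (by decide)).2 (R ke ka (by decide) le_rfl (by decide)).2
      (R kc kf (by decide) (by decide) (by decide)).2 (R kc kg (by decide) (by decide) (by decide)).2
      (R kc ka (by decide) (by decide) (by decide)).2 (R kd kf (by decide) (by decide) (by decide)).2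
      (R kd kg (by decide) (by decide) (by decide)).2 (R kd ka (by decide) (by decide) (by decide)).2
    linarith [this.1, this.2.1]
  · have := six hV (neg_nonneg.2 hx0) hw (p1 := μ (ν a)) (n2 := μ b) (p3 := a) (n1 := ν (μ (ν a)))
      (p2 := ν (μ b)) (n3 := ν a) (by linear_combination (norm := module) E2) ke.2 kg.2 ka.2
      (R ke kg (by decide) le_rfl (by decide)).1 (R ke ka (by decide) le_rfl (by decide)).1
      (R kg ka (by decide) (by decide) (by decide)).1 (R ke kf (by decide) le_rfl (by decide)).2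
      (R ke kc (by decide) le_rfl (by decide)).2 (R ke kd (by decide) le_rfl (by decide)).2
      (R kg kf (by decide) (by decide) (by decide)).2 (R kg kc (by decide) (by decide) (by decide)).2
      (R kg kd (by decide) (by decide) (by decide)).2 (R ka kf (by decide) (by decide) (by decide)).2
      (R ka kc (by decide) (by decide) (by decide)).2 (R ka kd (by decide) (by decide) (by decide)).2
    linarith [this.1, this.2.2]
  · have := six hV (neg_nonneg.2 hx0) (neg_nonneg.2 hw) (p1 := μ (ν a)) (n2 := μ b) (n3 := a)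
      (n1 := ν (μ (ν a))) (p2 := ν (μ b)) (p3 := ν a) (by linear_combination (norm := module) E2)
      ke.2 kg.2 kd.2
      (R ke kg (by decide) le_rfl (by decide)).1 (R ke kd (by decide) le_rfl (by decide)).1
      (R kg kd (by decide) (by decide) (by decide)).1 (R ke kf (by decide) le_rfl (by decide)).2
      (R ke kc (by decide) le_rfl (by decide)).2 (R ke ka (by decide) le_rfl (by decide)).2
      (R kg kf (by decide) (by decide) (by decide)).2 (R kg kc (by decide) (by decide) (by decide)).2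
      (R kg ka (by decide) (by decide) (by decide)).2 (R kd kf (by decide) (by decide) (by decide)).2
      (R kd kc (by decide) (by decide) (by decide)).2 (R kd ka (by decide) (by decide) (by decide)).2
    linarith [this.1, this.2.2]

/-- products for two axes fixed by each other's involution -/
theorem fix_mul (h : IsMajoranaPair mul B μ a) (n : B a a = 1) (f : μ b = b) :
    mul a (mul a b) = (1 / 4 : ℝ) • mul a b + (3 / 4 * B a b) • a := by
  obtain ⟨x, y, z, e, hx, hy, hz, e2⟩ := dec hV h n b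
  have z0 : z = 0 := by
    rw [f] at e2
    linear_combination (norm := module) (1 / 2 : ℝ) • (e2 - e)
  generalize B a b = l at *
  rw [e]
  simp only [map_add, map_smul, h.2.2.1.1.2.1, hx, hy, z0, map_zero]
  module

theorem two_rel (h : IsMajoranaPair mul B μ a) (n : B a a = 1) (h' : IsMajoranaPair mul B ν b)
    (n' : B b b = 1) (f : μ b = b) (f' : ν a = a) :
    (1 / 2 - 4 * B a b) • (mul a b - B a b • a) = 0 ∧ (4 : ℝ) • mul (mul a b) (mul a b) =
      (3 * B a b - 1 / 2) • mul a b + (3 / 4 * B a b) • (a + b) := by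
  have cm := hV.1
  have p := fix_mul hV h n f
  have q := fix_mul hV h' n' f'
  rw [cm b a, hV.2.1 b a] at q
  have aa := h.2.2.1.1.2.1
  have bb := h'.2.2.1.1.2.1
  have i1 : B (mul a b) a = B a b := by rw [hV.2.1, hV.2.2.2.1, aa]
  have i2 : B (mul a b) (mul a b) = 1 / 4 * B a b + 3 / 4 * B a b * B a b := by
    rw [hV.2.2.2.1, cm (mul a b) a, p, map_add, map_smul, map_smul, LinearMap.add_apply,
      LinearMap.smul_apply, LinearMap.smul_apply, ← hV.2.2.2.1, bb]; rfl
  obtain ⟨m, hm⟩ : ∃ m, mul a b = m := ⟨_, rfl⟩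
  rw [hm] at p q i1 i2 ⊢
  obtain ⟨l, hl⟩ : ∃ l, B a b = l := ⟨_, rfl⟩
  rw [hl] at p q i1 i2 ⊢
  have hg : mul a ((4 : ℝ) • m - (4 * l) • a) = (1 / 4 : ℝ) • ((4 : ℝ) • m - (4 * l) • a) := by
    simp only [map_sub, map_smul, aa, p]; module
  have ha : mul a (b + (3 * l) • a - (4 : ℝ) • m) = 0 := by
    simp only [map_add, map_sub, map_smul, aa, p, hm]; module
  have E1 := f00 h ha ha
  have E2 := f04 h ha hg
  have E3 := f44' hV h n hg hg
  simp only [map_add, map_sub, map_smul, LinearMap.add_apply, LinearMap.sub_apply, LinearMap.smul_apply,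
    cm m a, cm m b, cm b a, aa, bb, hm, p, q, i1, i2, n, hV.2.1 a m, smul_eq_mul] at E1 E2 E3
  constructor
  · linear_combination (norm := module) E1 - E3
  · linear_combination (norm := module) E1 + E2

end CfsgH9.Maj
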