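import Cfsg.Agent.L0.Qd
import Cfsg.Prelude.Def_LocalEven

/-! The natural module of `SL₂(F)` in coordinates. -/

set_option autoImplicit false
namespace CfsgJW
open Function Matrix Multiplicative Subgroup Cfsg CfsgH2 CfsgL0
open scoped MatrixGroups commutatorElement

variable {G : Type*} [Group G] {F : Type*} [Field F] {V L T : Subgroup G}

structure NS (V L T : Subgroup G) (κ : Pl F →* G) (i : SL(2, F) →* G) : Prop where
  ik : Injective κ
  ii : Injective i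
  rk : κ.range = V
  ri : i.range = L
  cj : ∀ M v, i M * κ (ofAdd v) * (i M)⁻¹ = κ (ofAdd (M.1 *ᵥ v))
  sy : T = (uH (F := F)).range.map i

theorem exists_ns [Finite G] {p : ℕ} [Fact p.Prime] [Fintype F] [CharP F p]
    (h : IsNaturalSL2Module F V L) (hf : L ⊓ C[V] = ⊥) (s : Syl p T L) :
    ∃ (κ : Pl F →* G) (i : SL(2, F) →* G), NS V L T κ i := by
  obtain ⟨-, ρ, ψ, h1, h2, h3⟩ := h
  have b : Bijective ρ := ⟨(MonoidHom.ker_eq_bot_iff _).1 (by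
    rw [h2, ← inf_subgroupOf_left, hf, bot_subgroupOf]), h1⟩
  let e := MulEquiv.ofBijective ρ b
  let i : SL(2, F) →* G := L.subtype.comp e.symm.toMonoidHom
  let κ : Pl F →* G := V.subtype.comp (AddEquiv.toMultiplicativeRight ψ).symm.toMonoidHom
  have ii : Injective i := L.subtype_injective.comp e.symm.injective
  have ik : Injective κ := V.subtype_injective.comp (MulEquiv.injective _)
  have ri : i.range = L := by
    rw [MonoidHom.range_comp, MonoidHom.range_eq_top.2 e.symm.surjective, map_subtype_top]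
  have rk : κ.range = V := by
    rw [MonoidHom.range_comp, MonoidHom.range_eq_top.2 (MulEquiv.surjective _), map_subtype_top]
  have c : ∀ M v, i M * κ (ofAdd v) * (i M)⁻¹ = κ (ofAdd (M.1 *ᵥ v)) := fun M v => by
    obtain ⟨w, w1, w2⟩ := h3 (e.symm M) (Additive.toMul (ψ.symm v))
    refine w1.symm.trans ?_
    rw [show ρ (e.symm M) = M from e.apply_symm_apply M, ofMul_toMul, ψ.apply_symm_apply] at w2
    change _ = ((Additive.toMul (ψ.symm (M.1 *ᵥ v)) : V) : G)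
    rw [← w2, ψ.symm_apply_apply]; rfl
  have s2 := (syl_uH (F := F) (p := p)).map i
  rw [← MonoidHom.range_eq_map, ri] at s2
  obtain ⟨g, hg, rfl⟩ := s2.conj s
  obtain ⟨x, rfl⟩ := ri.ge hg
  refine ⟨(CfsgH2.cj (i x)).comp κ, (CfsgH2.cj (i x)).comp i, (CfsgH2.cj_injective _).comp ik,
    (CfsgH2.cj_injective _).comp ii, ?_, ?_, fun M v => ?_, Subgroup.map_map _ _ _⟩
  · rw [MonoidHom.range_comp, ← rk]
    refine map_cj_eq (mem_norm_of_conj ?_)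
    rintro _ ⟨v, rfl⟩
    exact ⟨_, (c x v.toAdd).symm⟩
  · rw [MonoidHom.range_comp, ri, map_cj_of_mem hg]
  · simp only [MonoidHom.comp_apply]
    rw [← c, map_mul, map_mul, map_inv]

/-- diagonal matrices -/
def dg (t : F) (h : t ≠ 0) : SL(2, F) := ⟨!![t, 0; 0, t⁻¹], by simp [h]⟩

theorem dg_mulVec (t : F) (h : t ≠ 0) (v : Fin 2 → F) : (dg t h).1 *ᵥ v = ![t * v 0, t⁻¹ * v 1] := by
  ext k; fin_cases k <;> simp [dg, mulVec, dotProduct]

namespace NS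
variable {κ : Pl F →* G} {i : SL(2, F) →* G} (h : NS V L T κ i)
include h

theorem mem (v : Fin 2 → F) : κ (ofAdd v) ∈ V := h.rk.le ⟨_, rfl⟩
theorem ex {x : G} (hx : x ∈ V) : ∃ v, κ (ofAdd v) = x := let ⟨v, e⟩ := h.rk.ge hx; ⟨v.toAdd, e⟩
theorem memT (a : F) : i (uT a) ∈ T := h.sy.ge ⟨_, mem_uH.2 ⟨a, rfl⟩, rfl⟩
theorem exT {x : G} (hx : x ∈ T) : ∃ a, i (uT a) = x := by
  obtain ⟨_, k, rfl⟩ := h.sy.le hx
  obtain ⟨a, rfl⟩ := mem_uH.1 k
  exact ⟨a, rfl⟩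
theorem fix (M : SL(2, F)) (v : Fin 2 → F) : κ (ofAdd v) ∈ C1[i M] ↔ M.1 *ᵥ v = v := by
  rw [mem_centralizer_singleton_iff, eq_comm, ← mul_inv_eq_iff_eq_mul, h.cj, h.ik.eq_iff,
    ofAdd.apply_eq_iff_eq]
theorem fixT (a : F) (v : Fin 2 → F) : κ (ofAdd v) ∈ C1[i (uT a)] ↔ a * v 1 = 0 := by
  rw [h.fix, uT_mulVec, add_eq_left]
  exact ⟨fun e => congrFun e 0, fun e => by rw [e]; ext k; fin_cases k <;> rfl⟩
theorem cT (v : Fin 2 → F) : κ (ofAdd v) ∈ C[T] ↔ v 1 = 0 :=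
  ⟨fun e => by simpa using (h.fixT 1 v).1 (le_cent1_iff.2 (le_centralizer_iff.1 (zpowers_le.2 e)
    (h.memT 1)) (mem_zpowers _)), fun e => mem_cent_iff.2 fun t ht => by
      obtain ⟨a, rfl⟩ := h.exT ht
      exact (mem_centralizer_singleton_iff.1 ((h.fixT a v).2 (by rw [e, mul_zero]))).symm⟩
theorem comm (a : F) (v : Fin 2 → F) : ⁅κ (ofAdd v), i (uT a)⁆ = κ (ofAdd ![-(a * v 1), 0]) := by
  rw [commutatorElement_def, mul_assoc, mul_assoc, ← mul_assoc (i _), ← map_inv, ← ofAdd_neg, h.cj,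
    ← map_mul, ← ofAdd_add, uT_mulVec]
  congr 2
  ext k; fin_cases k <;> simp [vecHead, vecTail]
theorem exZ {x : G} (hx : x ∈ V ⊓ C[T]) : ∃ c, κ (ofAdd ![c, 0]) = x := by
  obtain ⟨v, rfl⟩ := h.ex hx.1
  refine ⟨v 0, ?_⟩
  congr 2
  ext k; fin_cases k
  exacts [rfl, ((h.cT v).1 hx.2).symm]
theorem memZ (c : F) : κ (ofAdd ![c, 0]) ∈ V ⊓ C[T] := ⟨h.mem _, (h.cT _).2 rfl⟩
theorem comm_le : ⁅V, T⁆ ≤ V ⊓ C[T] := commutator_le.2 fun x hx t ht => by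
  obtain ⟨v, rfl⟩ := h.ex hx
  obtain ⟨a, rfl⟩ := h.exT ht
  exact h.comm a v ▸ h.memZ _
theorem cardV : Nat.card V = Nat.card F ^ 2 := by
  rw [← h.rk, ← Nat.card_congr (MonoidHom.ofInjective h.ik).toEquiv]
  simp [Nat.card_congr (toAdd (α := Fin 2 → F)), Nat.card_fun]
theorem cardZ : Nat.card ↥(V ⊓ C[T]) = Nat.card F :=
  (Nat.card_congr (Equiv.ofBijective (fun c : F => (⟨_, h.memZ c⟩ : ↥(V ⊓ C[T])))
    ⟨fun _ _ e => congrFun (ofAdd.injective (h.ik (congrArg Subtype.val e))) 0,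
      fun x => let ⟨c, e⟩ := h.exZ x.2; ⟨c, Subtype.ext e⟩⟩)).symm
theorem norm [Finite F] {M : SL(2, F)} (e : M.1 1 0 = 0) : i M ∈ L ⊓ N[T] :=
  ⟨h.ri.le ⟨_, rfl⟩, h.sy ▸ mem_norm_map i (mem_norm_uH e)⟩
theorem ab {x y : G} (hx : x ∈ V) (hy : y ∈ V) : x * y = y * x := by
  obtain ⟨v, rfl⟩ := h.ex hx
  obtain ⟨w, rfl⟩ := h.ex hy
  rw [← map_mul, mul_comm, map_mul]
end NS

end CfsgJW
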