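import Mathlib

/-! Certificates for regular actions of matrix groups on the nonzero vectors of a plane. -/

set_option autoImplicit false
namespace CfsgH9
open Matrix

theorem reg2 {F : Type*} [CommRing F] [Nontrivial F] [Finite F] (S : Set (GL (Fin 2) F))
    (f g : F → F → F) (d : F → F → ℕ) (h0 : f 1 0 = 0 ∧ g 1 0 = 1)
    (h1 : ∀ M ∈ S, ∀ x y, ¬ (x = 0 ∧ y = 0) →
      f (M.1 0 0 * x + M.1 0 1 * y) (M.1 1 0 * x + M.1 1 1 * y) = M.1 0 0 * f x y + M.1 0 1 * g x y ∧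
      g (M.1 0 0 * x + M.1 0 1 * y) (M.1 1 0 * x + M.1 1 1 * y) = M.1 1 0 * f x y + M.1 1 1 * g x y)
    (h2 : ∀ x y, ¬ (x = 0 ∧ y = 0) → (x = 1 ∧ y = 0) ∨ ∃ M ∈ S,
      d (M.1 0 0 * x + M.1 0 1 * y) (M.1 1 0 * x + M.1 1 1 * y) < d x y) :
    Nat.card (Subgroup.closure S) = Nat.card F ^ 2 - 1 ∧ ∀ v w : Fin 2 → F, v ≠ 0 → w ≠ 0 →
      ∃! h : Subgroup.closure S, ((h : GL (Fin 2) F) : Matrix (Fin 2) (Fin 2) F).mulVec v = w := by
  let φ : (Fin 2 → F) → (Fin 2 → F) := fun v => ![f (v 0) (v 1), g (v 0) (v 1)]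
  have mv : ∀ (M : Matrix (Fin 2) (Fin 2) F) (v : Fin 2 → F) (i : Fin 2),
      (M *ᵥ v) i = M i 0 * v 0 + M i 1 * v 1 := fun M v i => by
    simp [mulVec, dotProduct, Fin.sum_univ_two]
  have nz : ∀ v : Fin 2 → F, v ≠ 0 → ¬ (v 0 = 0 ∧ v 1 = 0) := fun v hv h =>
    hv (funext fun i => by fin_cases i; exacts [h.1, h.2])
  have mm : ∀ (M N : GL (Fin 2) F) (v : Fin 2 → F), (M * N).1 *ᵥ v = M.1 *ᵥ (N.1 *ᵥ v) := fun M N v => by
    rw [mulVec_mulVec]; rfl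
  have ci : ∀ (M : GL (Fin 2) F) (v : Fin 2 → F), (M⁻¹).1 *ᵥ (M.1 *ᵥ v) = v := fun M v => by
    rw [← mm, inv_mul_cancel]; exact one_mulVec v
  have ci' : ∀ (M : GL (Fin 2) F) (v : Fin 2 → F), M.1 *ᵥ ((M⁻¹).1 *ᵥ v) = v := fun M v => by
    rw [← mm, mul_inv_cancel]; exact one_mulVec v
  have n0 : ∀ (M : GL (Fin 2) F) (v : Fin 2 → F), v ≠ 0 → M.1 *ᵥ v ≠ 0 := fun M v hv e =>
    hv (by rw [← ci M v, e, mulVec_zero])
  have A : ∀ h ∈ Subgroup.closure S, ∀ v, v ≠ 0 → φ (h.1 *ᵥ v) = h.1 *ᵥ φ v := fun h hh => by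
    induction hh using Subgroup.closure_induction with
    | mem M hM =>
      intro v hv
      funext i
      fin_cases i
      · simpa [φ, mv] using (h1 M hM _ _ (nz v hv)).1
      · simpa [φ, mv] using (h1 M hM _ _ (nz v hv)).2
    | one => intro v _; simp
    | mul a b _ _ ha hb => intro v hv; rw [mm, ha _ (n0 b v hv), hb v hv, mm]
    | inv a _ ha => intro v hv; rw [← ci a (φ (_ *ᵥ v)), ← ha _ (n0 _ v hv), ci']
  let e : Fin 2 → F := ![1, 0]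
  have e0 : e ≠ 0 := fun h => one_ne_zero (congrFun h 0)
  have B : ∀ h ∈ Subgroup.closure S, h.1 *ᵥ e = e → h = 1 := fun h hh k => by
    have k2 := A h hh e e0
    rw [k] at k2
    have a := congrFun k
    have b := congrFun k2
    simp only [mv, φ, e, cons_val_zero, cons_val_one, h0.1, h0.2, mul_one, mul_zero, add_zero,
      zero_add] at a b
    refine Units.ext (Matrix.ext fun i j => ?_)
    fin_cases i <;> fin_cases j
    exacts [a 0, (b 0).symm, a 1, (b 1).symm]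
  have C : ∀ n, ∀ v : Fin 2 → F, v ≠ 0 → d (v 0) (v 1) = n → ∃ h ∈ Subgroup.closure S, h.1 *ᵥ e = v := by
    intro n
    induction n using Nat.strong_induction_on with
    | _ n ih =>
    intro v hv hn
    rcases h2 _ _ (nz v hv) with k | ⟨M, hM, k⟩
    · exact ⟨1, one_mem _, funext fun i => by fin_cases i <;> simp [e, k.1, k.2]⟩
    · obtain ⟨h, hh, k2⟩ := ih _ (hn ▸ k) (M.1 *ᵥ v) (n0 M v hv) (by rw [mv, mv])
      exact ⟨M⁻¹ * h, mul_mem (inv_mem (Subgroup.subset_closure hM)) hh, by rw [mm, k2, ci]⟩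
  have D : ∀ v w : Fin 2 → F, v ≠ 0 → w ≠ 0 →
      ∃! h : Subgroup.closure S, ((h : GL (Fin 2) F) : Matrix (Fin 2) (Fin 2) F).mulVec v = w := by
    intro v w hv hw
    obtain ⟨a, ha, ea⟩ := C _ v hv rfl
    obtain ⟨b, hb, eb⟩ := C _ w hw rfl
    refine ⟨⟨b * a⁻¹, mul_mem hb (inv_mem ha)⟩, by
      change (b * a⁻¹).1 *ᵥ v = w
      rw [mm, ← ea, ci, eb], fun h k => Subtype.ext ?_⟩
    have := B (b⁻¹ * h * a) (mul_mem (mul_mem (inv_mem hb) h.2) ha) (by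
      rw [mm, mm, ea, k, ← eb, ci])
    change h.1 = b * a⁻¹
    rw [← mul_one b, ← this]; group
  refine ⟨?_, D⟩
  have hc : Nat.card (Subgroup.closure S) = Nat.card {v : Fin 2 → F // v ≠ 0} :=
    Nat.card_congr (Equiv.ofBijective (fun h => ⟨h.1.1 *ᵥ e, n0 _ _ e0⟩)
      ⟨fun a b k => (D e _ e0 (n0 b.1 _ e0)).unique (congrArg Subtype.val k) rfl,
        fun v => let ⟨h, k, _⟩ := D e v.1 e0 v.2; ⟨h, Subtype.ext k⟩⟩)
  classical
  haveI := Fintype.ofFinite F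
  rw [hc, Nat.card_eq_fintype_card, Fintype.card_subtype_compl, Fintype.card_subtype_eq]
  simp

end CfsgH9
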