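import Cfsg.Agent.H2.S4F
import Cfsg.Agent.H1.LX2

/-! Sections isomorphic to `S₃` and `S₄`. -/

set_option autoImplicit false
namespace CfsgS3
open Subgroup Function Cfsg CfsgH2 CfsgBG
open CfsgL0 hiding cj
open scoped commutatorElement

variable {G : Type*} [Group G] {A H M O T V : Subgroup G} {a x y : G}

theorem inv_of_sq (h : a * a * y = y * (a * a)) (hx : x ∈ zpowers ⁅a, y⁆) : a * x * a⁻¹ = x⁻¹ := by
  obtain ⟨k, rfl⟩ := hx
  have : a * ⁅a, y⁆ * a⁻¹ = ⁅a, y⁆⁻¹ := by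
    rw [commutatorElement_def]
    calc _ = a * a * y * a⁻¹ * y⁻¹ * a⁻¹ := by group
      _ = _ := by rw [h]; group
  rw [← conj_zpow, this, inv_zpow]

theorem norm_of_inv (i : a * x * a⁻¹ = x⁻¹) [Finite G] : a ∈ N[zpowers x] :=
  mem_norm_of_conj (by
    rintro _ ⟨k, rfl⟩
    rw [← conj_zpow, i]; exact zpow_mem (inv_mem (mem_zpowers x)) k)

variable [Finite G]

theorem i3_of (ox : orderOf x = 3) (a2 : a * a = 1) (i : a * x * a⁻¹ = x⁻¹) (xM : x ∈ M) (aM : a ∈ M) :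
    Involves (Equiv.Perm (Fin 3)) M := by
  have nc : ¬ x * a = a * x := fun e => by
    rw [← e, mul_inv_cancel_right, eq_inv_iff_mul_eq_one, ← pow_two, ← orderOf_dvd_iff_pow_eq_one, ox] at i
    exact absurd i (by decide)
  have oa : orderOf a = 2 := orderOf_eq_prime (by rwa [pow_two]) fun e => nc (by rw [e, mul_one, one_mul])
  obtain ⟨e⟩ := CfsgH1.s3_of_not_comm (G := (zpowers x ⊔ zpowers a : Subgroup G)) (by
    rw [card_sup_of_disj (.inr (zpowers_le.2 (norm_of_inv i))) (inf_eq_bot_of_coprime' (by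
      rw [Nat.card_zpowers, Nat.card_zpowers, ox, oa]; decide)), Nat.card_zpowers, Nat.card_zpowers, ox, oa])
    fun c => nc (comm_of_isMulComm c (mem_sup_left (mem_zpowers x)) (mem_sup_right (mem_zpowers a)))
  exact involves_iff.2 ⟨_, _, inclusion (sup_le (zpowers_le.2 xM) (zpowers_le.2 aM)), e.toMonoidHom,
    inclusion_injective _, map_top_of_surjective _ e.surjective⟩

/-- an involution inverting an element of prime order at least five has large commutator space -/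
theorem four_le {p : ℕ} (hp : p.Prime) (p2 : p ≠ 2) (p3 : p ≠ 3) (ox : orderOf x = p)
    (i : a * x * a⁻¹ = x⁻¹) (pV : PG[2, V]) (nx : x ∈ N[V]) (h : x ∉ C[V]) : 4 ≤ C1[a].relIndex V := by
  haveI := Fact.mk hp
  have cp : p.Coprime 2 := (Nat.coprime_primes hp Nat.prime_two).2 p2
  by_contra! k
  have c : C1[a].relIndex V ≤ 2 := by
    obtain ⟨n, e⟩ := exists_relIndex_eq_pow pV C1[a]
    have : C1[a].relIndex V ≠ 3 := fun f => absurd (Nat.prime_three.dvd_of_dvd_pow (f.symm.trans e).dvd)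
      (by decide)
    omega
  have l : V ⊓ (C1[a] ⊓ C1[x * a * x⁻¹]) ≤ V ⊓ C1[x] := by
    refine le_inf inf_le_left (le_cent1_iff.2 (mem_of_sq_mem (ox ▸ cp) ?_))
    have e1 : a ∈ C[V ⊓ (C1[a] ⊓ C1[x * a * x⁻¹])] := le_cent1_iff.1 (inf_le_right.trans inf_le_left)
    have e2 : x * a * x⁻¹ ∈ C[V ⊓ (C1[a] ⊓ C1[x * a * x⁻¹])] :=
      le_cent1_iff.1 (inf_le_right.trans inf_le_right)
    have := mul_mem e2 (inv_mem e1)
    rwa [show x * a * x⁻¹ * a⁻¹ = x * (a * x * a⁻¹)⁻¹ by group, i, inv_inv] at this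
  have c2 : C1[x * a * x⁻¹].relIndex V ≤ 2 := by
    rwa [centralizer_conj, ← map_cj_eq nx, relIndex_map_cj]
  have c3 : (V ⊓ C1[x]).relIndex V ≤ 4 := (relIndex_le_of_le_left l (relIndex_pos _ _).ne').trans (by
    rw [inf_relIndex_left]; exact relIndex_inf_le.trans (Nat.mul_le_mul c c2))
  have c5 := dvd_relIndex_of_not_le pV (K := V ⊓ C1[x]) fun e =>
    h (le_cent1_iff.1 (e.trans inf_le_right))
  have m := card_modEq_inf_cent (CfsgH2.isPGroup_zpowers (k := 1) (by rw [pow_one, ← ox, pow_orderOf_eq_one]) :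
    PG[p, zpowers x]) (zpowers_le.2 nx)
  rw [cent_zpowers, ← card_mul_relIndex (inf_le_left : V ⊓ C1[x] ≤ V)] at m
  have m2 := Nat.ModEq.cancel_left_of_coprime (c := o[V ⊓ C1[x]]) (coprime_of_pgroup
    (pV.to_le inf_le_left) ((coprime_iff_not_dvd Nat.prime_two).1 cp)).symm (m.trans (by rw [mul_one]))
  have := relIndex_pos (V ⊓ C1[x]) V
  have d := (Nat.modEq_iff_dvd' this).1 m2.symm
  obtain e | e : (V ⊓ C1[x]).relIndex V = 2 ∨ (V ⊓ C1[x]).relIndex V = 4 := by omega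
  · exact hp.one_lt.ne' (Nat.dvd_one.1 (e ▸ d :))
  · exact p3 ((Nat.prime_dvd_prime_iff_eq hp Nat.prime_three).1 (e ▸ d :))

theorem sq_le (pV : PG[2, V]) (n : M ≤ N[V]) (f : M ⊓ C[V] = ⊥) (l : O ≤ M) (nO : M ≤ N[O])
    (od : ¬ 2 ∣ o[O]) (c : M ⊓ C[O] ≤ O) (h3 : ¬ Involves (Equiv.Perm (Fin 3)) M) (lA : A ≤ M)
    (el : IsElementaryAbelian 2 A) : o[A] ^ 2 ≤ (V ⊓ C[A]).relIndex V := by
  induction' e : o[A] using Nat.strong_induction_on with k ih generalizing A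
  subst e
  by_cases h0 : A = ⊥
  · rw [h0, card_bot, one_pow]; exact relIndex_pos _ _
  have := mt (le_of_cocyclic (M := C[A]) el.1 (lA.trans nO) (coprime_of_pgroup (elem_pgroup el) od))
    fun f => h0 (eq_bot_of_pgroup_of_not_dvd (elem_pgroup el) fun g => od (g.trans
      (card_dvd_of_le ((le_inf lA (le_centralizer_iff.1 f)).trans c))))
  push Not at this
  obtain ⟨U, h1, ⟨a, ha, h2⟩, h3'⟩ := this
  obtain ⟨y, hy, h4⟩ := SetLike.not_le_iff_exists.1 h3'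
  have h5 : ⁅a, y⁆ ≠ 1 := fun f => h4 (by
    rw [← h2, cent_sup, cent_zpowers]
    rw [commutatorElement_eq_one_iff_mul_comm] at f
    exact ⟨hy.2, mem_centralizer_singleton_iff.2 f.symm⟩)
  have cU : A ≤ C[U] := le_cent_of_comm el.1 h1
  have h6 : ⁅a, y⁆ ∈ O ⊓ C[U] := mul_mem (conj_mem_of_norm (le_norm_inf (lA.trans nO)
    (le_norm_cent (le_norm_of_le_cent cU)) ha) hy) (inv_mem hy)
  obtain ⟨p, hp, d⟩ := Nat.exists_prime_and_dvd (mt card_eq_one.1 (zpowers_ne_bot.2 h5))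
  obtain ⟨x, hx, ox⟩ := exists_prime_order_mem hp d
  have a2 : a * a = 1 := by rw [← pow_two]; exact el.2 a ha
  have i := inv_of_sq (by rw [a2, one_mul, mul_one]) hx
  have xO := zpowers_le.2 h6 hx
  have p2 : p ≠ 2 := fun e => od (e ▸ ox ▸ orderOf_dvd_of_mem xO.1)
  have aU : a ∉ U := fun f => h4 (cent_anti (h2.ge.trans (sup_le le_rfl (zpowers_le.2 f))) hy.2)
  have lt : U < A := lt_of_le_of_ne h1 fun e => aU (e ▸ ha)
  have xW : x ∉ C[V ⊓ C[U]] := fun k => hp.one_lt.ne' (by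
    rw [← ox, orderOf_eq_one_iff, ← mem_bot, ← f]
    exact ⟨l xO.1, zpowers_le.1 (CfsgH1.thompson_p_times_q (elem_pgroup (elem_of_le el h1))
      (by rw [Nat.card_zpowers, ox]; exact (Nat.coprime_primes hp Nat.prime_two).2 p2) pV
      (le_centralizer_iff.1 (zpowers_le.2 xO.2)) (h1.trans (lA.trans n)) (zpowers_le.2 (n (l xO.1)))
      (le_centralizer_iff.1 (zpowers_le.2 k)))⟩)
  have k4 := four_le hp p2 (fun e => h3 (i3_of (e ▸ ox) a2 i (l xO.1) (lA ha))) ox i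
    (pV.to_le inf_le_left) (mem_norm_inf (n (l xO.1)) (norm_le_norm_cent _ (cent_le_norm _ xO.2))) xW
  have cA : o[A] ≤ o[U] * 2 := by
    have := card_sup_dvd (K := zpowers a) (.inr (zpowers_le.2 (cent_le_norm _ (cU ha))))
    rw [h2, card_zpowers_eq Nat.prime_two (el.2 a ha) fun e => aU (e ▸ one_mem _)] at this
    exact Nat.le_of_dvd (Nat.mul_pos (card_pos' _) two_pos) this
  have r := relIndex_mul_relIndex (V ⊓ C[U] ⊓ C1[a]) (V ⊓ C[U]) V inf_le_left inf_le_left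
  rw [inf_relIndex_left, inf_assoc, ← cent_zpowers, ← cent_sup, h2, cent_zpowers] at r
  have := ih _ (card_lt_of_lt lt) (h1.trans lA) (elem_of_le el h1) rfl
  calc _ ≤ (o[U] * 2) ^ 2 := Nat.pow_le_pow_left cA 2
    _ = 4 * o[U] ^ 2 := by ring
    _ ≤ _ := by rw [← r]; exact Nat.mul_le_mul k4 this

theorem ab_fix {V : Type*} [CommGroup V] [Finite V] (hV : IsPGroup 2 V) {σ α : MulAut V} (h3 : σ ^ 3 = 1)
    (h1 : σ ≠ 1) (i : α * σ * α⁻¹ * σ = 1) (hα : IsPGroup 2 (zpowers α)) :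
    ∃ u, u * u = 1 ∧ α u = u ∧ σ u ≠ u ∧ σ (σ u) = (u * σ u)⁻¹ ∧ α (σ u) = (u * σ u)⁻¹ := by
  have e3 : ∀ v, σ (σ (σ v)) = v := fun v => by
    have := DFunLike.congr_fun h3 v
    rwa [pow_succ, pow_two] at this
  have e1 : ∀ v, α (σ v) = σ (σ (α v)) := fun v => by
    have := DFunLike.congr_fun i (σ (σ (α v)))
    simp only [MulAut.mul_apply, e3, MulAut.one_apply, MulAut.inv_apply, MulEquiv.symm_apply_apply] at this
    exact this
  let W : Subgroup V := (MonoidHom.id V * σ.toMonoidHom * (σ * σ).toMonoidHom).ker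
  have mW : ∀ v, v ∈ W ↔ v * σ v * σ (σ v) = 1 := fun v => Iff.rfl
  have iW : ∀ v ∈ W, α v ∈ W := fun v hv => by
    have := congrArg α ((mW v).1 hv)
    rw [map_mul, map_mul, e1, e1, e1, e3, map_one, mul_right_comm] at this
    exact this
  let X : SubMulAction (zpowers α) V := ⟨W, fun g v hv => by
    obtain ⟨_, hg⟩ := g
    obtain ⟨n, rfl⟩ := mem_powers_iff_mem_zpowers.2 hg
    show (α ^ n) v ∈ W
    clear hg
    induction n with
    | zero => exact hv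
    | succ n ih => rw [pow_succ']; exact iW _ ih⟩
  have W0 : W ≠ ⊥ := fun e => h1 (MulEquiv.ext fun v => by
    have : v⁻¹ * σ v ∈ W := (mW _).2 (by
      simp only [map_mul, map_inv, e3]
      rw [mul_assoc v⁻¹, mul_inv_cancel_left, mul_assoc v⁻¹, mul_inv_cancel_left, inv_mul_cancel])
    rw [e, mem_bot, inv_mul_eq_one] at this
    exact this.symm)
  obtain ⟨b, hb, b1⟩ := hα.exists_fixed_point_of_prime_dvd_card_of_fixed_point X
    (dvd_card_of_pgroup (hV.to_subgroup W) W0) (a := ⟨1, one_mem W⟩)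
    fun g => Subtype.ext (map_one g.1)
  have fb : α b = b := congrArg Subtype.val (hb ⟨α, mem_zpowers α⟩)
  obtain ⟨_, ⟨k, rfl⟩, o⟩ := exists_prime_order_mem Nat.prime_two (dvd_card_of_pgroup
    (hV.to_subgroup (zpowers b.1)) (zpowers_ne_bot.2 fun e => b1 (Subtype.ext e.symm)))
  have m := (mW _).1 (zpow_mem (show b.1 ∈ W from b.2) k)
  have f : α (b.1 ^ k) = b.1 ^ k := by rw [map_zpow, fb]
  beta_reduce at o
  generalize b.1 ^ k = u at *
  have u2 : u * u = 1 := by rw [← pow_two, ← o, pow_orderOf_eq_one]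
  refine ⟨u, u2, f, fun e => ?_, eq_inv_of_mul_eq_one_right m, by
    rw [e1, f]; exact eq_inv_of_mul_eq_one_right m⟩
  rw [e, e, u2, one_mul] at m
  rw [m, orderOf_one] at o
  exact absurd o (by decide)

open scoped IsMulCommutative in
theorem i4_ab {k : ℕ} (ab : Ab[T]) (pT : PG[2, T]) (lT : T ≤ H) (ha : a ∈ H ⊓ N[T]) (hx : x ∈ H ⊓ N[T])
    (o : (orderOf x).Coprime 2) (h : x ∉ C[T]) (x3 : x ^ 3 ∈ C[T]) (i : a * x * a⁻¹ * x ∈ C[T])
    (ak : a ^ 2 ^ k ∈ C[T]) : I4 H := by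
  have kr : ∀ g : N[T], T.normalizerMonoidHom g = 1 ↔ g.1 ∈ C[T] := fun g => by
    rw [← MonoidHom.mem_ker, normalizerMonoidHom_ker]; rfl
  obtain ⟨u, u2, e1, e2, e3, e4⟩ := ab_fix pT (σ := T.normalizerMonoidHom ⟨x, hx.2⟩)
    (α := T.normalizerMonoidHom ⟨a, ha.2⟩) (by rw [← map_pow, kr]; exact x3) (mt (kr _).1 h)
    (by rw [← map_inv, ← map_mul, ← map_mul, ← map_mul, kr]; exact i)
    (CfsgH2.isPGroup_zpowers (k := k) (by rw [← map_pow, kr]; exact ak))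
  replace u2 : u.1 * u = 1 := congrArg Subtype.val u2
  replace e1 : cj a u = u := congrArg Subtype.val e1
  replace e2 : cj x u ≠ u := fun e => e2 (Subtype.ext e)
  replace e3 : cj x (cj x u) = (u * cj x u)⁻¹ := congrArg Subtype.val e3
  replace e4 : cj a (cj x u) = (u * cj x u)⁻¹ := congrArg Subtype.val e4
  have l : zpowers u.1 ⊔ zpowers (cj x u) ≤ T :=
    sup_le (zpowers_le.2 u.2) (zpowers_le.2 (conj_mem_of_norm hx.2 u.2))
  have m1 : u.1 ∈ zpowers u.1 ⊔ zpowers (cj x u) := mem_sup_left (mem_zpowers _)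
  have m2 : cj x u ∈ zpowers u.1 ⊔ zpowers (cj x u) := mem_sup_right (mem_zpowers _)
  have nm : ∀ g : G, cj g u.1 ∈ zpowers u.1 ⊔ zpowers (cj x u.1) → cj g (cj x u.1) = (u.1 * cj x u.1)⁻¹ →
      g ∈ N[zpowers u.1 ⊔ zpowers (cj x u)] := fun g p q => mem_norm_of_map_le (by
    rw [Subgroup.map_sup, MonoidHom.map_zpowers, MonoidHom.map_zpowers, q]
    exact sup_le (zpowers_le.2 p) (zpowers_le.2 (inv_mem (mul_mem m1 m2))))
  refine i4_dih (isMulComm_of_le ab l) (pT.to_le l) (l.trans lT) ⟨ha.1, nm a (e1.symm ▸ m1) e4⟩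
    ⟨hx.1, nm x m2 e3⟩ o (cent_anti l i) (fun c => e2 ?_) ?_
  · exact mul_inv_eq_iff_eq_mul.2 (c _ m1).symm
  refine (relIndex_le_of_le_left (H := zpowers u.1) (zpowers_le.2 (mem_centralizer_singleton_iff.2
    (mul_inv_eq_iff_eq_mul.1 e1).symm)) (relIndex_pos _ _).ne').trans ?_
  rw [sup_comm, relIndex_sup_of_norm (le_norm_of_le_cent ((le_sup_right.trans l).trans
    (le_cent_of_comm ab (le_sup_left.trans l))))]
  refine Nat.le_of_dvd two_pos ((relIndex_dvd_card _ _).trans ?_)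
  rw [Nat.card_zpowers, orderOf_dvd_iff_pow_eq_one, ← map_pow, pow_two, u2, map_one]

theorem i4_gen {k : ℕ} (pT : PG[2, T]) (ha : a ∈ N[T]) (hx : x ∈ N[T])
    (o : (orderOf x).Coprime 2) (h : x ∉ C[T]) (x3 : x ^ 3 ∈ C[T]) (i : a * x * a⁻¹ * x ∈ C[T])
    (ak : a ^ 2 ^ k ∈ C[T]) : I4 (⊤ : Subgroup G) := by
  obtain ⟨X, l, ⟨n1, n2, c⟩, m⟩ := exists_minimal_le (fun X => a ∈ N[X] ∧ x ∈ N[X] ∧ x ∉ C[X]) ⟨ha, hx, h⟩
  have pX := pT.to_le l
  have lt := sol_comm_lt (isSolvable_of_pgroup pX) fun e => c (by rw [e, cent_bot]; trivial)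
  have a1 := mem_norm_commutator n1 n1
  have x1 := mem_norm_commutator n2 n2
  have nX : X ≤ N[⁅X, X⁆] := le_norm_comm_left
  refine (I4.of_qt (K := ⁅X, X⁆) (i4_ab (k := k) ((isMulComm_qt_iff nX).2 le_rfl) (isPGroup_qt pX) (qt_mono nX)
    ⟨qmk_mem_qt a1 a1, qmk_mem_norm a1 n1⟩ ⟨qmk_mem_qt x1 x1, qmk_mem_norm x1 n2⟩
    (o.coprime_dvd_left (orderOf_qmk_dvd _)) (fun e => c ?_) ?_ ?_ ?_) le_rfl).mono le_top
  · rw [← zpowers_le, ← qt_zpowers, qt_le_cent_iff (zpowers_le.2 x1) nX, commutator_comm] at e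
    exact zpowers_le.1 (coprime_le_cent_of_stable (zpowers_le.2 n2) (cop_zpowers o pX)
      (.inr (isSolvable_of_pgroup pX)) e (zpowers_le.2 (not_not.1 fun f => lt.ne (m _ ⟨a1, x1, f⟩ lt.le))))
  · rw [← map_pow]; exact qmk_mem_cent _ (cent_anti l x3)
  · rw [← map_inv, ← map_mul, ← map_mul, ← map_mul]; exact qmk_mem_cent _ (cent_anti l i)
  · rw [← map_pow]; exact qmk_mem_cent _ (cent_anti l ak)

theorem inv_ind {Q : Subgroup G} (pQ : PG[3, Q]) (k : ℕ) : ∀ u : G, u ^ 2 ^ k = 1 → u ∈ N[Q] → u ∉ C[Q] →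
    ∃ a x : G, (∃ k, a ^ 2 ^ k = 1) ∧ orderOf x = 3 ∧ a * x * a⁻¹ = x⁻¹ := by
  induction k with
  | zero => exact fun u h _ c => (c (by rw [pow_zero, pow_one] at h; rw [h]; exact one_mem _)).elim
  | succ k ih =>
    intro u h n c
    by_cases h2 : u * u ∈ C[Q]
    · obtain ⟨y, hy, e⟩ : ∃ y ∈ Q, ¬ y * u = u * y := by simpa [mem_cent_iff] using c
      have m : ⁅u, y⁆ ∈ Q := mul_mem (conj_mem_of_norm n hy) (inv_mem hy)
      obtain ⟨x, hx, o⟩ := exists_prime_order_mem Nat.prime_three (dvd_card_of_pgroup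
        (pQ.to_le (zpowers_le.2 m)) (zpowers_ne_bot.2 fun f => e
          (commutatorElement_eq_one_iff_mul_comm.1 f).symm))
      exact ⟨u, x, ⟨_, h⟩, o, inv_of_sq (h2 y hy).symm hx⟩
    · exact ih _ (by rw [← pow_two, ← pow_mul, ← pow_succ', h]) (mul_mem n n) h2

theorem exists_inv (f : G →* Equiv.Perm (Fin 3)) (hf : Surjective f) :
    ∃ a x : G, (∃ k, a ^ 2 ^ k = 1) ∧ orderOf x = 3 ∧ a * x * a⁻¹ = x⁻¹ := by
  obtain ⟨Q, s⟩ := exists_syl 3 ((alternatingGroup (Fin 3)).comap f)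
  obtain ⟨t, ht⟩ := hf (Equiv.swap 0 1)
  obtain ⟨n, hn, w, hw, rfl⟩ := s.frattini' (g := t) (le_normalizer_of_normal (mem_top t))
  obtain ⟨u, hu, v, -, rfl, o1, o2⟩ := exists_pi_parts {2} n
  obtain ⟨k, hk⟩ := (piN_singleton Nat.prime_two (orderOf_pos u).ne').1 o1
  have sq : ∀ g : Equiv.Perm (Fin 3), g * g ∈ alternatingGroup (Fin 3) := by
    simp only [Equiv.Perm.mem_alternatingGroup]; decide
  have cA : ∀ g : Equiv.Perm (Fin 3), (∀ h ∈ alternatingGroup (Fin 3), h * g = g * h) →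
    g ∈ alternatingGroup (Fin 3) := by simp only [Equiv.Perm.mem_alternatingGroup]; decide
  have p3 : ∀ g ∈ alternatingGroup (Fin 3), g ^ 3 = 1 := by
    simp only [Equiv.Perm.mem_alternatingGroup]; decide
  have hv : v ∈ (alternatingGroup (Fin 3)).comap f := mem_of_sq_mem
    ((piN_compl_singleton' Nat.prime_two).1 o2) (by rw [mem_comap, map_mul]; exact sq _)
  have e := s.map f
  rw [map_comap_eq_self_of_surjective hf] at e
  refine inv_ind s.pg k u (by rw [← hk, pow_orderOf_eq_one]) (zpowers_le.2 hn hu) fun c => ?_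
  have : f u ∈ alternatingGroup (Fin 3) := cA _ fun h hh => by
    obtain ⟨q, hq, rfl⟩ := (e.eq_of_pgroup (isPGroup_of_exp p3)).ge hh
    rw [← map_mul, c q hq, map_mul]
  have := mul_mem (mul_mem (mem_comap.2 this) hv) hw
  rw [mem_comap, ht, Equiv.Perm.mem_alternatingGroup] at this
  exact absurd this (by decide)

/-- the Klein four-subgroup of `S₄` -/
def V4 : Subgroup (Equiv.Perm (Fin 4)) where
  carrier := {g | g ^ 2 = 1 ∧ Equiv.Perm.sign g = 1}
  one_mem' := by decide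
  mul_mem' := fun {a b} => by simp only [Set.mem_setOf_eq]; revert a b; decide +kernel
  inv_mem' := fun {a} => by simp only [Set.mem_setOf_eq]; revert a; decide +kernel

instance : DecidablePred (· ∈ V4) := fun g => inferInstanceAs (Decidable (g ^ 2 = 1 ∧ Equiv.Perm.sign g = 1))

theorem exists_s3 : ∃ π : Equiv.Perm (Fin 4) →* Equiv.Perm (Fin 3), Surjective π ∧ PG[2, π.ker] ∧
    C[π.ker] ≤ π.ker := by
  haveI : V4.Normal := ⟨by decide +kernel⟩
  obtain ⟨e⟩ := CfsgH1.s3_of_not_comm (G := Equiv.Perm (Fin 4) ⧸ V4) (by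
    have := V4.card_mul_index
    rw [Nat.card_eq_fintype_card, Nat.card_eq_fintype_card, show Fintype.card V4 = 4 by decide +kernel,
      show Fintype.card (Equiv.Perm (Fin 4)) = 24 by decide +kernel] at this
    show V4.index = 6
    omega) fun c => absurd (QuotientGroup.eq.1 (c.1.1 ((Equiv.swap 0 1 : Equiv.Perm (Fin 4)) : _ ⧸ V4)
      (Equiv.swap 1 2 : Equiv.Perm (Fin 4)))) (by decide +kernel)
  refine ⟨e.toMonoidHom.comp (QuotientGroup.mk' V4), e.surjective.comp (QuotientGroup.mk'_surjective V4), ?_⟩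
  rw [MonoidHom.ker_comp_of_injective _ _ e.injective, QuotientGroup.ker_mk']
  exact ⟨isPGroup_of_exp fun x hx => hx.1,
    (by decide +kernel : ∀ g : Equiv.Perm (Fin 4), (∀ h ∈ V4, h * g = g * h) → g ∈ V4)⟩

end CfsgS3
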