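import Mathlib

/-! Transitivity of the special linear group on subspaces. -/

set_option autoImplicit false
namespace CfsgH9
open Matrix

theorem sl_trans {F : Type*} [Field F] {n : ℕ} (hn : 1 ≤ n) (U₁ U₂ : Submodule F (Fin n → F))
    (h : Module.finrank F U₁ = Module.finrank F U₂) :
    ∃ g : SpecialLinearGroup (Fin n) F, U₁.map (toLin' g.1) = U₂ := by
  obtain ⟨e, he⟩ := Submodule.exists_linearEquiv_restrict_eq (LinearEquiv.ofFinrankEq U₁ U₂ h)
  obtain ⟨u, u0, hu⟩ : ∃ u : Fin n → F, u ≠ 0 ∧ (u ∈ U₂ ∨ U₂ = ⊥) := by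
    by_cases c : U₂ = ⊥
    · exact ⟨fun _ => 1, fun f => one_ne_zero (congrFun f ⟨0, hn⟩), .inr c⟩
    · obtain ⟨u, h1, h2⟩ := Submodule.exists_mem_ne_zero_of_ne_bot c
      exact ⟨u, h2, .inl h1⟩
  obtain ⟨i, hi⟩ := Function.ne_iff.1 u0
  replace hi : u i ≠ 0 := hi
  set A := LinearMap.toMatrix' e.toLinearMap with hA
  have d0 : A.det ≠ 0 := by
    rw [hA, LinearMap.det_toMatrix']; exact (LinearEquiv.isUnit_det' e).ne_zero
  let s := 1 + vecMulVec ((A.det⁻¹ - 1) • u) (Pi.single i (u i)⁻¹)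
  have ds : s.det = A.det⁻¹ := by
    simp only [s]
    rw [vecMulVec_eq Unit, det_one_add_replicateCol_mul_replicateRow]
    simp [hi, mul_comm, mul_left_comm]
  let g : SpecialLinearGroup (Fin n) F := ⟨s * A, by rw [det_mul, ds, inv_mul_cancel₀ d0]⟩
  refine ⟨g, Submodule.eq_of_le_of_finrank_eq ?_ ?_⟩
  · rintro _ ⟨x, hx, rfl⟩
    have m : e x ∈ U₂ := he ⟨x, hx⟩ ▸ Subtype.prop _
    change (s * A) *ᵥ x ∈ U₂
    rw [← mulVec_mulVec, hA, LinearMap.toMatrix'_mulVec]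
    simp only [s, add_mulVec, one_mulVec, vecMulVec_mulVec]
    refine add_mem m ?_
    rcases hu with hu | hu
    · rw [op_smul_eq_smul]; exact Submodule.smul_mem _ _ (Submodule.smul_mem _ _ hu)
    · rw [hu, Submodule.mem_bot] at m
      change e x = 0 at m
      simp [m]
  · rw [← h]
    exact LinearEquiv.finrank_map_eq (SpecialLinearGroup.toLin' g) U₁

end CfsgH9
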