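import Cfsg.Agent.H9.SSF1
import Cfsg.Agent.H9.Stab
import Cfsg.Agent.L0.PCon

/-! The ZJ factorization of solvable groups and a stability argument on a space of functions. -/

set_option autoImplicit false

namespace CfsgH9

open Subgroup Cfsg
open scoped commutatorElement

variable {G : Type*} [Group G] {q : ℕ} {A B K M N S X Y Z : Subgroup G}

/-- `Z(J(S))` for the Thompson subgroup of abelian subgroups of largest order. -/
abbrev ZJ (S : Subgroup G) : Subgroup G := Zc (thompsonSubgroupOf 0 S)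

theorem ZJ_le (S : Subgroup G) : ZJ S ≤ S := inf_le_left.trans CfsgL0.J_le

theorem ZJ_comm (S : Subgroup G) : ⁅ZJ S, ZJ S⁆ = ⊥ :=
  le_bot_iff.1 ((commutator_mono le_rfl inf_le_left).trans (Zc_comm _).le)

theorem le_normalizer_ZJ (h : A ≤ normalizer (S : Set G)) : A ≤ normalizer (ZJ S : Set G) :=
  le_normalizer_Zc (h.trans CfsgL0.norm_le_norm_J)

theorem cj_ZJ (g : G) (S : Subgroup G) : cj g (ZJ S) = ZJ (cj g S) := by
  rw [cj_Zc, ZJ, CfsgL0.inj_J (f := (MulAut.conj g).toMonoidHom) (MulAut.conj g).injective]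

/-- functions on `G`, constant on the cosets `wK` and affine on the cosets `wY`. -/
def affFun (K Y : Subgroup G) (V : Type*) [CommGroup V] : Subgroup (G → V) where
  carrier := {f | (∀ w, ∀ k ∈ K, f (w * k) = f w) ∧
    ∀ w, ∀ y ∈ Y, ∀ z ∈ Y, f (w * y * z) * f w = f (w * y) * f (w * z)}
  one_mem' := ⟨fun _ _ _ => rfl, fun _ _ _ _ _ => rfl⟩
  mul_mem' := fun {f g} hf hg => ⟨fun w k hk => by simp only [Pi.mul_apply, hf.1 w k hk, hg.1 w k hk],
    fun w y hy z hz => by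
      simp only [Pi.mul_apply]
      rw [mul_mul_mul_comm, hf.2 w y hy z hz, hg.2 w y hy z hz, mul_mul_mul_comm]⟩
  inv_mem' := fun {f} hf => ⟨fun w k hk => by simp only [Pi.inv_apply, hf.1 w k hk],
    fun w y hy z hz => by simp only [Pi.inv_apply]; rw [← mul_inv, hf.2 w y hy z hz, mul_inv]⟩

/-- left translation of such functions. -/
def affAct (K Y : Subgroup G) (V : Type*) [CommGroup V] : G →* MulAut (affFun K Y V) :=
  MonoidHom.mk' (fun g =>
    { toFun := fun f => ⟨fun w => f.1 (g⁻¹ * w), fun w k hk => by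
        simpa only [mul_assoc] using f.2.1 (g⁻¹ * w) k hk, fun w y hy z hz => by
        simpa only [mul_assoc] using f.2.2 (g⁻¹ * w) y hy z hz⟩
      invFun := fun f => ⟨fun w => f.1 (g * w), fun w k hk => by
        simpa only [mul_assoc] using f.2.1 (g * w) k hk, fun w y hy z hz => by
        simpa only [mul_assoc] using f.2.2 (g * w) y hy z hz⟩
      left_inv := fun f => Subtype.ext (funext fun w => by simp)
      right_inv := fun f => Subtype.ext (funext fun w => by simp)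
      map_mul' := fun _ _ => rfl })
    fun a b => MulEquiv.ext fun f => Subtype.ext (funext fun w => by
      change f.1 ((a * b)⁻¹ * w) = f.1 (b⁻¹ * (a⁻¹ * w))
      rw [mul_inv_rev, mul_assoc])

variable [Finite G] [hq : Fact q.Prime]

theorem ZJ_ne_bot (hS : IsPGroup q S) (h : S ≠ ⊥) : ZJ S ≠ ⊥ :=
  CfsgL0.ZJ_ne_bot (dvd_zero q) hS h

theorem zj_fac (hs : Group.IsSolvable M) (h2 : q ≠ 2) (h5 : 5 ≤ q ∨ (Nat.card M).Coprime 2)
    (hS : Syl q S M) : CfsgH1.Fac (Opp q M) (M ⊓ normalizer (ZJ S : Set G)) M := by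
  have a := hS.subgroupOf le_rfl
  rw [subgroupOf_self] at a
  have e := im_qpp_self q M
  have s : Group.IsSolvable (⊤ : Subgroup (M ⧸ pPrimeCore q M)) := e ▸ isSolvable_im le_rfl hs
  have := congrArg (map M.subtype) (CfsgL0.core'_sup_ZJa h2 ⟨a.le, a.pg, a.nd⟩ (nst_of_solvable s
    (h5.imp_right fun h => e ▸ coprime_im le_rfl h)) (chP_of_solvable s
      (by rw [Opp_top, pPrimeCore_quotient_pPrimeCore])).con)
  rw [Subgroup.map_sup, ← MonoidHom.range_eq_map, range_subtype] at this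
  have b : Opp q M ⊔ (M ⊓ normalizer (ZJ S : Set G)) = M := by
    refine le_antisymm (sup_le (Opp_le q M) inf_le_left) (this.ge.trans (sup_le_sup_left
      (le_inf (map_subtype_le _) ((le_normalizer_map _).trans (le_of_eq ?_))) _))
    rw [map_Zc M.subtype_injective, ← CfsgL0.inj_J M.subtype_injective,
      map_subgroupOf_eq_of_le hS.le]
  have := CfsgH1.fac_sup_of_le_normalizer (N := Opp q M) (H := M ⊓ normalizer (ZJ S : Set G))
    (inf_le_left.trans (le_normalizer_Opp le_normalizer))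
  rwa [b] at this

theorem aff_fixed {V : Type*} [CommGroup V] [Finite V] (pV : IsPGroup q V) (pY : IsPGroup q Y)
    (f1 : ∀ w, ∃ s ∈ centralizer (Y : Set G), ∃ k ∈ K, w = s * k) (cX : (Nat.card X).Coprime q)
    (sX : Group.IsSolvable X) (hn : Y ≤ normalizer (X : Set G))
    (h5 : 5 ≤ q ∨ q ≠ 2 ∧ (Nat.card X).Coprime 2) {x : G} (hx : x ∈ ⁅X, Y⁆) (f : affFun K Y V) :
    affAct K Y V x f = f := by
  let inr := SemidirectProduct.inr (φ := affAct K Y V)
  let inl := SemidirectProduct.inl (φ := affAct K Y V)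
  have : Finite (affFun K Y V ⋊[affAct K Y V] G) := Finite.of_equiv _ SemidirectProduct.equivProd.symm
  have : inl.range.Normal := by
    rw [SemidirectProduct.range_inl_eq_ker_rightHom]; infer_instance
  have pP : IsPGroup q inl.range := by
    rw [MonoidHom.range_eq_map]
    refine IsPGroup.map (fun g => ?_) _
    obtain ⟨n, hn⟩ := IsPGroup.iff_card.1 pV
    exact ⟨n, Subtype.ext (Subtype.ext (funext fun w => by
      have := pow_card_eq_one' (x := g.1.1 w)
      rwa [hn] at this))⟩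
  have n1 : Y.map inr ≤ normalizer (X.map inr : Set _) := (map_mono hn).trans (le_normalizer_map _)
  have n2 : ∀ D, D ≤ normalizer (inl.range : Set (affFun K Y V ⋊[affAct K Y V] G)) :=
    fun _ => le_normalizer_of_normal
  obtain ⟨D, d1, d2, d3, d4⟩ := quad_stab (p := q) (M := (Y.map inr ⊔ X.map inr) ⊔ inl.range)
    (nst_of_solvable (isSolvable_sup (n2 _) (isSolvable_sup n1 (CfsgH1.isSolvable_of_isPGroup
      (pY.map _)) (isSolvable_map _ sX)) (CfsgH1.isSolvable_of_isPGroup pP)) (h5.imp_right fun h =>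
        coprime_sup (n2 _) (coprime_sup n1 (coprime_of_isPGroup_ne h.1 (pY.map _))
          (coprime_map _ h.2)) (coprime_of_isPGroup_ne h.1 pP))) le_sup_right pP (n2 _)
    (le_sup_left.trans le_sup_left) (pY.map inr) (by
      rw [commutator_eq_bot_iff_le_centralizer, commutator_le]
      rintro _ ⟨g, rfl⟩ _ ⟨y, hy, rfl⟩ _ ⟨z, hz, rfl⟩
      have e : ⁅inl g, inr y⁆ = inl (g * affAct K Y V y g⁻¹) := by
        rw [commutatorElement_def, map_mul, SemidirectProduct.inl_aut, map_inv, map_inv]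
        simp only [mul_assoc]; rfl
      rw [e, ← mul_inv_eq_iff_eq_mul, ← map_inv, ← SemidirectProduct.inl_aut]
      refine congrArg _ (Subtype.ext (funext fun w => ?_))
      obtain ⟨s, hs, k, hk, rfl⟩ := f1 w
      change g.1 (z⁻¹ * (s * k)) * (g.1 (y⁻¹ * (z⁻¹ * (s * k))))⁻¹ =
        g.1 (s * k) * (g.1 (y⁻¹ * (s * k)))⁻¹
      have a := hs _ (inv_mem hy)
      have b := hs _ (inv_mem hz)
      rw [← mul_assoc z⁻¹, b, ← mul_assoc y⁻¹, ← mul_assoc y⁻¹, ← mul_assoc y⁻¹, a, g.2.1 _ k hk,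
        g.2.1 _ k hk, g.2.1 _ k hk, g.2.1 _ k hk, mul_inv_eq_iff_eq_mul, mul_right_comm,
        eq_mul_inv_iff_mul_eq, mul_comm (g.1 s), g.2.2 s _ (inv_mem hy) _ (inv_mem hz), mul_comm])
  have c1 : ⁅X, Y⁆.map inr ≤ D := by
    rw [map_commutator]
    exact (commutator_mono le_rfl d1).trans (commutator_le_right_of
      ((le_sup_right.trans le_sup_left).trans d3))
  have c2 := d4 (le_Oup c1 (coprime_map _ (coprime_of_le (commutator_le_left_of hn) cX))
    (mem_map_of_mem _ hx)) _ ⟨f, rfl⟩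
  rw [eq_comm, ← mul_inv_eq_iff_eq_mul, ← map_inv, ← SemidirectProduct.inl_aut] at c2
  exact SemidirectProduct.inl_injective c2

theorem comm_le_core (hZ : ⁅Z, Z⁆ = ⊥) (pZ : IsPGroup q Z) (cK : (Nat.card K).Coprime q)
    (f1 : CfsgH1.Fac Z K ⊤) (f2 : CfsgH1.Fac N X K) (hN : N ≤ normalizer (Z : Set G)) (hY : Y ≤ Z)
    (sX : Group.IsSolvable X) (hn : Y ≤ normalizer (X : Set G))
    (h5 : 5 ≤ q ∨ q ≠ 2 ∧ (Nat.card X).Coprime 2) : ⁅X, Y⁆ ≤ K.normalCore := by
  have cm := isMulCommutative_iff_forall.1 (isMulCommutative_iff_comm.2 hZ)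
  letI : CommGroup Z := { (inferInstance : Group Z) with
    mul_comm := fun a b => Subtype.ext (cm _ a.2 _ b.2) }
  choose s hs k hk e using CfsgH1.fac_top_iff.1 f1
  have u : ∀ a ∈ Z, ∀ b ∈ K, s (a * b) = a := fun a ha b hb => by
    have h1 : a⁻¹ * s (a * b) ∈ Z ⊓ K := mem_inf.2 ⟨mul_mem (inv_mem ha) (hs _), by
      rw [show a⁻¹ * s (a * b) = b * (k (a * b))⁻¹ by
        rw [eq_mul_inv_iff_mul_eq, mul_assoc, ← e, inv_mul_cancel_left]]
      exact mul_mem hb (inv_mem (hk _))⟩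
    rw [inf_eq_bot_of_p_pp pZ cK, mem_bot, inv_mul_eq_one] at h1
    exact h1.symm
  have r : ∀ w, ∀ b ∈ K, s (w * b) = s w := fun w b hb => by
    conv_lhs => rw [e w, mul_assoc, u _ (hs w) _ (mul_mem (hk w) hb)]
  have l : ∀ w, ∃ n ∈ N, ∀ y ∈ Y, s (w * y) = s w * (n * y * n⁻¹) := fun w => by
    obtain ⟨n, h1, x, h2, e1⟩ := f2.2.2 _ (hk w)
    refine ⟨n, h1, fun y hy => ?_⟩
    conv_lhs => rw [e w, e1, show s w * (n * x) * y = s w * (n * y * n⁻¹) * (n * (y⁻¹ * x * y⁻¹⁻¹))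
      by group]
    exact u _ (mul_mem (hs w) ((mem_normalizer_iff.1 (hN h1) y).1 (hY hy))) _
      (mul_mem (f2.1 h1) (f2.2.1 ((mem_normalizer_iff.1 (hn (inv_mem hy)) x).1 h2)))
  let f : affFun K Y Z := ⟨fun w => ⟨s w, hs w⟩, fun w b hb => Subtype.ext (r w b hb),
    fun w y hy z hz => Subtype.ext (by
      obtain ⟨n, h1, h2⟩ := l w
      change s (w * y * z) * s w = s (w * y) * s (w * z)
      rw [mul_assoc w, h2 _ (mul_mem hy hz), h2 y hy, h2 z hz, mul_assoc, mul_assoc (s w),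
        cm _ ((mem_normalizer_iff.1 (hN h1) _).1 (hY (mul_mem hy hz))) _ (hs w),
        ← mul_assoc (n * y * n⁻¹), cm _ ((mem_normalizer_iff.1 (hN h1) _).1 (hY hy)) _ (hs w)]
      group)⟩
  intro x hx w
  have := congrFun (congrArg Subtype.val (aff_fixed pZ (pZ.to_le hY) (fun w => ⟨s w,
    fun y hy => cm _ (hY hy) _ (hs w), k w, hk w, e w⟩) (coprime_of_le f2.2.1 cK) sX hn h5
    (inv_mem hx) f)) w⁻¹
  have h : s (x⁻¹⁻¹ * w⁻¹) = s w⁻¹ := congrArg Subtype.val this
  rw [inv_inv] at h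
  have h1 := mul_mem (inv_mem (hk w⁻¹)) (hk (x * w⁻¹))
  have h2 := e (x * w⁻¹)
  have h3 := e w⁻¹
  rw [h] at h2
  rwa [eq_inv_mul_iff_mul_eq.2 h2.symm, eq_inv_mul_iff_mul_eq.2 h3.symm, mul_inv_rev, inv_inv,
    inv_inv, mul_assoc, mul_inv_cancel_left, ← mul_assoc] at h1

theorem solvable_of_ZK (hZ : ⁅Z, Z⁆ = ⊥) (pZ : IsPGroup q Z) (cK : (Nat.card K).Coprime q)
    (sK : Group.IsSolvable K) (f1 : CfsgH1.Fac Z K ⊤) (h5 : 5 ≤ q ∨ q ≠ 2 ∧ (Nat.card K).Coprime 2)
    (h : ∀ D : Subgroup G, (∀ Y ≤ Z, (∃ X, CfsgH1.Fac (K ⊓ normalizer (Z : Set G)) X K ∧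
      Y ≤ normalizer (X : Set G)) → Y ≤ D) → Z ≤ D) : Group.IsSolvable (⊤ : Subgroup G) := by
  have n1 : K ≤ normalizer ((Z ⊔ K.normalCore : Subgroup G) : Set G) := by
    rw [le_normalizer_iff_cj]
    intro k hk
    rw [cj_sup, cj_normal k K.normalCore]
    refine sup_le (map_le_iff_le_comap.2 (h _ ?_)) le_sup_right
    rintro Y hY ⟨X, f2, hn⟩ y hy
    obtain ⟨n, h1, x, h2, rfl⟩ := f2.2.2 k hk
    have := comm_le_core hZ pZ cK f1 f2 inf_le_right hY (isSolvable_of_le f2.2.1 sK) hn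
      (h5.imp_right fun h => ⟨h.1, coprime_of_le f2.2.1 h.2⟩) (commutator_mem_commutator h2 hy)
    change n * x * y * (n * x)⁻¹ ∈ Z ⊔ K.normalCore
    rw [show n * x * y * (n * x)⁻¹ = n * ⁅x, y⁆ * n⁻¹ * (n * y * n⁻¹) by
      rw [commutatorElement_def]; group]
    exact mul_mem (mem_sup_right (K.normalCore_normal.conj_mem _ this n))
      (mem_sup_left ((mem_normalizer_iff.1 h1.2 y).1 (hY hy)))
  exact isSolvable_of_le (f1.sup_eq.ge.trans (sup_le (le_sup_left.trans le_sup_right) le_sup_left))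
    (isSolvable_sup n1 sK (isSolvable_sup (B := K.normalCore) le_normalizer_of_normal
      (CfsgH1.isSolvable_of_isPGroup pZ) (isSolvable_of_le K.normalCore_le sK)))

end CfsgH9
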