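import Mathlib

/-! Poisson summation for Gaussians in several variables. -/

set_option autoImplicit false
namespace CfsgH9.Theta
open Matrix Complex Real

variable {n : ℕ}

/-- symmetric positive definite -/
def PD (M : Matrix (Fin n) (Fin n) ℝ) : Prop := M.IsSymm ∧ ∀ x, x ≠ 0 → 0 < x ⬝ᵥ M *ᵥ x

theorem PD.lower {M : Matrix (Fin n) (Fin n) ℝ} (h : PD M) :
    ∃ ε > 0, ∀ x : Fin n → ℝ, ε * (x ⬝ᵥ x) ≤ x ⬝ᵥ M *ᵥ x := by
  have c1 : Continuous fun x : Fin n → ℝ => x ⬝ᵥ M *ᵥ x := by fun_prop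
  by_cases e : (Metric.sphere (0 : Fin n → ℝ) 1).Nonempty
  · obtain ⟨u, hu, k⟩ := (isCompact_sphere (0 : Fin n → ℝ) 1).exists_isMinOn e c1.continuousOn
    have u0 : u ≠ 0 := by rintro rfl; simp at hu
    refine ⟨u ⬝ᵥ M *ᵥ u / (n + 1), div_pos (h.2 u u0) (by positivity), fun x => ?_⟩
    by_cases x0 : x = 0
    · simp [x0]
    have p : 0 < ‖x‖ := norm_pos_iff.2 x0
    have k1 : u ⬝ᵥ M *ᵥ u ≤ (‖x‖⁻¹ • x) ⬝ᵥ M *ᵥ (‖x‖⁻¹ • x) :=
      k (by simp [norm_smul, p.ne'] : ‖x‖⁻¹ • x ∈ Metric.sphere (0 : Fin n → ℝ) 1)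
    rw [mulVec_smul, smul_dotProduct, dotProduct_smul, smul_eq_mul, smul_eq_mul, ← mul_assoc,
      ← mul_inv, inv_mul_eq_div, le_div_iff₀ (mul_pos p p)] at k1
    have k2 : x ⬝ᵥ x ≤ (n + 1) * (‖x‖ * ‖x‖) := by
      have : x ⬝ᵥ x ≤ ∑ _i : Fin n, ‖x‖ * ‖x‖ := Finset.sum_le_sum fun i _ => by
        have := norm_le_pi_norm x i
        rw [Real.norm_eq_abs] at this
        rw [← abs_mul_abs_self]
        exact mul_self_le_mul_self (abs_nonneg _) this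
      simp only [Finset.sum_const, Finset.card_univ, Fintype.card_fin, nsmul_eq_mul] at this
      nlinarith [mul_pos p p]
    refine le_trans ?_ k1
    rw [div_mul_eq_mul_div, div_le_iff₀ (by positivity), mul_assoc]
    exact mul_le_mul_of_nonneg_left (by linarith) (h.2 u u0).le
  · refine ⟨1, one_pos, fun x => ?_⟩
    by_cases x0 : x = 0
    · simp [x0]
    exact absurd ⟨‖x‖⁻¹ • x, by simp [norm_smul, norm_ne_zero_iff.2 x0]⟩ e

theorem sum1 {a : ℝ} (ha : 0 < a) (β : ℝ) : Summable fun k : ℤ => rexp (-a * k ^ 2 + β * k) := by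
  refine Summable.of_nonneg_of_le (fun _ => (exp_pos _).le) (fun k => ?_)
    (summable_pow_mul_jacobiTheta₂_term_bound (|β| / (2 * π)) (div_pos ha pi_pos) 0)
  rw [pow_zero, one_mul]
  refine exp_le_exp.2 ?_
  have : β * k ≤ |β| * |(k : ℝ)| := by rw [← abs_mul]; exact le_abs_self _
  have e : -π * (a / π * k ^ 2 - 2 * (|β| / (2 * π)) * (|k| : ℤ)) = -a * k ^ 2 + |β| * |(k : ℝ)| := by
    push_cast; field_simp; ring
  rw [e]; linarith

theorem sumPi (n : ℕ) (f : Fin n → ℤ → ℝ) (h0 : ∀ i k, 0 ≤ f i k) (h : ∀ i, Summable (f i)) :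
    Summable fun x : Fin n → ℤ => ∏ i, f i (x i) := by
  induction n with
  | zero => exact .of_finite
  | succ n ih =>
    rw [← (Fin.consEquiv fun _ => ℤ).summable_iff]
    refine ((h 0).mul_of_nonneg (ih (fun i => f i.succ) (fun _ _ => h0 _ _) fun _ => h _) (h0 0)
      fun x => Finset.prod_nonneg fun _ _ => h0 _ _).congr fun p => ?_
    simp [Fin.prod_univ_succ, Fin.consEquiv]

/-- integer vector as a complex vector -/
def cv (x : Fin n → ℤ) : Fin n → ℂ := fun i => x i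
/-- real matrix as a complex matrix -/
def cm (M : Matrix (Fin n) (Fin n) ℝ) : Matrix (Fin n) (Fin n) ℂ := M.map (↑)

theorem q_cast (M : Matrix (Fin n) (Fin n) ℝ) (x : Fin n → ℤ) : cv x ⬝ᵥ cm M *ᵥ cv x =
    (((fun i => (x i : ℝ)) ⬝ᵥ M *ᵥ fun i => (x i : ℝ) : ℝ) : ℂ) := by
  simp [cv, cm, dotProduct, mulVec]

theorem sumQ {M : Matrix (Fin n) (Fin n) ℝ} (h : PD M) {s : ℂ} (hs : 0 < s.re) (b : Fin n → ℂ) :
    Summable fun x : Fin n → ℤ => ‖cexp (-π * s * (cv x ⬝ᵥ cm M *ᵥ cv x) + 2 * π * (b ⬝ᵥ cv x))‖ := by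
  obtain ⟨ε, he, k⟩ := h.lower
  refine Summable.of_nonneg_of_le (fun _ => norm_nonneg _) (fun x => ?_)
    (sumPi n (fun i k => rexp (-(π * s.re * ε) * k ^ 2 + (2 * π * (b i).re) * k))
      (fun _ _ => (exp_pos _).le) fun i => sum1 (by positivity) _)
  rw [norm_exp, ← Real.exp_sum, q_cast]
  refine exp_le_exp.2 ?_
  have k1 := mul_le_mul_of_nonneg_left (k fun i => x i) (mul_pos pi_pos hs).le
  have e1 : (2 * π * (b ⬝ᵥ cv x)).re = ∑ i, 2 * π * (b i).re * x i := by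
    simp [dotProduct, cv, Finset.mul_sum, mul_assoc]
  rw [add_re, e1, Finset.sum_add_distrib, ← Finset.mul_sum]
  have e2 : (fun i => (x i : ℝ)) ⬝ᵥ (fun i => (x i : ℝ)) = ∑ i, (x i : ℝ) ^ 2 := by
    simp [dotProduct, pow_two]
  rw [e2] at k1
  simp only [neg_mul, neg_re, mul_re, ofReal_re, ofReal_im, mul_zero, sub_zero, zero_mul]
  linarith

theorem sum1c {s : ℂ} (hs : 0 < s.re) (β γ : ℂ) :
    Summable fun k : ℤ => ‖cexp (-π * s * k ^ 2 + β * k + γ)‖ := by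
  refine ((sum1 (mul_pos pi_pos hs) β.re).mul_right (rexp γ.re)).congr fun k => ?_
  rw [norm_exp, ← Real.exp_add]
  simp [pow_two]

theorem PD.unit {M : Matrix (Fin n) (Fin n) ℝ} (h : PD M) : IsUnit M.det := by
  rw [← isUnit_iff_isUnit_det, ← mulVec_injective_iff_isUnit]
  intro x y e
  by_contra c
  have := h.2 (x - y) (sub_ne_zero.2 c)
  rw [mulVec_sub, e, sub_self, dotProduct_zero] at this
  exact lt_irrefl _ this

theorem PD.inv {M : Matrix (Fin n) (Fin n) ℝ} (h : PD M) : PD M⁻¹ := by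
  refine ⟨by rw [IsSymm, transpose_nonsing_inv, h.1], fun x x0 => ?_⟩
  have e : M *ᵥ (M⁻¹ *ᵥ x) = x := by rw [mulVec_mulVec, mul_nonsing_inv _ h.unit, one_mulVec]
  have := h.2 (M⁻¹ *ᵥ x) fun f => x0 (by rw [← e, f, mulVec_zero])
  rwa [e, dotProduct_comm] at this

theorem cm_symm {M : Matrix (Fin n) (Fin n) ℝ} (h : M.IsSymm) (u v : Fin n → ℂ) :
    u ⬝ᵥ cm M *ᵥ v = v ⬝ᵥ cm M *ᵥ u := by
  rw [dotProduct_mulVec, ← mulVec_transpose, dotProduct_comm, show (cm M)ᵀ = cm M from h.map _]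

theorem sumW {M : Matrix (Fin n) (Fin n) ℝ} (h : PD M) {s : ℂ} (hs : 0 < s.re) (b : Fin n → ℂ)
    (w : (Fin n → ℤ) → Fin n → ℂ) (hw : ∀ y, cm M *ᵥ w y = cv y + I • b) :
    Summable fun y => cexp (-π / s * (w y ⬝ᵥ (cv y + I • b))) := by
  have e : ∀ y, w y = cm M⁻¹ *ᵥ (cv y + I • b) := fun y => by
    have : cm M⁻¹ * cm M = 1 := by
      have := congrArg (ofRealHom.mapMatrix) (nonsing_inv_mul _ h.unit)
      rwa [map_mul, map_one] at this
    rw [← hw, mulVec_mulVec, this, one_mulVec]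
  have hs' : 0 < s⁻¹.re := by
    rw [inv_re]; exact div_pos hs (normSq_pos.2 fun f => by simp [f] at hs)
  refine ((sumQ h.inv hs' (-(s⁻¹ * I) • cm M⁻¹ *ᵥ b)).of_norm.mul_right
    (cexp (π / s * (b ⬝ᵥ cm M⁻¹ *ᵥ b)))).congr fun y => ?_
  rw [← Complex.exp_add, e, dotProduct_comm _ (cv y + I • b), mulVec_add, mulVec_smul, add_dotProduct,
    dotProduct_add, dotProduct_add, smul_dotProduct, smul_dotProduct, smul_dotProduct, dotProduct_smul,
    dotProduct_smul, cm_symm h.inv.1 b (cv y), dotProduct_comm _ (cv y)]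
  congr 1
  simp only [smul_eq_mul, div_eq_mul_inv]
  linear_combination (π * s⁻¹ * (b ⬝ᵥ cm M⁻¹ *ᵥ b)) * I_mul_I

/-- Schur complement of the first entry -/
noncomputable def sc {K : Type*} [Field K] (M : Matrix (Fin (n + 1)) (Fin (n + 1)) K) :
    Matrix (Fin n) (Fin n) K := fun i j => M i.succ j.succ - M 0 i.succ * M 0 j.succ / M 0 0
/-- the rest of the first row -/
def r0 {K : Type*} (M : Matrix (Fin (n + 1)) (Fin (n + 1)) K) : Fin n → K := fun i => M 0 i.succ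

theorem sc_mulVec {K : Type*} [Field K] {M : Matrix (Fin (n + 1)) (Fin (n + 1)) K} (h : M.IsSymm)
    (m : M 0 0 ≠ 0) (w : Fin (n + 1) → K) :
    sc M *ᵥ Fin.tail w = Fin.tail (M *ᵥ w) - ((M *ᵥ w) 0 / M 0 0) • r0 M := by
  ext i
  simp only [sc, r0, mulVec, dotProduct, Fin.tail, Fin.sum_univ_succ, Pi.sub_apply, Pi.smul_apply,
    smul_eq_mul, sub_mul, Finset.sum_sub_distrib, h.apply 0 i.succ]
  have : ∑ j : Fin n, M 0 i.succ * M 0 j.succ / M 0 0 * w j.succ =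
      (∑ j : Fin n, M 0 j.succ * w j.succ) / M 0 0 * M 0 i.succ := by
    rw [Finset.sum_div, Finset.sum_mul]
    exact Finset.sum_congr rfl fun _ _ => by ring
  rw [this]
  field_simp
  ring

theorem row0 {K : Type*} [Field K] (M : Matrix (Fin (n + 1)) (Fin (n + 1)) K) (w : Fin (n + 1) → K) :
    (M *ᵥ w) 0 = M 0 0 * w 0 + r0 M ⬝ᵥ Fin.tail w := by
  simp [r0, mulVec, dotProduct, Fin.tail, Fin.sum_univ_succ]

theorem dot_succ {K : Type*} [Field K] (u w : Fin (n + 1) → K) :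
    u ⬝ᵥ w = u 0 * w 0 + Fin.tail u ⬝ᵥ Fin.tail w := by
  simp [dotProduct, Fin.tail, Fin.sum_univ_succ]

theorem q_sc {K : Type*} [Field K] {M : Matrix (Fin (n + 1)) (Fin (n + 1)) K} (h : M.IsSymm)
    (m : M 0 0 ≠ 0) (w : Fin (n + 1) → K) :
    w ⬝ᵥ M *ᵥ w = (M *ᵥ w) 0 ^ 2 / M 0 0 + Fin.tail w ⬝ᵥ sc M *ᵥ Fin.tail w := by
  rw [sc_mulVec h m, dot_succ, dotProduct_sub, dotProduct_smul, dotProduct_comm _ (r0 M), smul_eq_mul,
    row0]
  field_simp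
  ring

theorem PD.pos0 {M : Matrix (Fin (n + 1)) (Fin (n + 1)) ℝ} (h : PD M) : 0 < M 0 0 := by
  simpa using h.2 (Pi.single 0 1) (by simp)

theorem PD.sc {M : Matrix (Fin (n + 1)) (Fin (n + 1)) ℝ} (h : PD M) : PD (sc M) := by
  refine ⟨IsSymm.ext fun i j => by simp only [Theta.sc, h.1.apply i.succ j.succ, mul_comm],
    fun x x0 => ?_⟩
  have := h.2 (Fin.cons (-(r0 M ⬝ᵥ x) / M 0 0) x) fun e => x0 (congrArg Fin.tail e)
  rw [q_sc h.1 h.pos0.ne', row0, Fin.tail_cons, Fin.cons_zero, mul_div_cancel₀ _ h.pos0.ne'] at this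
  simpa using this

theorem cm_sc (M : Matrix (Fin (n + 1)) (Fin (n + 1)) ℝ) : cm (sc M) = sc (cm M) := by
  ext i j; simp [cm, sc]

theorem cpow_half {s : ℂ} (hs : 0 < s.re) {m : ℝ} (hm : 0 < m) :
    1 / (s * m) ^ (1 / 2 : ℂ) = 1 / (m : ℂ) ^ (1 / 2 : ℂ) * (1 / s ^ (1 / 2 : ℂ)) := by
  have s0 : s ≠ 0 := fun f => by simp [f] at hs
  have m0 : (m : ℂ) ≠ 0 := ofReal_ne_zero.2 hm.ne'
  rw [cpow_def_of_ne_zero (mul_ne_zero s0 m0), cpow_def_of_ne_zero s0, cpow_def_of_ne_zero m0,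
    mul_comm s, log_ofReal_mul hm s0, add_mul, Complex.exp_add, ofReal_log hm.le]
  field_simp

theorem poisson (n : ℕ) : ∀ M : Matrix (Fin n) (Fin n) ℝ, PD M → ∃ κ : ℂ, ∀ s : ℂ, 0 < s.re →
    ∀ (b : Fin n → ℂ) (w : (Fin n → ℤ) → Fin n → ℂ), (∀ y, cm M *ᵥ w y = cv y + I • b) →
    ∑' x : Fin n → ℤ, cexp (-π * s * (cv x ⬝ᵥ cm M *ᵥ cv x) + 2 * π * (b ⬝ᵥ cv x)) =
      κ * (1 / s ^ (1 / 2 : ℂ)) ^ n * ∑' y, cexp (-π / s * (w y ⬝ᵥ (cv y + I • b))) := by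
  induction n with
  | zero => exact fun M _ => ⟨1, fun s _ b w _ => by simp⟩
  | succ n ih =>
  intro M h
  obtain ⟨κ, hκ⟩ := ih _ h.sc
  have m0 := h.pos0
  have hm : cm M 0 0 = (M 0 0 : ℂ) := rfl
  have m1 : cm M 0 0 ≠ 0 := ofReal_ne_zero.2 m0.ne'
  have sy : (cm M).IsSymm := h.1.map _
  refine ⟨1 / (M 0 0 : ℂ) ^ (1 / 2 : ℂ) * κ, fun s hs b w hw => ?_⟩
  have s0 : s ≠ 0 := fun f => by simp [f] at hs
  have hsm : 0 < (s * M 0 0).re := by simpa using mul_pos hs m0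
  set c := r0 (cm M)
  set m := cm M 0 0
  have ct : ∀ (k : ℤ) (x : Fin n → ℤ), Fin.tail (cv (Fin.cons k x : Fin (n + 1) → ℤ)) = cv x :=
    fun k x => rfl
  have c0 : ∀ (k : ℤ) (x : Fin n → ℤ), cv (Fin.cons k x : Fin (n + 1) → ℤ) 0 = k := fun k x => rfl
  let g : ℤ → (Fin n → ℤ) → ℂ := fun k x => cexp (-π / (s * m) * (k + I * b 0) ^ 2) *
    cexp (-π * s * (cv x ⬝ᵥ cm (sc M) *ᵥ cv x) +
      2 * π * ((Fin.tail b + (I * (k + I * b 0) / m) • c) ⬝ᵥ cv x))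
  have sg : Summable (Function.uncurry g) := by
    have hs' : 0 < (s * M 0 0)⁻¹.re := by
      rw [inv_re]; exact div_pos hsm (normSq_pos.2 fun f => by simp [f] at hsm)
    refine .of_norm (((sum1c hs' (-π / (s * m) * (2 * I * b 0)) (-π / (s * m) * (I * b 0) ^ 2)).mul_of_nonneg
      (sumQ h.sc hs (Fin.tail b - (b 0 / m) • c)) (fun _ => norm_nonneg _)
        fun _ => norm_nonneg _).congr fun ⟨k, x⟩ => ?_)
    simp only [Function.uncurry, g, norm_mul]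
    congr 1
    · congr 2
      rw [← hm, div_eq_mul_inv]; ring
    · obtain ⟨t, ht⟩ : ∃ t : ℝ, c ⬝ᵥ cv x = t :=
        ⟨∑ i, M 0 i.succ * x i, by simp [c, r0, cm, cv, dotProduct]⟩
      rw [norm_exp, norm_exp, add_re, add_re]
      congr 2
      rw [sub_dotProduct, add_dotProduct, smul_dotProduct, smul_dotProduct, ht, smul_eq_mul, smul_eq_mul,
        show 2 * π * (Fin.tail b ⬝ᵥ cv x + I * (k + I * b 0) / m * t) = 2 * π *
          (Fin.tail b ⬝ᵥ cv x - b 0 / m * t) + I * ((2 * π * k * t / M 0 0 : ℝ) : ℂ) by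
          push_cast; rw [← hm]; linear_combination (2 * π * b 0 / m * t) * I_mul_I,
        add_re, I_mul_re, ofReal_im, neg_zero, add_zero]
  have A : ∀ x : Fin n → ℤ, ∑' k : ℤ, cexp (-π * s * (cv (Fin.cons k x : Fin (n + 1) → ℤ) ⬝ᵥ cm M *ᵥ
      cv (Fin.cons k x : Fin (n + 1) → ℤ)) + 2 * π * (b ⬝ᵥ cv (Fin.cons k x : Fin (n + 1) → ℤ))) =
      1 / (s * M 0 0) ^ (1 / 2 : ℂ) * ∑' k, g k x := fun x => by
    have := tsum_exp_neg_quadratic hsm (b 0 - s * (c ⬝ᵥ cv x))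
    rw [← hm] at this
    have e1 := congrArg (· * cexp (-π * s * ((c ⬝ᵥ cv x) ^ 2 / m + cv x ⬝ᵥ cm (sc M) *ᵥ cv x) +
      2 * π * (Fin.tail b ⬝ᵥ cv x))) this
    rw [mul_assoc (1 / _), ← tsum_mul_right, ← tsum_mul_right] at e1
    rw [← hm]
    refine (tsum_congr fun k => ?_).trans (e1.trans (congrArg _ (tsum_congr fun k => ?_)))
    · rw [← Complex.exp_add, q_sc sy m1, row0, dot_succ b, ct, c0, cm_sc]
      congr 1
      change -π * s * ((m * k + c ⬝ᵥ cv x) ^ 2 / m + _) + _ = _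
      field_simp
      ring
    · simp only [g, ← Complex.exp_add]
      congr 1
      rw [add_dotProduct, smul_dotProduct, smul_eq_mul]
      field_simp
      linear_combination (-s ^ 2 * (c ⬝ᵥ cv x) ^ 2) * I_mul_I
  have B : ∀ k : ℤ, ∑' x, g k x = κ * (1 / s ^ (1 / 2 : ℂ)) ^ n * ∑' y : Fin n → ℤ,
      cexp (-π / s * (w (Fin.cons k y) ⬝ᵥ (cv (Fin.cons k y : Fin (n + 1) → ℤ) + I • b))) := fun k => by
    have e : ∀ y, cm (sc M) *ᵥ Fin.tail (w (Fin.cons k y)) =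
        cv y + I • (Fin.tail b + (I * (k + I * b 0) / m) • c) := fun y => by
      rw [cm_sc, sc_mulVec sy m1, hw]
      ext i
      simp only [Fin.tail, Pi.add_apply, Pi.sub_apply, Pi.smul_apply, smul_eq_mul, c0]
      change (cv y i + _) - _ * c i = _
      linear_combination (-(k + I * b 0) / m * c i) * I_mul_I
    simp only [g]
    rw [tsum_mul_left, hκ s hs _ _ e, mul_left_comm, ← tsum_mul_left]
    congr 2
    ext y
    rw [← Complex.exp_add, ← e, ← hw, q_sc sy m1, hw, cm_sc]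
    congr 1
    simp only [Pi.add_apply, Pi.smul_apply, smul_eq_mul, c0]
    change _ = -π / s * (_ / m + _)
    field_simp
    ring
  have s1 := (Fin.consEquiv fun _ => ℤ).summable_iff.2 (sumQ h hs b).of_norm
  have s2 := (Fin.consEquiv fun _ => ℤ).summable_iff.2 (sumW h hs b w hw)
  rw [← (Fin.consEquiv fun _ => ℤ).tsum_eq, ← (Fin.consEquiv fun _ => ℤ).tsum_eq]
  refine s1.tsum_prod.trans ((Summable.tsum_comm (f := fun k x => cexp (-π * s *
    (cv (Fin.cons k x : Fin (n + 1) → ℤ) ⬝ᵥ cm M *ᵥ cv (Fin.cons k x : Fin (n + 1) → ℤ)) +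
      2 * π * (b ⬝ᵥ cv (Fin.cons k x : Fin (n + 1) → ℤ)))) s1).symm.trans ?_)
  refine (tsum_congr A).trans ?_
  rw [tsum_mul_left, sg.tsum_comm, tsum_congr B, tsum_mul_left, cpow_half hs m0]
  refine Eq.trans ?_ (congrArg _ s2.tsum_prod.symm)
  rw [pow_succ]
  simp only [Function.comp, Fin.consEquiv, Equiv.coe_fn_mk]
  ring

end CfsgH9.Theta
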