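import Cfsg.Agent.H9.Theta1

/-! The theta series of an even unimodular lattice of rank 24. -/

set_option autoImplicit false
namespace CfsgH9.Theta
open Matrix Complex Real ModularForm EisensteinSeries
open UpperHalfPlane hiding I
open scoped MatrixGroups Manifold

variable {n : ℕ} {B : Matrix (Fin n) (Fin n) ℤ}

theorem q_real (B : Matrix (Fin n) (Fin n) ℤ) (x : Fin n → ℤ) :
    (fun i => (x i : ℝ)) ⬝ᵥ B.map (↑) *ᵥ (fun i => (x i : ℝ)) = ((x ⬝ᵥ B *ᵥ x : ℤ) : ℝ) := by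
  simp [dotProduct, mulVec]

theorem q_cx (B : Matrix (Fin n) (Fin n) ℤ) (x : Fin n → ℤ) :
    cv x ⬝ᵥ cm (B.map (↑)) *ᵥ cv x = ((x ⬝ᵥ B *ᵥ x : ℤ) : ℂ) := by
  rw [q_cast, q_real]; rfl

theorem pd_of (hs : B.IsSymm) (hp : ∀ x : Fin n → ℤ, x ≠ 0 → 0 < x ⬝ᵥ B *ᵥ x) (hd : B.det = 1) :
    PD (B.map (↑)) := by
  have sy : (B.map ((↑) : ℤ → ℝ)).IsSymm := hs.map _
  have h0 : ∀ x : Fin n → ℝ, 0 ≤ x ⬝ᵥ B.map (↑) *ᵥ x := fun x => by
    have d : DenseRange (Pi.map fun _ : Fin n => ((↑) : ℚ → ℝ)) :=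
      DenseRange.piMap fun _ => Rat.denseRange_cast
    refine d.induction_on x (isClosed_le continuous_const (by fun_prop)) fun q => ?_
    obtain ⟨⟨b, hb⟩, k⟩ := IsLocalization.exist_integer_multiples_of_finite (nonZeroDivisors ℤ) q
    choose z hz using k
    have b0 : (b : ℝ) ≠ 0 := by exact_mod_cast nonZeroDivisors.ne_zero hb
    have e : (Pi.map (fun _ : Fin n => ((↑) : ℚ → ℝ)) q) = (b : ℝ)⁻¹ • fun i => (z i : ℝ) := by
      ext i
      have := congrArg ((↑) : ℚ → ℝ) (hz i)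
      simp only [eq_intCast, Rat.cast_intCast, zsmul_eq_mul, Rat.cast_mul] at this
      simp [this, b0]
    rw [e, mulVec_smul, smul_dotProduct, dotProduct_smul, q_real, smul_eq_mul, smul_eq_mul, ← mul_assoc]
    refine mul_nonneg (mul_self_nonneg _) ?_
    by_cases z0 : z = 0
    · simp [z0]
    · exact_mod_cast (hp z z0).le
  refine ⟨sy, fun x x0 => (h0 x).lt_of_ne fun e => x0 ?_⟩
  have ps : (B.map ((↑) : ℤ → ℝ)).PosSemidef := .of_dotProduct_mulVec_nonneg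
    (by simpa [IsHermitian] using sy.eq) h0
  have := (ps.dotProduct_mulVec_zero_iff x).1 e.symm
  refine eq_zero_of_mulVec_eq_zero ?_ this
  have k := (Int.castRingHom ℝ).map_det B
  rw [hd, map_one] at k
  exact fun f => one_ne_zero (k.trans f)

/-- the theta series -/
noncomputable def th (B : Matrix (Fin n) (Fin n) ℤ) (s : ℂ) : ℂ :=
  ∑' x : Fin n → ℤ, cexp (-π * s * (x ⬝ᵥ B *ᵥ x : ℤ))

theorem th_sum (h : PD (B.map (↑))) {s : ℂ} (hs : 0 < s.re) :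
    Summable fun x : Fin n → ℤ => ‖cexp (-π * s * (x ⬝ᵥ B *ᵥ x : ℤ))‖ := by
  simpa [q_cx] using sumQ h hs 0

theorem th_norm (s : ℂ) (k : ℤ) : ‖cexp (-π * s * k)‖ = rexp (-π * s.re * k) := by
  rw [norm_exp]; simp

theorem th_inv (h : PD (B.map (↑))) (hd : B.det = 1) {s : ℂ} (hs : 0 < s.re) :
    th B s = (1 / s ^ (1 / 2 : ℂ)) ^ n * th B s⁻¹ := by
  obtain ⟨κ, hκ⟩ := poisson n _ h
  have u : IsUnit B.det := hd ▸ isUnit_one
  let e : (Fin n → ℤ) ≃ (Fin n → ℤ) := ⟨fun x => B *ᵥ x, fun y => B⁻¹ *ᵥ y,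
    fun x => by simp [nonsing_inv_mul _ u], fun x => by simp [mul_nonsing_inv _ u]⟩
  have c : ∀ x, cm (B.map (↑)) *ᵥ cv x = cv (B *ᵥ x) := fun x => by
    ext i; simp [cm, cv, mulVec, dotProduct]
  have k : ∀ s : ℂ, 0 < s.re → th B s = κ * (1 / s ^ (1 / 2 : ℂ)) ^ n * th B s⁻¹ := fun s hs => by
    have := hκ s hs 0 (fun y => cv (e.symm y)) fun y => by
      rw [c, smul_zero, add_zero]; exact congrArg cv (e.apply_symm_apply y)
    rw [← e.tsum_eq (fun y => cexp (-π / s * (cv (e.symm y) ⬝ᵥ (cv y + I • 0))))] at this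
    simp only [zero_dotProduct, mul_zero, add_zero, smul_zero, q_cx, e.symm_apply_apply] at this
    rw [th, this, th]
    refine congrArg _ (tsum_congr fun x => ?_)
    rw [show cv (e x) = _ from (c x).symm, q_cx, div_eq_mul_inv]
  have p : th B 1 ≠ 0 := by
    have s1 := th_sum h (s := 1) (by simp)
    have : th B 1 = ((∑' x : Fin n → ℤ, ‖cexp (-π * 1 * (x ⬝ᵥ B *ᵥ x : ℤ))‖ : ℝ) : ℂ) := by
      rw [ofReal_tsum, th]
      exact tsum_congr fun x => by rw [th_norm]; simp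
    rw [this, ofReal_ne_zero]
    exact (s1.tsum_pos (fun _ => norm_nonneg _) 0 (norm_pos_iff.2 (Complex.exp_ne_zero _))).ne'
  have k1 := k 1 (by simp)
  rw [one_cpow, inv_one, div_one, one_pow, mul_one] at k1
  rw [k s hs, show κ = 1 from mul_right_cancel₀ p (k1.symm.trans (one_mul _).symm), one_mul]

theorem q_nonneg (h : PD (B.map (↑))) (x : Fin n → ℤ) : 0 ≤ x ⬝ᵥ B *ᵥ x := by
  by_cases x0 : (fun i => (x i : ℝ)) = 0
  · rw [← Int.cast_nonneg_iff (R := ℝ), ← q_real, x0]; simp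
  · have := h.2 _ x0
    rw [q_real] at this
    exact_mod_cast this.le

theorem th_le (h : PD (B.map (↑))) {T : ℝ} {s : ℂ} (hs : T ≤ s.re) (x : Fin n → ℤ) :
    ‖cexp (-π * s * (x ⬝ᵥ B *ᵥ x : ℤ))‖ ≤ ‖cexp (-π * (T : ℂ) * (x ⬝ᵥ B *ᵥ x : ℤ))‖ := by
  rw [th_norm, th_norm, ofReal_re]
  refine exp_le_exp.2 (mul_le_mul_of_nonneg_right (by nlinarith [pi_pos]) ?_)
  exact_mod_cast q_nonneg h x

theorem th_diff (h : PD (B.map (↑))) {z : ℂ} (hz : 0 < z.re) : DifferentiableAt ℂ (th B) z := by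
  have o : IsOpen {s : ℂ | z.re / 2 < s.re} := isOpen_lt continuous_const continuous_re
  refine (differentiableOn_tsum_of_summable_norm (th_sum h (s := (z.re / 2 : ℝ)) (by simpa using hz))
    (fun x => by fun_prop) o fun x w hw => th_le h (le_of_lt hw) x).differentiableAt (o.mem_nhds ?_)
  simpa using hz

theorem fin_q (h : PD (B.map (↑))) (k : ℤ) : {x : Fin n → ℤ | x ⬝ᵥ B *ᵥ x = k}.Finite := by
  have := (th_sum h (s := 1) (by simp)).tendsto_cofinite_zero.eventually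
    (gt_mem_nhds (Real.exp_pos (-π * k)))
  refine (Filter.eventually_cofinite.1 this).subset fun x hx => ?_
  rw [Set.mem_setOf_eq, th_norm, hx]; simp

variable {B : Matrix (Fin 24) (Fin 24) ℤ}

theorem re_neg_I (τ : ℍ) : (-I * τ).re = τ.im := by simp

theorem th_slash (h : PD (B.map (↑))) (hd : B.det = 1) (he : ∀ x : Fin 24 → ℤ, (2 : ℤ) ∣ x ⬝ᵥ B *ᵥ x)
    (γ : SL(2, ℤ)) : (fun τ : ℍ => th B (-I * τ)) ∣[(12 : ℤ)] γ = fun τ : ℍ => th B (-I * τ) := by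
  refine SlashInvariantForm.slash_action_generators_SL2Z (funext fun z => ?_) (funext fun z => ?_) γ
  · have z0 := z.ne_zero
    have s0 : -I * z ≠ 0 := mul_ne_zero (neg_ne_zero.2 I_ne_zero) z0
    rw [SlashInvariantForm.slash_S_apply, th_inv h hd (s := -I * z) (by rw [re_neg_I]; exact z.im_pos),
      mul_comm]
    congr 1
    · have e : ((-I * z) ^ (1 / 2 : ℂ)) ^ 2 = -I * z := by
        rw [one_div]; exact cpow_ofNat_inv_pow _ 2
      rw [one_div, inv_pow, show 24 = 2 * 12 by rfl, pow_mul, e, mul_pow, _root_.zpow_neg,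
        show (-I) ^ 12 = 1 by rw [show 12 = 4 * 3 by rfl, pow_mul, Even.neg_pow ⟨2, rfl⟩, I_pow_four,
          one_pow], one_mul]
      rfl
    · congr 1
      rw [coe_mk, mul_inv, inv_neg, inv_neg, inv_I]; ring
  · have dn : denom (ModularGroup.T : SL(2, ℤ)) (z : ℂ) = 1 := by
      rw [ModularGroup.denom_apply]; simp [ModularGroup.T]
    rw [SL_slash_apply, dn, modular_T_smul]
    simp only [coe_vadd, th]
    rw [tsum_congr (g := fun x : Fin 24 → ℤ => cexp (-π * (-I * z) * (x ⬝ᵥ B *ᵥ x : ℤ))) fun x => by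
      obtain ⟨k, e⟩ := he x
      rw [e, ← mul_one (cexp (-π * (-I * z) * _)), ← exp_int_mul_two_pi_mul_I k, ← Complex.exp_add]
      congr 1; push_cast; ring]
    simp

/-- the theta series as a modular form -/
noncomputable def thMF (h : PD (B.map (↑))) (hd : B.det = 1)
    (he : ∀ x : Fin 24 → ℤ, (2 : ℤ) ∣ x ⬝ᵥ B *ᵥ x) : ModularForm 𝒮ℒ 12 where
  toFun := fun τ : ℍ => th B (-I * τ)
  slash_action_eq' := fun _ ⟨γ, hγ⟩ => hγ ▸ th_slash h hd he γ
  holo' := fun τ => ((th_diff h (by rw [re_neg_I]; exact τ.im_pos)).comp (τ : ℂ)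
    (by fun_prop : DifferentiableAt ℂ (fun z => -I * z) τ)).mdifferentiableAt.comp τ
      τ.mdifferentiable_coe
  bdd_at_cusps' {c} hc := by
    rw [OnePoint.isBoundedAt_iff_forall_SL2Z hc]
    intro γ _
    rw [th_slash h hd he γ, isBoundedAtImInfty_iff]
    have s1 := th_sum h (s := (1 : ℝ)) (by simp)
    exact ⟨_, 1, fun z hz => tsum_of_norm_bounded s1.hasSum fun x =>
      th_le h (by rwa [re_neg_I]) x⟩

theorem th_coeff (h : PD (B.map (↑))) (hd : B.det = 1)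
    (he : ∀ x : Fin 24 → ℤ, (2 : ℤ) ∣ x ⬝ᵥ B *ᵥ x) (m : ℕ) :
    (qExpansion 1 (thMF h hd he)).coeff m = {x : Fin 24 → ℤ | x ⬝ᵥ B *ᵥ x = 2 * m}.ncard := by
  refine (ModularFormClass.qExpansion_coeff_unique one_pos one_mem_strictPeriods_SL
    (c := fun m => ({x : Fin 24 → ℤ | x ⬝ᵥ B *ᵥ x = 2 * m}.ncard : ℂ)) (fun τ => ?_) m).symm
  have s1 := (th_sum h (s := -I * τ) (by rw [re_neg_I]; exact τ.im_pos)).of_norm.hasSum
  have := s1.tsum_fiberwise fun x => ((x ⬝ᵥ B *ᵥ x) / 2).toNat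
  refine this.congr_fun fun m => ?_
  have e : (fun x : Fin 24 → ℤ => ((x ⬝ᵥ B *ᵥ x) / 2).toNat) ⁻¹' {m} =
      {x : Fin 24 → ℤ | x ⬝ᵥ B *ᵥ x = 2 * m} := by
    ext x
    have := he x
    have := q_nonneg h x
    simp only [Set.mem_preimage, Set.mem_singleton_iff, Set.mem_setOf_eq]
    omega
  rw [e, tsum_congr (g := fun _ => Function.Periodic.qParam 1 τ ^ m) fun x => by
    rw [x.2, Function.Periodic.qParam, ← Complex.exp_nat_mul]
    congr 1; push_cast; ring, tsum_const, Nat.card_coe_set_eq, nsmul_eq_mul, smul_eq_mul]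

theorem th_eq (h : PD (B.map (↑))) (hd : B.det = 1)
    (he : ∀ x : Fin 24 → ℤ, (2 : ℤ) ∣ x ⬝ᵥ B *ᵥ x) (hp : ∀ x : Fin 24 → ℤ, x ≠ 0 → 0 < x ⬝ᵥ B *ᵥ x)
    (h2 : ∀ x : Fin 24 → ℤ, x ⬝ᵥ B *ᵥ x ≠ 2) :
    qExpansion 1 (thMF h hd he) = (7 / 12 : ℂ) • qExpansion 1 E₄ ^ 3 + (5 / 12 : ℂ) • qExpansion 1 E₆ ^ 2 := by
  let g : ModularForm 𝒮ℒ 12 := (7 / 12 : ℂ) • mcast (by norm_num) (E₄.pow 3) +
    (5 / 12 : ℂ) • mcast (by norm_num) (E₆.pow 2)
  have eg : qExpansion 1 g = (7 / 12 : ℂ) • qExpansion 1 E₄ ^ 3 + (5 / 12 : ℂ) • qExpansion 1 E₆ ^ 2 := by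
    simp only [g, FunLike.coe_add, FunLike.coe_smul]
    rw [← ModularForm.qExpansion_pow one_pos one_mem_strictPeriods_SL,
      ← ModularForm.qExpansion_pow one_pos one_mem_strictPeriods_SL,
      ← ModularForm.qExpansion_smul one_pos one_mem_strictPeriods_SL,
      ← ModularForm.qExpansion_smul one_pos one_mem_strictPeriods_SL]
    exact ModularForm.qExpansion_add one_pos one_mem_strictPeriods_SL ((7 / 12 : ℂ) • E₄.pow 3)
      ((5 / 12 : ℂ) • E₆.pow 2)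
  have z : thMF h hd he - g = 0 := by
    refine sturm_bound_levelOne (lt_of_lt_of_le (b := ((2 : ℕ) : ℕ∞)) (by norm_num; decide)
      (PowerSeries.nat_le_order _ _ fun i hi => ?_))
    rw [FunLike.coe_sub, ModularForm.qExpansion_sub one_pos one_mem_strictPeriods_SL, eg, map_sub,
      th_coeff]
    interval_cases i
    · rw [show {x : Fin 24 → ℤ | x ⬝ᵥ B *ᵥ x = 2 * ((0 : ℕ) : ℤ)} = {0} from Set.ext fun x =>
        ⟨fun e => by_contra fun f => (hp x f).ne' (by simpa using e), fun e => by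
          rw [Set.mem_singleton_iff.1 e]; simp⟩]
      norm_num [pow_succ, PowerSeries.coeff_mul, -PowerSeries.coeff_zero_eq_constantCoeff,
        E_qExpansion_coeff_zero _ ⟨2, rfl⟩, E_qExpansion_coeff_zero _ ⟨3, rfl⟩]
    · rw [show {x : Fin 24 → ℤ | x ⬝ᵥ B *ᵥ x = 2 * ((1 : ℕ) : ℤ)} = ∅ from
        Set.eq_empty_of_forall_notMem fun x e => h2 x (by simpa using e)]
      norm_num [pow_succ, PowerSeries.coeff_mul, Finset.Nat.antidiagonal_succ, E₄_qExpansion_coeff_one,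
        E₆_qExpansion_coeff_one, E_qExpansion_coeff_zero _ ⟨2, rfl⟩,
        E_qExpansion_coeff_zero _ ⟨3, rfl⟩, -PowerSeries.coeff_zero_eq_constantCoeff]
  rw [sub_eq_zero.1 z, eg]

theorem e4 (m : ℕ) : (qExpansion 1 E₄).coeff m =
    if m = 0 then 1 else 240 * (ArithmeticFunction.sigma 3 m : ℂ) := by
  rw [E_qExpansion_coeff _ ⟨2, rfl⟩, show bernoulli 4 = -1 / 30 by decide +kernel]; norm_num

theorem e6 (m : ℕ) : (qExpansion 1 E₆).coeff m =
    if m = 0 then 1 else -504 * (ArithmeticFunction.sigma 5 m : ℂ) := by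
  rw [E_qExpansion_coeff _ ⟨3, rfl⟩, show bernoulli 6 = 1 / 42 by decide +kernel]; norm_num

theorem counts (hs : B.IsSymm) (hp : ∀ x : Fin 24 → ℤ, x ≠ 0 → 0 < x ⬝ᵥ B *ᵥ x)
    (he : ∀ x : Fin 24 → ℤ, (2 : ℤ) ∣ x ⬝ᵥ B *ᵥ x) (hd : B.det = 1)
    (h2 : ∀ x : Fin 24 → ℤ, x ⬝ᵥ B *ᵥ x ≠ 2) :
    {x : Fin 24 → ℤ | x ⬝ᵥ B *ᵥ x = 4}.ncard = 196560 ∧
    {x : Fin 24 → ℤ | x ⬝ᵥ B *ᵥ x = 6}.ncard = 16773120 ∧
    {x : Fin 24 → ℤ | x ⬝ᵥ B *ᵥ x = 8}.ncard = 398034000 := by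
  have h := pd_of hs hp hd
  have k := fun m => (th_coeff h hd he m).symm.trans
    (congrArg (PowerSeries.coeff m) (th_eq h hd he hp h2))
  have s3 : ArithmeticFunction.sigma 3 1 = 1 ∧ ArithmeticFunction.sigma 3 2 = 9 ∧
    ArithmeticFunction.sigma 3 3 = 28 ∧ ArithmeticFunction.sigma 3 4 = 73 := by decide +kernel
  have s5 : ArithmeticFunction.sigma 5 1 = 1 ∧ ArithmeticFunction.sigma 5 2 = 33 ∧
    ArithmeticFunction.sigma 5 3 = 244 ∧ ArithmeticFunction.sigma 5 4 = 1057 := by decide +kernel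
  have k2 := k 2
  have k3 := k 3
  have k4 := k 4
  norm_num [pow_succ, PowerSeries.coeff_mul, Finset.Nat.antidiagonal_succ, e4, e6, s3, s5,
    -PowerSeries.coeff_zero_eq_constantCoeff] at k2 k3 k4
  exact ⟨by exact_mod_cast k2, by exact_mod_cast k3, by exact_mod_cast k4⟩

end CfsgH9.Theta
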