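import Cfsg.Agent.L0.ZJ2

/-! The triple factorization theorem. -/

set_option autoImplicit false
namespace CfsgTF
open Subgroup Function Cfsg CfsgH2

universe u
variable {p : ℕ} {V W : ∀ (Q : Type u) [Group Q], Subgroup Q}

/-- factorization when `V S` lies in a normal `p`-subgroup -/
def FZ (p : ℕ) (V W : ∀ (Q : Type u) [Group Q], Subgroup Q) {X : Type u} [Group X] (M : Subgroup X) : Prop :=
  ∀ S, Syl p S M → ∀ Q ≤ S, M ≤ N[Q] → inducedFunctor V S ≤ Q → S ≤ C[inducedFunctor V S] → ∀ x ∈ M,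
    ∃ a ∈ C[inducedFunctor V S], ∃ b ∈ M ⊓ N[inducedFunctor W S], x = a * b

variable {G : Type u} [Group G] [Finite G] [hp : Fact p.Prime] (hV : IsCharPFunctor p V)
  (hW : IsCharPFunctor p W)
include hV hW

omit hp in
theorem FZ.map {Y : Type u} [Group Y] {f : G →* Y} (hf : Injective f) (h : FZ p V W (⊤ : Subgroup G)) :
    FZ p V W (map f ⊤) := by
  intro S hS Q l n z c x hx
  obtain ⟨S, -, rfl⟩ := exists_map_eq_le hS.le
  obtain ⟨Q, -, rfl⟩ := exists_map_eq_le (l.trans hS.le)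
  obtain ⟨x, -, rfl⟩ := hx
  rw [inj_syl hf] at hS
  rw [iw_inj hV hS.pg hf] at z c ⊢
  rw [iw_inj hW hS.pg hf]
  obtain ⟨a, ha, b, hb, rfl⟩ := h S hS Q ((map_le_map_iff_of_injective hf).1 l) ((inj_le_norm hf).1 n) ((map_le_map_iff_of_injective hf).1 z)
    (((map_le_map_iff_of_injective hf).1 ((le_inf le_rfl c).trans (inj_inf_cent hf _ _).le)).trans
      inf_le_right) x trivial
  exact ⟨_, mem_cent_map f ha, _, ⟨mem_map_of_mem f trivial, le_normalizer_map f (mem_map_of_mem f hb.2)⟩,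
    map_mul f a b⟩

theorem fz_min (hPS : PS G fun _ _ _ M => FZ p V W M) (h : Con p (⊤ : Subgroup G) → ∀ S, Syl p S ⊤ →
    ∀ x : G, ∃ a ∈ C[inducedFunctor V S], ∃ b ∈ N[inducedFunctor W S], x = a * b) :
    FZ p V W (⊤ : Subgroup G) := by
  intro S hS Q l n z c x _
  have l0 := z.trans (le_pCoreOf le_top n (hS.pg.to_le l))
  by_cases h1 : piCoreOf {p}ᶜ (⊤ : Subgroup G) = ⊥
  swap
  · set K := piCoreOf {p}ᶜ (⊤ : Subgroup G)
    have hf := QuotientGroup.mk'_surjective K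
    have hk : ¬ p ∣ Nat.card (QuotientGroup.mk' K).ker := by
      rw [QuotientGroup.ker_mk']; exact not_dvd_piCoreOf
    have hS' := hS.map (QuotientGroup.mk' K)
    rw [map_top_of_surjective _ hf] at hS'
    have hi := inf_ker_eq_bot _ hk hS.pg
    have := hPS.quot K h1 _ hS' _ (map_mono l) (by
      rw [← map_top_of_surjective _ hf]; exact (map_mono n).trans (le_normalizer_map _))
    rw [← iw_map hV hS.pg _ hi, ← iw_map hW hS.pg _ hi, ← map_norm_of_coprime hf hk (hS.pg.to_le iw_le),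
      ← CfsgL0.map_cent_of_coprime hf hk (hS.pg.to_le iw_le)] at this
    obtain ⟨_, ⟨a, ha, rfl⟩, _, ⟨-, b, hb, rfl⟩, e⟩ := this (map_mono z) (map_mono c) (QuotientGroup.mk' K x) trivial
    have k : a⁻¹ * x * b⁻¹ ∈ K := by
      rw [← QuotientGroup.eq_one_iff, ← QuotientGroup.mk'_apply, map_mul, map_mul, e, map_inv, map_inv]
      group
    exact ⟨a * (a⁻¹ * x * b⁻¹), mul_mem ha (cent_anti l0 (le_centralizer_iff.1 piCoreOf_le_cent k)), b,
      ⟨trivial, hb⟩, by group⟩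
  by_cases h2 : S ⊓ C[piCoreOf {p} (⊤ : Subgroup G)] ≤ piCoreOf {p} ⊤
  · obtain ⟨a, ha, b, hb, e⟩ := h (con_of_syl hS h1 h2) S hS x
    exact ⟨a, ha, b, ⟨trivial, hb⟩, e⟩
  obtain ⟨k, hk, m, hm, rfl⟩ := (hS.inf_norm (K := C[piCoreOf {p} (⊤ : Subgroup G)]) le_top
    le_normalizer_of_normal).frattini (g := x) (le_normalizer_of_normal (mem_top x))
  obtain ⟨a, ha, b, hb, rfl⟩ := hPS.sub (fun e => h2 (le_pCoreOf le_top e.ge (hS.pg.to_le inf_le_left))) S
    (hS.mono (le_norm_inf le_normalizer le_normalizer_of_normal) le_top) Q l (le_top.trans n) z c m hm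
  exact ⟨k * a, mul_mem (cent_anti l0 hk) ha, b, ⟨trivial, hb.2⟩, (mul_assoc _ _ _).symm⟩

theorem fz_of (h : ∀ (K R : Subgroup G) [(R.subgroupOf K).Normal], Con p (⊤ : Subgroup (K ⧸ R.subgroupOf K)) →
    ∀ S : Subgroup (K ⧸ R.subgroupOf K), Syl p S ⊤ →
    ∀ x, ∃ a ∈ C[inducedFunctor V S], ∃ b ∈ N[inducedFunctor W S], x = a * b) (M : Subgroup G) :
    FZ p V W M :=
  sec_ind' (fun _ _ _ M => FZ p V W M) (fun _ _ _ _ _ _ _ hf h => h.map hV hW hf)
    (fun K R _ h2 => fz_min hV hW h2 (h K R)) G M (Sec.self M)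

theorem fsf_of_fac (h : ∀ S : Subgroup G, Syl p S ⊤ →
    ∀ x, ∃ a ∈ N[inducedFunctor V S], ∃ b ∈ N[inducedFunctor W S], x = a * b) :
    FSF p (IF G {V, W}) ⊤ := by
  intro S hS U hU x _ hx
  obtain ⟨a, ha, b, hb, rfl⟩ := h S hS x
  have n1 := cf_le_norm (iw_cf hV) hS.pg
  have n2 := cf_le_norm (iw_cf hW) hS.pg
  obtain ⟨k, hk, l⟩ := (hS.mono (le_inf n1 n2) le_top).exists_conj_le ((hS.pg.to_le hU).map (cj b))
    (le_inf (by
      rw [← map_cj_cj, map_cj_le_iff] at hx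
      exact hx.trans (map_cj_le_of_mem n1 (inv_mem ha))) (map_cj_le_of_mem (hU.trans n2) hb))
  rw [map_cj_cj] at l
  rw [show a * b = a * k⁻¹ * (k * b) by group] at hx ⊢
  exact Fu.step _ _ (Fu.single hU ⟨_, ⟨W, by simp, rfl⟩, trivial, mul_mem hk.2 hb⟩ l)
    ⟨_, ⟨V, by simp, rfl⟩, trivial, Subgroup.mul_mem _ ha (Subgroup.inv_mem _ hk.1)⟩ hx

end CfsgTF
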